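/-
Core library: the multiplier of the alternating group has order at most 2 (degree not 6 or 7).
-/
import Cfsg.Agent.Core.CosetBound
import Cfsg.Agent.FGS2.SchurTransfer
import Mathlib

set_option autoImplicit false
set_option linter.unusedSectionVars false
set_option linter.unusedVariables false
set_option linter.style.haveILetI false

namespace Cfsg.Agent.Core.AltMult

open Equiv Subgroup
open scoped commutatorElement

/-! ### Groups given by Moore relations twisted by a central element -/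

section Bound

variable {P : Type*} [Group P] {ι : Type*} [DecidableEq ι]

theorem card_le_factorial (X : ι → P) (z : P) (hzc : ∀ g, g * z = z * g) (hz2 : z * z = 1) :
    ∀ I : Finset ι, (∀ i ∈ I, X i ^ 3 = 1) → (∀ i ∈ I, ∀ j ∈ I, i ≠ j → (X i * X j) ^ 2 = z) →
      Finite (closure (insert z (X '' (I : Set ι)))) ∧
        Nat.card (closure (insert z (X '' (I : Set ι)))) ≤ (I.card + 2).factorial := by
  classical
  intro I
  induction I using Finset.induction_on with
  | empty =>
    intro _ _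
    have he : closure (insert z (X '' ((∅ : Finset ι) : Set ι))) = zpowers z := by
      simp [zpowers_eq_closure]
    have hfin : IsOfFinOrder z := isOfFinOrder_iff_pow_eq_one.2 ⟨2, two_pos, by rw [pow_two, hz2]⟩
    rw [he]
    refine ⟨(hfin.finite_zpowers).to_subtype, ?_⟩
    rw [Nat.card_zpowers]
    exact Nat.le_of_dvd (by simp) ((orderOf_dvd_of_pow_eq_one (n := 2) (by rw [pow_two, hz2])).trans (by simp))
  | @insert m I hm ih =>
    intro hc hp
    obtain ⟨hfin, hcard⟩ := ih (fun i hi => hc i (Finset.mem_insert_of_mem hi))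
      (fun i hi j hj => hp i (Finset.mem_insert_of_mem hi) j (Finset.mem_insert_of_mem hj))
    set H := closure (insert z (X '' (I : Set ι))) with hH
    set Y := X m with hY
    have hzH : z ∈ H := subset_closure (Set.mem_insert _ _)
    have hXH : ∀ i ∈ I, X i ∈ H := fun i hi => subset_closure (Set.mem_insert_of_mem _ ⟨i, hi, rfl⟩)
    -- the relation in the form `X i * X j = z * (X j)^2 * (X i)^2`
    have rel : ∀ {a b : P}, a ^ 3 = 1 → b ^ 3 = 1 → (a * b) ^ 2 = z → a * b = z * (b ^ 2 * a ^ 2) := by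
      intro a b ha hb h
      have hai : a⁻¹ = a ^ 2 := inv_eq_of_mul_eq_one_right (by rw [← pow_succ', ha])
      have hbi : b⁻¹ = b ^ 2 := inv_eq_of_mul_eq_one_right (by rw [← pow_succ', hb])
      rw [← hai, ← hbi, ← mul_inv_rev, eq_mul_inv_iff_mul_eq, ← pow_two, h]
    let q : P → P ⧸ H := fun g => (g : P ⧸ H)
    have qz : ∀ g : P, q (z * g) = q g := fun g => by
      rw [← hzc g]; exact QuotientGroup.mk_mul_of_mem g hzH
    have qh : ∀ (g h : P), h ∈ H → q (g * h) = q g := fun g h hh => QuotientGroup.mk_mul_of_mem g hh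
    let T : Finset (P ⧸ H) := {q 1, q Y, q (Y ^ 2)} ∪ I.image (fun j => q (X j * Y ^ 2))
    have m1 : q 1 ∈ T := by simp [T]
    have mY : q Y ∈ T := by simp [T]
    have mY2 : q (Y ^ 2) ∈ T := by simp [T]
    have mK : ∀ j ∈ I, q (X j * Y ^ 2) ∈ T := fun j hj =>
      Finset.mem_union_right _ (Finset.mem_image_of_mem _ hj)
    have hY3 : Y ^ 3 = 1 := hc m (Finset.mem_insert_self _ _)
    have hX3 : ∀ j ∈ I, X j ^ 3 = 1 := fun j hj => hc j (Finset.mem_insert_of_mem hj)
    have hne : ∀ j ∈ I, j ≠ m := fun j hj h => hm (h ▸ hj)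
    have rXY : ∀ j ∈ I, X j * Y = z * (Y ^ 2 * X j ^ 2) := fun j hj =>
      rel (hX3 j hj) hY3 (hp j (Finset.mem_insert_of_mem hj) m (Finset.mem_insert_self _ _) (hne j hj))
    have rYX : ∀ j ∈ I, Y * X j = z * (X j ^ 2 * Y ^ 2) := fun j hj =>
      rel hY3 (hX3 j hj) (hp m (Finset.mem_insert_self _ _) j (Finset.mem_insert_of_mem hj) (hne j hj).symm)
    have zz : ∀ g : P, z * (z * g) = g := fun g => by rw [← mul_assoc, hz2, one_mul]
    have zsw : ∀ g h : P, g * (z * h) = z * (g * h) := fun g h => by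
      rw [← mul_assoc, hzc g, mul_assoc]
    have sqY : ∀ j ∈ I, X j ^ 2 * Y ^ 2 = z * (Y * X j) := fun j hj => by rw [rYX j hj, zz]
    have sY : ∀ j ∈ I, X j ^ 2 * Y = z * (X j * Y ^ 2 * X j ^ 2) := fun j hj => by
      calc X j ^ 2 * Y = X j * (X j * Y) := by rw [pow_two, mul_assoc]
        _ = z * (X j * Y ^ 2 * X j ^ 2) := by rw [rXY j hj, zsw]; simp only [mul_assoc]
    have hS : ∀ g ∈ insert z (X '' ((insert m I : Finset ι) : Set ι)), ∀ t ∈ T, g • t ∈ T := by
      intro g hg t ht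
      have ht' : t = q 1 ∨ t = q Y ∨ t = q (Y ^ 2) ∨ ∃ j ∈ I, t = q (X j * Y ^ 2) := by
        simp only [T, Finset.mem_union, Finset.mem_insert, Finset.mem_singleton, Finset.mem_image] at ht
        rcases ht with (h | h | h) | ⟨j, hj, h⟩
        · exact Or.inl h
        · exact Or.inr (Or.inl h)
        · exact Or.inr (Or.inr (Or.inl h))
        · exact Or.inr (Or.inr (Or.inr ⟨j, hj, h.symm⟩))
      obtain ⟨r, rfl⟩ : ∃ r, t = q r := by
        rcases ht' with h | h | h | ⟨j, hj, h⟩ <;> exact ⟨_, h⟩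
      show q (g * r) ∈ T
      rcases hg with rfl | ⟨i, hi, rfl⟩
      · rw [qz]; exact ht
      suffices ∀ r', (r' = 1 ∨ r' = Y ∨ r' = Y ^ 2 ∨ ∃ j ∈ I, r' = X j * Y ^ 2) → q (X i * r') ∈ T by
        rcases ht' with h | h | h | ⟨j, hj, h⟩ <;>
        · have he : q (X i * r) = X i • q r := rfl
          rw [he, h]
          exact this _ (by first | exact Or.inl rfl | exact Or.inr (Or.inl rfl) |
            exact Or.inr (Or.inr (Or.inl rfl)) | exact Or.inr (Or.inr (Or.inr ⟨j, hj, rfl⟩)))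
      intro r' hr'
      rcases Finset.mem_insert.1 (Finset.mem_coe.1 hi) with him | hi
      · rw [him, ← hY]
        rcases hr' with rfl | rfl | rfl | ⟨j, hj, rfl⟩
        · rw [mul_one]; exact mY
        · rw [← pow_two]; exact mY2
        · rw [← pow_succ', hY3]; exact m1
        · have e : Y * (X j * Y ^ 2) = z * (X j ^ 2 * Y) := by
            rw [← mul_assoc, rYX j hj, mul_assoc, mul_assoc, ← pow_add,
              show (2 + 2 : ℕ) = 3 + 1 from rfl, pow_add, hY3, one_mul, pow_one]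
          rw [e, qz, sY j hj, qz, qh _ _ (pow_mem (hXH j hj) 2)]
          exact mK j hj
      · rcases hr' with rfl | rfl | rfl | ⟨j, hj, rfl⟩
        · rw [mul_one]
          have := qh 1 _ (hXH i hi)
          rw [one_mul] at this
          rw [this]; exact m1
        · rw [rXY i hi, qz, qh _ _ (pow_mem (hXH i hi) 2)]; exact mY2
        · exact mK i hi
        · rcases eq_or_ne i j with rfl | hij
          · rw [← mul_assoc, ← pow_two, sqY i hi, qz, qh _ _ (hXH i hi)]; exact mY
          · have e : X i * (X j * Y ^ 2) = X j ^ 2 * Y * X i := by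
              have := rel (hX3 i hi) (hX3 j hj)
                (hp i (Finset.mem_insert_of_mem hi) j (Finset.mem_insert_of_mem hj) hij)
              rw [← mul_assoc, this, mul_assoc, mul_assoc, sqY i hi, zsw, zz, mul_assoc]
            rw [e, qh _ _ (hXH i hi), sY j hj, qz, qh _ _ (pow_mem (hXH j hj) 2)]
            exact mK j hj
    haveI := hfin
    have hHS : H ≤ closure (insert z (X '' ((insert m I : Finset ι) : Set ι))) :=
      closure_mono (Set.insert_subset_insert (Set.image_mono (by simp)))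
    obtain ⟨hf, hle⟩ := CosetBound.card_le _ H T (by exact m1) hS hHS
    refine ⟨hf, hle.trans ?_⟩
    have hT : T.card ≤ I.card + 3 := by
      refine (Finset.card_union_le _ _).trans ?_
      have h1 : ({q 1, q Y, q (Y ^ 2)} : Finset (P ⧸ H)).card ≤ 3 := Finset.card_le_three
      have h2 : (I.image (fun j => q (X j * Y ^ 2))).card ≤ I.card := Finset.card_image_le
      omega
    rw [Finset.card_insert_of_notMem hm]
    calc T.card * Nat.card H ≤ (I.card + 3) * (I.card + 2).factorial := Nat.mul_le_mul hT hcard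
      _ = (I.card + 1 + 2).factorial := by
        rw [show I.card + 1 + 2 = (I.card + 2) + 1 from by omega, Nat.factorial_succ (I.card + 2)]

end Bound

/-! ### The three-cycles through two fixed points -/

section Cycles

variable {α : Type*} [Fintype α] [DecidableEq α] {a b : α}

/-- The three-cycle attached to `i`. -/
def cyc (a b i : α) : Perm α := swap a i * swap a b

theorem cyc_inv (a b i : α) : (cyc a b i)⁻¹ = swap a b * swap a i := by
  rw [cyc, mul_inv_rev, swap_inv, swap_inv]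

theorem cyc_cube (hab : a ≠ b) {i : α} (hia : i ≠ a) (hib : i ≠ b) : cyc a b i ^ 3 = 1 := by
  have : (cyc a b i).IsThreeCycle := Perm.isThreeCycle_swap_mul_swap_same (Ne.symm hia) hab hib
  rw [← this.orderOf]; exact pow_orderOf_eq_one _

theorem swap_comm_of_disjoint {p q r s : α} (h1 : p ≠ r) (h2 : p ≠ s) (h3 : q ≠ r) (h4 : q ≠ s) :
    swap p q * swap r s = swap r s * swap p q := by
  have : swap p q * swap r s * (swap p q)⁻¹ = swap (swap p q r) (swap p q s) := by
    rw [swap_apply_apply]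
  rw [swap_apply_of_ne_of_ne h1.symm h3.symm, swap_apply_of_ne_of_ne h2.symm h4.symm,
    mul_inv_eq_iff_eq_mul] at this
  exact this

theorem cyc_mul_sq (hab : a ≠ b) {i j : α} (hia : i ≠ a) (hib : i ≠ b) (hja : j ≠ a) (hjb : j ≠ b)
    (hij : i ≠ j) : (cyc a b i * cyc a b j) ^ 2 = 1 := by
  have hc : swap a b * swap a j * swap a b = swap b j := by
    have : swap a b * swap a j * (swap a b)⁻¹ = swap (swap a b a) (swap a b j) := by
      rw [swap_apply_apply]
    rw [swap_inv, swap_apply_left, swap_apply_of_ne_of_ne hja hjb] at this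
    exact this
  have e : cyc a b i * cyc a b j = swap a i * swap b j := by
    rw [← hc]; simp only [cyc, mul_assoc]
  rw [e, pow_two, swap_comm_of_disjoint hab hja.symm hib hij]
  calc swap b j * swap a i * (swap b j * swap a i)
      = swap b j * swap a i * (swap a i * swap b j) := by
        rw [swap_comm_of_disjoint hab hja.symm hib hij]
    _ = 1 := by rw [mul_assoc, swap_mul_self_mul, swap_mul_self]

theorem cyc_conj (p : Perm α) (a b i : α) : p * cyc a b i * p⁻¹ = cyc (p a) (p b) (p i) := by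
  simp only [cyc, swap_apply_apply]; group

theorem cyc_swap (hab : a ≠ b) {i : α} (hia : i ≠ a) (hib : i ≠ b) : cyc b a i = (cyc a b i)⁻¹ := by
  have : swap a b * swap a i * (swap a b)⁻¹ = swap (swap a b a) (swap a b i) := by
    rw [swap_apply_apply]
  rw [swap_apply_left, swap_apply_of_ne_of_ne hia hib, swap_inv] at this
  rw [cyc_inv, cyc, ← this, swap_comm b a, mul_assoc, swap_mul_self, mul_one]

theorem mem_closure_cyc (hab : a ≠ b) (u : Perm α) (hu : Perm.sign u = 1) :
    u ∈ closure (cyc a b '' {i | i ≠ a ∧ i ≠ b}) := by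
  classical
  set G0 := closure (cyc a b '' {i | i ≠ a ∧ i ≠ b})
  have hgen : closure (Set.range (swap a) : Set (Perm α)) = ⊤ := by
    rw [eq_top_iff, ← Perm.closure_isSwap, closure_le]
    rintro _ ⟨x, y, hxy, rfl⟩
    have hmem : ∀ z, swap a z ∈ closure (Set.range (swap a) : Set (Perm α)) := fun z =>
      subset_closure ⟨z, rfl⟩
    rcases eq_or_ne x a with rfl | hxa
    · exact hmem y
    rcases eq_or_ne y a with rfl | hya
    · rw [swap_comm]; exact hmem x
    · have : swap a x * swap a y * (swap a x)⁻¹ = swap (swap a x a) (swap a x y) := by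
        rw [swap_apply_apply]
      rw [swap_apply_left, swap_apply_of_ne_of_ne hya hxy.symm] at this
      exact this ▸ mul_mem (mul_mem (hmem x) (hmem y)) (inv_mem (hmem x))
  have key : ∀ u : Perm α, u ∈ G0 ∨ swap a b * u ∈ G0 := by
    intro u
    have hu : u ∈ closure (Set.range (swap a) : Set (Perm α)) := hgen ▸ mem_top u
    have step : ∀ z v, (v ∈ G0 ∨ swap a b * v ∈ G0) → (swap a z * v ∈ G0 ∨ swap a b * (swap a z * v) ∈ G0) := by
      intro z v hv
      rcases eq_or_ne z a with rfl | hza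
      · rw [swap_self, ← Perm.one_def, one_mul]; exact hv
      rcases eq_or_ne z b with rfl | hzb
      · rw [swap_mul_self_mul]; exact hv.symm
      have hcm : cyc a b z ∈ G0 := subset_closure ⟨z, ⟨hza, hzb⟩, rfl⟩
      rcases hv with hv | hv
      · right
        rw [← mul_assoc, ← cyc_inv]
        exact mul_mem (inv_mem hcm) hv
      · left
        have : swap a z * v = cyc a b z * (swap a b * v) := by
          rw [cyc, mul_assoc, swap_mul_self_mul]
        rw [this]
        exact mul_mem hcm hv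
    induction hu using closure_induction_left with
    | one => exact Or.inl (one_mem _)
    | mul_left x hx y _ hy => obtain ⟨z, rfl⟩ := hx; exact step z y hy
    | inv_mul_cancel x hx y _ hy => obtain ⟨z, rfl⟩ := hx; rw [swap_inv]; exact step z y hy
  rcases key u with h | h
  · exact h
  · exfalso
    have hle : G0 ≤ Perm.sign.ker := by
      rw [closure_le]
      rintro _ ⟨i, ⟨hia, -⟩, rfl⟩
      simp [cyc, MonoidHom.mem_ker, Perm.sign_swap hia.symm, Perm.sign_swap hab]
    have := hle h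
    rw [MonoidHom.mem_ker, map_mul, Perm.sign_swap hab, hu] at this
    exact absurd this (by decide)

end Cycles

/-! ### Lifting to a central extension -/

section Lift

variable {α : Type*} [Fintype α] [DecidableEq α] {Γ : Type*} [Group Γ]
variable (π : Γ →* Perm α) (hker : π.ker ≤ center Γ) (hsurj : ∀ u : Perm α, Perm.sign u = 1 → ∃ g, π g = u)
variable {a b : α} (hab : a ≠ b) (h8 : 8 ≤ Fintype.card α)

theorem exists_two_outside (h8 : 8 ≤ Fintype.card α) (S : Finset α) (hS : S.card ≤ 6) :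
    ∃ p q, p ≠ q ∧ p ∉ S ∧ q ∉ S := by
  have : 1 < Sᶜ.card := by rw [Finset.card_compl]; omega
  obtain ⟨p, hp, q, hq, hpq⟩ := Finset.one_lt_card.1 this
  exact ⟨p, q, hpq, Finset.mem_compl.1 hp, Finset.mem_compl.1 hq⟩

/-- Lifts of the involutions that invert the three-cycle attached to `i`. -/
def Inverter (π : Γ →* Perm α) (a b i : α) (g : Γ) : Prop :=
  ∃ k l, k ≠ l ∧ k ∉ ({a, b, i} : Finset α) ∧ l ∉ ({a, b, i} : Finset α) ∧ π g = swap a b * swap k l

include hker in
theorem central_of_map_eq {g h : Γ} (e : π g = π h) : ∃ c ∈ center Γ, g = c * h :=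
  ⟨g * h⁻¹, hker (by simp [MonoidHom.mem_ker, e]), by simp⟩

include hab in
theorem conj_inverter {i : α} (hia : i ≠ a) (hib : i ≠ b) {g : Γ} (hg : Inverter π a b i g) :
    π g * cyc a b i * (π g)⁻¹ = (cyc a b i)⁻¹ := by
  obtain ⟨k, l, hkl, hk, hl, e⟩ := hg
  simp only [Finset.mem_insert, Finset.mem_singleton, not_or] at hk hl
  rw [e, cyc_conj, Perm.mul_apply, Perm.mul_apply, Perm.mul_apply,
    swap_apply_of_ne_of_ne (Ne.symm hk.1) (Ne.symm hl.1), swap_apply_of_ne_of_ne (Ne.symm hk.2.1) (Ne.symm hl.2.1),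
    swap_apply_of_ne_of_ne (Ne.symm hk.2.2) (Ne.symm hl.2.2), swap_apply_left, swap_apply_right,
    swap_apply_of_ne_of_ne hia hib, cyc_swap hab hia hib]

theorem conj_central {c : Γ} (hc : c ∈ center Γ) (g x : Γ) : g * (c * x) * g⁻¹ = c * (g * x * g⁻¹) := by
  rw [← mul_assoc, mem_center_iff.1 hc g]; simp only [mul_assoc]

theorem mul_pow_central {c : Γ} (hc : c ∈ center Γ) (x : Γ) (k : ℕ) : (c * x) ^ k = c ^ k * x ^ k :=
  (Commute.mul_pow (mem_center_iff.1 hc x).symm k)

/-- The canonical lift of the three-cycle attached to `i`. -/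
def IsLift (π : Γ →* Perm α) (a b i : α) (X : Γ) : Prop :=
  π X = cyc a b i ∧ X ^ 3 = 1 ∧ ∀ g, Inverter π a b i g → g * X * g⁻¹ = X⁻¹

include hker in
theorem lift_unique {i : α} {X X' g : Γ} (hX : π X = cyc a b i) (hX' : π X' = cyc a b i) (h3 : X ^ 3 = 1)
    (h3' : X' ^ 3 = 1) (hg : g * X * g⁻¹ = X⁻¹) (hg' : g * X' * g⁻¹ = X'⁻¹) : X' = X := by
  obtain ⟨c, hc, rfl⟩ := central_of_map_eq π hker (hX'.trans hX.symm)
  rw [conj_central hc, hg, mul_inv_rev] at hg'
  have hg2 : X⁻¹ * c = X⁻¹ * c⁻¹ := (mem_center_iff.1 hc X⁻¹).trans hg'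
  have h2 : c * c = 1 := by
    nth_rewrite 2 [mul_left_cancel hg2]
    exact mul_inv_cancel c
  have h3c : c ^ 3 = 1 := by rw [mul_pow_central hc, h3, mul_one] at h3'; exact h3'
  rw [pow_succ, pow_two, h2, one_mul] at h3c
  rw [h3c, one_mul]

include hker hab in
/-- Two inverters with disjoint supports act in the same way. -/
theorem inverter_step {i : α} (hia : i ≠ a) (hib : i ≠ b) {X g g' : Γ} (hX : π X = cyc a b i)
    (h3 : X ^ 3 = 1) (hg : g * X * g⁻¹ = X⁻¹) {k l k' l' : α} (hk : k ≠ k') (hk' : k ≠ l') (hl : l ≠ k')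
    (hl' : l ≠ l') (ka : k ≠ a) (kb : k ≠ b) (la : l ≠ a) (lb : l ≠ b)
    (k'a : k' ≠ a) (k'b : k' ≠ b) (l'a : l' ≠ a) (l'b : l' ≠ b) (eg : π g = swap a b * swap k l)
    (eg' : π g' = swap a b * swap k' l') (hg' : Inverter π a b i g') : g' * X * g'⁻¹ = X⁻¹ := by
  have e1 : π (g' * X * g'⁻¹) = π X⁻¹ := by
    rw [map_mul, map_mul, map_inv, map_inv, hX, conj_inverter π hab hia hib hg']
  obtain ⟨c, hc, hcx⟩ := central_of_map_eq π hker e1
  have hc3 : c ^ 3 = 1 := by
    have : (g' * X * g'⁻¹) ^ 3 = 1 := by rw [conj_pow, h3, mul_one, mul_inv_cancel]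
    rwa [hcx, mul_pow_central hc, inv_pow, h3, inv_one, mul_one] at this
  have hsq : (g' * g) ^ 2 ∈ center Γ := by
    refine hker ?_
    rw [MonoidHom.mem_ker, map_pow, map_mul, eg, eg']
    have h1 := swap_comm_of_disjoint (p := a) (q := b) (r := k) (s := l) ka.symm la.symm kb.symm lb.symm
    have h1' := swap_comm_of_disjoint (p := a) (q := b) (r := k') (s := l') k'a.symm l'a.symm k'b.symm l'b.symm
    have h2 := swap_comm_of_disjoint (p := k) (q := l) (r := k') (s := l') hk hk' hl hl'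
    have e : swap a b * swap k' l' * (swap a b * swap k l) = swap k' l' * swap k l := by
      rw [h1', mul_assoc, swap_mul_self_mul]
    rw [e, pow_two]
    calc swap k' l' * swap k l * (swap k' l' * swap k l)
        = swap k' l' * swap k l * (swap k l * swap k' l') := by rw [h2]
      _ = 1 := by rw [mul_assoc, swap_mul_self_mul, swap_mul_self]
  have et : g' * g * X * (g' * g)⁻¹ = c⁻¹ * X := by
    have := congrArg (fun y => y⁻¹) hcx
    simp only [mul_inv_rev, inv_inv] at this
    calc g' * g * X * (g' * g)⁻¹ = g' * (g * X * g⁻¹) * g'⁻¹ := by group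
      _ = g' * X⁻¹ * g'⁻¹ := by rw [hg]
      _ = X * c⁻¹ := by rw [← this]; group
      _ = c⁻¹ * X := mem_center_iff.1 (inv_mem hc) X
  have et2 : (g' * g) ^ 2 * X * ((g' * g) ^ 2)⁻¹ = c⁻¹ * (c⁻¹ * X) := by
    calc (g' * g) ^ 2 * X * ((g' * g) ^ 2)⁻¹
        = g' * g * (g' * g * X * (g' * g)⁻¹) * (g' * g)⁻¹ := by rw [pow_two]; group
      _ = c⁻¹ * (c⁻¹ * X) := by rw [et, conj_central (inv_mem hc), et]
  rw [← mem_center_iff.1 hsq X, mul_inv_cancel_right, ← mul_assoc, right_eq_mul, ← mul_inv_rev,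
    inv_eq_one] at et2
  rw [pow_succ, pow_two, et2, one_mul] at hc3
  rw [hcx, hc3, one_mul]

include hker hsurj hab h8 in
theorem exists_lift {i : α} (hia : i ≠ a) (hib : i ≠ b) : ∃ X, IsLift π a b i X := by
  classical
  obtain ⟨k, l, hkl, hk, hl⟩ := exists_two_outside h8 {a, b, i} (Finset.card_le_three.trans (by norm_num))
  obtain ⟨g, hg⟩ := hsurj (swap a b * swap k l) (by simp [Perm.sign_swap hab, Perm.sign_swap hkl])
  obtain ⟨X₀, hX₀⟩ := hsurj (cyc a b i) (by simp [cyc, Perm.sign_swap hab, Perm.sign_swap hia.symm])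
  have hinv : Inverter π a b i g := ⟨k, l, hkl, hk, hl, hg⟩
  obtain ⟨d, hd, hdx⟩ := central_of_map_eq π hker (g := g * X₀ * g⁻¹) (h := X₀⁻¹)
    (by rw [map_mul, map_mul, map_inv, map_inv, hX₀, conj_inverter π hab hia hib hinv])
  have hc : X₀ ^ 3 ∈ center Γ :=
    hker (by rw [MonoidHom.mem_ker, map_pow, hX₀, cyc_cube hab hia hib])
  set c := X₀ ^ 3 with hcdef
  have hrel : c * c = d ^ 3 := by
    have : g * c * g⁻¹ = d ^ 3 * c⁻¹ := by
      rw [hcdef, ← conj_pow, hdx, mul_pow_central hd, inv_pow]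
    rw [mem_center_iff.1 hc g, mul_inv_cancel_right, eq_mul_inv_iff_mul_eq] at this
    exact this
  set w := d * c⁻¹ with hw
  have hwc : w ∈ center Γ := mul_mem hd (inv_mem hc)
  have hwd : w ^ 2 * d = 1 ∧ w ^ 3 * c = 1 := by
    have hcomm : Commute d c⁻¹ := (mem_center_iff.1 hd c⁻¹).symm
    constructor
    · have : w ^ 2 * d = d ^ 3 * (c * c)⁻¹ := by
        rw [hw, hcomm.mul_pow, mul_assoc, ← (hcomm.pow_right 2).eq, ← mul_assoc, ← pow_succ,
          inv_pow, pow_two]
      rw [this, hrel, mul_inv_cancel]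
    · have : w ^ 3 * c = d ^ 3 * (c * c)⁻¹ := by
        rw [hw, hcomm.mul_pow]; group
      rw [this, hrel, mul_inv_cancel]
  refine ⟨w * X₀, ?_, ?_, ?_⟩
  · rw [map_mul, MonoidHom.mem_ker.1 (show w ∈ π.ker from ?_), one_mul, hX₀]
    have hd' : d ∈ π.ker := by
      rw [MonoidHom.mem_ker]
      have := congrArg π hdx
      rw [map_mul, map_mul, map_mul, map_inv, map_inv, hX₀, conj_inverter π hab hia hib hinv] at this
      exact right_eq_mul.1 this
    have hc' : c ∈ π.ker := by rw [MonoidHom.mem_ker, map_pow, hX₀, cyc_cube hab hia hib]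
    exact mul_mem hd' (inv_mem hc')
  · rw [mul_pow_central hwc, ← hcdef, hwd.2]
  have hgx : g * (w * X₀) * g⁻¹ = (w * X₀)⁻¹ := by
    rw [conj_central hwc, hdx, ← mul_assoc, eq_inv_iff_mul_eq_one,
      show w * d * X₀⁻¹ * (w * X₀) = w * d * (X₀⁻¹ * w * X₀) by group,
      mem_center_iff.1 hwc X₀⁻¹, inv_mul_cancel_right, mul_assoc, mem_center_iff.1 hwc d, ← mul_assoc,
      ← pow_two, hwd.1]
  intro g' hg'
  obtain ⟨k', l', hkl', hk', hl', e'⟩ := hg'
  simp only [Finset.mem_insert, Finset.mem_singleton, not_or] at hk hl hk' hl'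
  have hwX : π (w * X₀) = cyc a b i := by
    rw [map_mul, hX₀, MonoidHom.mem_ker.1 (show w ∈ π.ker from ?_), one_mul]
    exact mul_mem (by
      rw [MonoidHom.mem_ker]
      have := congrArg π hdx
      rw [map_mul, map_mul, map_mul, map_inv, map_inv, hX₀, conj_inverter π hab hia hib hinv] at this
      exact right_eq_mul.1 this) (inv_mem (by rw [MonoidHom.mem_ker, map_pow, hX₀, cyc_cube hab hia hib]))
  have h3 : (w * X₀) ^ 3 = 1 := by rw [mul_pow_central hwc, ← hcdef, hwd.2]
  by_cases hdis : k ≠ k' ∧ k ≠ l' ∧ l ≠ k' ∧ l ≠ l'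
  · exact inverter_step π hker hab hia hib hwX h3 hgx hdis.1 hdis.2.1 hdis.2.2.1 hdis.2.2.2 hk.1 hk.2.1
      hl.1 hl.2.1 hk'.1 hk'.2.1 hl'.1 hl'.2.1 hg e' ⟨k', l', hkl', by simp [hk'], by simp [hl'], e'⟩
  obtain ⟨S, hS6, hsub⟩ : ∃ S : Finset α, S.card ≤ 6 ∧ ∀ x ∈ [a, b, i, k, l, k', l'], x ∈ S := by
    refine ⟨[a, b, i, k, l, k', l'].toFinset, ?_, fun x hx => List.mem_toFinset.2 hx⟩
    rw [List.toFinset]
    have : ∃ x ∈ [k', l'], x ∈ [a, b, i, k, l] := by
      by_contra hh
      push Not at hh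
      refine hdis ⟨?_, ?_, ?_, ?_⟩ <;> rintro rfl <;> simp at hh
    obtain ⟨x, hx, hx'⟩ := this
    have hsub : [a, b, i, k, l, k', l'].toFinset ⊆ insert (if x = k' then l' else k') [a, b, i, k, l].toFinset := by
      intro y hy
      simp only [List.mem_cons, List.not_mem_nil, or_false, List.mem_toFinset] at hy hx hx'
      simp only [Finset.mem_insert, List.mem_toFinset, List.mem_cons, List.not_mem_nil, or_false]
      split_ifs with h
      · subst h; rcases hy with h|h|h|h|h|h|h <;> simp_all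
      · have : x = l' := hx.resolve_left h
        subst this; rcases hy with h|h|h|h|h|h|h <;> simp_all
    refine (Finset.card_le_card hsub).trans ((Finset.card_insert_le _ _).trans ?_)
    have := List.toFinset_card_le [a, b, i, k, l]
    simp only [List.length_cons, List.length_nil] at this
    omega
  obtain ⟨p, q, hpq, hp, hq⟩ := exists_two_outside h8 S hS6
  have np : ∀ x ∈ [a, b, i, k, l, k', l'], p ≠ x ∧ q ≠ x := fun x hx =>
    ⟨fun h => hp (h ▸ hsub x hx), fun h => hq (h ▸ hsub x hx)⟩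
  obtain ⟨g1, hg1⟩ := hsurj (swap a b * swap p q) (by simp [Perm.sign_swap hab, Perm.sign_swap hpq])
  have pa := np a (by simp); have pb := np b (by simp); have pi' := np i (by simp)
  have pk := np k (by simp); have pl := np l (by simp); have pk' := np k' (by simp); have pl' := np l' (by simp)
  have hg1i : Inverter π a b i g1 := ⟨p, q, hpq, by simp [pa.1, pb.1, pi'.1], by simp [pa.2, pb.2, pi'.2], hg1⟩
  have step1 : g1 * (w * X₀) * g1⁻¹ = (w * X₀)⁻¹ :=
    inverter_step π hker hab hia hib hwX h3 hgx pk.1.symm pk.2.symm pl.1.symm pl.2.symm hk.1 hk.2.1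
      hl.1 hl.2.1 pa.1 pb.1 pa.2 pb.2 hg hg1 hg1i
  exact inverter_step π hker hab hia hib hwX h3 step1 pk'.1 pl'.1 pk'.2 pl'.2 pa.1 pb.1 pa.2 pb.2
    hk'.1 hk'.2.1 hl'.1 hl'.2.1 hg1 e' ⟨k', l', hkl', by simp [hk'], by simp [hl'], e'⟩

include hker hsurj hab h8 in
/-- A stem extension of the alternating group on at least eight letters has kernel of order at most two. -/
theorem card_ker_le [Finite Γ] (hsign : ∀ g, Perm.sign (π g) = 1) (hstem : π.ker ≤ commutator Γ) :
    Nat.card π.ker ≤ 2 := by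
  classical
  let ι := {i : α // i ≠ a ∧ i ≠ b}
  choose X hX using fun i : ι => exists_lift π hker hsurj hab h8 i.2.1 i.2.2
  -- equivariance
  have hnat : ∀ (i j : ι) (g : Γ), π g a = a → π g b = b → π g i.1 = j.1 → g * X i * g⁻¹ = X j := by
    intro i j g ga gb gi
    obtain ⟨k, l, hkl, hk, hl⟩ := exists_two_outside h8 {a, b, i.1} (Finset.card_le_three.trans (by norm_num))
    obtain ⟨g0, hg0⟩ := hsurj (swap a b * swap k l) (by simp [Perm.sign_swap hab, Perm.sign_swap hkl])
    have hi := hX i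
    have hj := hX j
    have e0 : g0 * X i * g0⁻¹ = (X i)⁻¹ := hi.2.2 g0 ⟨k, l, hkl, hk, hl, hg0⟩
    have inj := (π g).injective
    have hg' : Inverter π a b j.1 (g * g0 * g⁻¹) := by
      refine ⟨π g k, π g l, inj.ne hkl, ?_, ?_, ?_⟩
      · simp only [Finset.mem_insert, Finset.mem_singleton, not_or] at hk ⊢
        exact ⟨fun h => hk.1 (inj (h.trans ga.symm)), fun h => hk.2.1 (inj (h.trans gb.symm)),
          fun h => hk.2.2 (inj (h.trans gi.symm))⟩
      · simp only [Finset.mem_insert, Finset.mem_singleton, not_or] at hl ⊢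
        exact ⟨fun h => hl.1 (inj (h.trans ga.symm)), fun h => hl.2.1 (inj (h.trans gb.symm)),
          fun h => hl.2.2 (inj (h.trans gi.symm))⟩
      · rw [map_mul, map_mul, map_inv, hg0]
        calc π g * (swap a b * swap k l) * (π g)⁻¹
            = (π g * swap a b * (π g)⁻¹) * (π g * swap k l * (π g)⁻¹) := by group
          _ = swap a b * swap (π g k) (π g l) := by
            rw [← swap_apply_apply, ← swap_apply_apply, ga, gb]
    refine lift_unique π hker hj.1 ?_ hj.2.1 ?_ (hj.2.2 _ hg') ?_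
    · rw [map_mul, map_mul, map_inv, hi.1, cyc_conj, ga, gb, gi]
    · rw [conj_pow, hi.2.1, mul_one, mul_inv_cancel]
    · calc g * g0 * g⁻¹ * (g * X i * g⁻¹) * (g * g0 * g⁻¹)⁻¹ = g * (g0 * X i * g0⁻¹) * g⁻¹ := by group
        _ = (g * X i * g⁻¹)⁻¹ := by rw [e0]; group
  let zf : ι → ι → Γ := fun i j => (X i * X j) ^ 2
  have hzc : ∀ i j, i ≠ j → zf i j ∈ center Γ := fun i j hij => hker (by
    rw [MonoidHom.mem_ker, map_pow, map_mul, (hX i).1, (hX j).1,
      cyc_mul_sq hab i.2.1 i.2.2 j.2.1 j.2.2 (fun h => hij (Subtype.ext h))])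
  have hsym : ∀ i j, i ≠ j → zf i j = zf j i := by
    intro i j hij
    have h1 : X i * zf j i * (X i)⁻¹ = zf i j := by
      simp only [zf, ← conj_pow]; group
    rw [mem_center_iff.1 (hzc j i hij.symm) (X i), mul_inv_cancel_right] at h1
    exact h1.symm
  have hmove : ∀ i j k, i ≠ j → k ≠ j → zf i j = zf k j := by
    intro i j k hij hkj
    rcases eq_or_ne i k with rfl | hik
    · rfl
    obtain ⟨p, q, hpq, hp, hq⟩ := exists_two_outside h8 {a, b, i.1, j.1, k.1}
      (by
        refine (Finset.card_insert_le _ _).trans ?_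
        have := Finset.card_insert_le b ({i.1, j.1, k.1} : Finset α)
        have := Finset.card_le_three (a := i.1) (b := j.1) (c := k.1)
        omega)
    obtain ⟨g, hg⟩ := hsurj (swap i.1 k.1 * swap p q)
      (by simp [Perm.sign_swap (fun h => hik (Subtype.ext h)), Perm.sign_swap hpq])
    simp only [Finset.mem_insert, Finset.mem_singleton, not_or] at hp hq
    have fix : ∀ x, x ≠ i.1 → x ≠ k.1 → x ≠ p → x ≠ q → π g x = x := fun x h1 h2 h3 h4 => by
      rw [hg, Perm.mul_apply, swap_apply_of_ne_of_ne h3 h4, swap_apply_of_ne_of_ne h1 h2]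
    have ga := fix a i.2.1.symm k.2.1.symm (Ne.symm hp.1) (Ne.symm hq.1)
    have gb := fix b i.2.2.symm k.2.2.symm (Ne.symm hp.2.1) (Ne.symm hq.2.1)
    have gj := fix j.1 (fun h => hij (Subtype.ext h).symm) (fun h => hkj (Subtype.ext h).symm)
      (Ne.symm hp.2.2.2.1) (Ne.symm hq.2.2.2.1)
    have gi : π g i.1 = k.1 := by
      rw [hg, Perm.mul_apply, swap_apply_of_ne_of_ne (Ne.symm hp.2.2.1) (Ne.symm hq.2.2.1), swap_apply_left]
    have h1 : g * zf i j * g⁻¹ = zf k j := by
      simp only [zf, ← conj_pow]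
      rw [show g * (X i * X j) * g⁻¹ = (g * X i * g⁻¹) * (g * X j * g⁻¹) by group, hnat i k g ga gb gi,
        hnat j j g ga gb gj]
    rw [mem_center_iff.1 (hzc i j hij) g, mul_inv_cancel_right] at h1
    exact h1
  have hconst : ∀ i j k l, i ≠ j → k ≠ l → zf i j = zf k l := by
    intro i j k l hij hkl
    rcases eq_or_ne k j with rfl | hkj
    · rw [hmove i k l hij hkl.symm, hsym l k hkl.symm]
    · rw [hmove i j k hij hkj, hsym k j hkj, hmove j k l hkj.symm hkl.symm, hsym l k hkl.symm]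
  have hι : ∃ i j : ι, i ≠ j := by
    obtain ⟨p, q, hpq, hp, hq⟩ := exists_two_outside h8 {a, b} (Finset.card_le_two.trans (by norm_num))
    simp only [Finset.mem_insert, Finset.mem_singleton, not_or] at hp hq
    exact ⟨⟨p, hp⟩, ⟨q, hq⟩, fun h => hpq (congrArg Subtype.val h)⟩
  obtain ⟨i₀, j₀, h₀⟩ := hι
  set z := zf i₀ j₀ with hz
  have hzcen : z ∈ center Γ := hzc i₀ j₀ h₀
  have hzz : ∀ i j, i ≠ j → (X i * X j) ^ 2 = z := fun i j hij => hconst i j i₀ j₀ hij h₀
  have hz2 : z * z = 1 := by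
    obtain ⟨k, l, hkl, hk, hl⟩ := exists_two_outside h8 {a, b, i₀.1, j₀.1}
      (Finset.card_le_four.trans (by norm_num))
    obtain ⟨g, hg⟩ := hsurj (swap a b * swap k l) (by simp [Perm.sign_swap hab, Perm.sign_swap hkl])
    simp only [Finset.mem_insert, Finset.mem_singleton, not_or] at hk hl
    have e1 := (hX i₀).2.2 g ⟨k, l, hkl, by simp [hk], by simp [hl], hg⟩
    have e2 := (hX j₀).2.2 g ⟨k, l, hkl, by simp [hk], by simp [hl], hg⟩
    have h1 : g * z * g⁻¹ = (zf j₀ i₀)⁻¹ := by
      simp only [hz, zf, ← conj_pow, ← inv_pow, mul_inv_rev]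
      rw [← e1, ← e2]; group
    rw [mem_center_iff.1 hzcen g, mul_inv_cancel_right, ← hsym i₀ j₀ h₀, ← hz] at h1
    nth_rewrite 1 [h1]
    exact inv_mul_cancel z
  have hzc' : ∀ g, g * z = z * g := mem_center_iff.1 hzcen
  obtain ⟨-, hcard⟩ := card_le_factorial X z hzc' hz2 Finset.univ (fun i _ => (hX i).2.1)
    (fun i _ j _ => hzz i j)
  set K := closure (insert z (X '' ((Finset.univ : Finset ι) : Set ι))) with hK
  have hcardι : (Finset.univ : Finset ι).card + 2 = Fintype.card α := by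
    rw [Finset.card_univ, Fintype.card_subtype]
    have : (Finset.univ.filter fun x => x ≠ a ∧ x ≠ b) = (Finset.univ : Finset α) \ {a, b} := by
      ext x; simp
    rw [this, Finset.card_univ_sdiff, Finset.card_pair hab]
    omega
  rw [hcardι] at hcard
  -- `K` covers the quotient
  have hcov : ∀ g, ∃ h ∈ K, π h = π g := by
    intro g
    have hu := mem_closure_cyc hab (π g) (hsign g)
    have hle : closure (cyc a b '' {i | i ≠ a ∧ i ≠ b}) ≤ K.map π := by
      rw [closure_le]
      rintro _ ⟨i, hi, rfl⟩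
      exact ⟨X ⟨i, hi⟩, subset_closure (Set.mem_insert_of_mem _ ⟨⟨i, hi⟩, Finset.mem_coe.2 (Finset.mem_univ _), rfl⟩), (hX ⟨i, hi⟩).1⟩
    exact hle hu
  have hcomm : commutator Γ ≤ K := by
    rw [commutator_eq_closure, closure_le]
    rintro _ ⟨g, h, rfl⟩
    obtain ⟨g', hg', eg⟩ := hcov g
    obtain ⟨h', hh', eh⟩ := hcov h
    obtain ⟨c, hc, rfl⟩ := central_of_map_eq π hker eg.symm
    obtain ⟨d, hd, rfl⟩ := central_of_map_eq π hker eh.symm
    have cl : ∀ e ∈ center Γ, ∀ u x : Γ, ⁅e * u, x⁆ = ⁅u, x⁆ := by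
      intro e he u x
      rw [commutatorElement_def, commutatorElement_def, mul_inv_rev,
        show e * u * x * (u⁻¹ * e⁻¹) * x⁻¹ = e * (u * x * u⁻¹) * e⁻¹ * x⁻¹ by group,
        ← mem_center_iff.1 he (u * x * u⁻¹), mul_inv_cancel_right]
    have : ⁅c * g', d * h'⁆ = ⁅g', h'⁆ := by
      rw [cl c hc, ← commutatorElement_inv, cl d hd, commutatorElement_inv]
    rw [this, commutatorElement_def]
    exact mul_mem (mul_mem (mul_mem hg' hh') (inv_mem hg')) (inv_mem hh')
  have htop : K = ⊤ := by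
    rw [eq_top_iff]
    intro g _
    obtain ⟨g', hg', eg⟩ := hcov g
    obtain ⟨c, -, rfl⟩ := central_of_map_eq π hker eg.symm
    refine mul_mem (hcomm (hstem ?_)) hg'
    rw [MonoidHom.mem_ker]
    rw [map_mul] at eg
    exact right_eq_mul.1 eg
  rw [htop, card_top] at hcard
  haveI : Nontrivial α := ⟨⟨a, b, hab⟩⟩
  have hrange : π.range = alternatingGroup α := by
    ext u
    exact ⟨fun ⟨g, hg⟩ => Perm.mem_alternatingGroup.2 (hg ▸ hsign g),
      fun hu => hsurj u (Perm.mem_alternatingGroup.1 hu)⟩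
  have hA : 2 * Nat.card π.range = (Fintype.card α).factorial := by
    rw [hrange, Nat.card_eq_fintype_card, two_mul_card_alternatingGroup, Fintype.card_perm]
  have hprod := Subgroup.card_eq_card_quotient_mul_card_subgroup π.ker
  rw [Nat.card_congr (QuotientGroup.quotientKerEquivRange π).toEquiv] at hprod
  rw [hprod, ← hA, mul_comm 2] at hcard
  exact Nat.le_of_mul_le_mul_left hcard Nat.card_pos

end Lift

/-! ### Small quotients -/

section Small

variable {Γ : Type*} [Group Γ] [Finite Γ]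

/-- A central element of the commutator subgroup lies in the commutator subgroup of each Sylow
subgroup of its prime. -/
theorem mem_commutator_sylow {p : ℕ} [Fact p.Prime] {z : Γ} (hz : z ∈ center Γ) (hd : z ∈ commutator Γ)
    {k : ℕ} (hk : z ^ p ^ k = 1) (P : Sylow p Γ) : z ∈ (commutator (P : Subgroup Γ)).map (P : Subgroup Γ).subtype := by
  obtain ⟨h, hm⟩ := FGS2.pow_index_mem_commutator (P : Subgroup Γ) hz hd
  have hcop : Nat.Coprime (p ^ k) (P : Subgroup Γ).index :=
    Nat.Coprime.pow_left k ((Fact.out : p.Prime).coprime_iff_not_dvd.2 P.not_dvd_index)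
  have hzi : z ∈ zpowers (z ^ (P : Subgroup Γ).index) := by
    have h1 : (orderOf z).Coprime (P : Subgroup Γ).index :=
      Nat.Coprime.coprime_dvd_left (orderOf_dvd_of_pow_eq_one hk) hcop
    obtain ⟨m, hm⟩ := exists_pow_eq_self_of_coprime h1.symm
    exact ⟨m, by simpa using hm⟩
  exact zpowers_le.2 (mem_map.2 ⟨_, hm, rfl⟩) hzi

/-- When all Sylow sections are cyclic or of order at most 4, the multiplier has order at most 2. -/
theorem card_le_two_of_small (Z : Subgroup Γ) [Z.Normal] (hZc : Z ≤ center Γ) (hZd : Z ≤ commutator Γ)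
    (hodd : ∀ p : ℕ, p.Prime → p ≠ 2 → ¬ p ^ 2 ∣ Nat.card (Γ ⧸ Z))
    (htwo : ∀ v : Γ ⧸ Z, v ^ 4 = 1 → v ^ 2 = 1) (h8 : ¬ 2 ^ 3 ∣ Nat.card (Γ ⧸ Z)) :
    Nat.card Z ≤ 2 := by
  classical
  set π := QuotientGroup.mk' Z with hπ
  -- odd parts vanish
  have hoddz : ∀ p : ℕ, p.Prime → p ≠ 2 → ∀ z ∈ Z, ∀ k, z ^ p ^ k = 1 → z = 1 := by
    intro p hp hp2 z hz k hk
    haveI := Fact.mk hp
    obtain ⟨P⟩ : Nonempty (Sylow p Γ) := inferInstance
    obtain ⟨x, hx, hxz⟩ := mem_map.1 (mem_commutator_sylow (hZc hz) (hZd hz) hk P)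
    let f : (P : Subgroup Γ) →* Γ ⧸ Z := π.comp (P : Subgroup Γ).subtype
    haveI : IsCyclic f.range := by
      obtain ⟨e, he⟩ := IsPGroup.iff_card.1 (P.2.of_surjective f.rangeRestrict f.rangeRestrict_surjective)
      have hd : Nat.card f.range ∣ Nat.card (Γ ⧸ Z) := Subgroup.card_subgroup_dvd_card _
      rw [he] at hd
      have he1 : e ≤ 1 := by
        by_contra hh
        exact hodd p hp hp2 ((pow_dvd_pow p (by omega)).trans hd)
      interval_cases e
      · haveI := (Nat.card_eq_one_iff_unique.1 (by simpa using he : Nat.card f.range = 1)).1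
        exact isCyclic_of_subsingleton
      · exact isCyclic_of_prime_card (by simpa using he : Nat.card f.range = p)
    have hab : ∀ s t : (P : Subgroup Γ), s * t = t * s := by
      refine commutative_of_cyclic_center_quotient f.rangeRestrict ?_
      intro s hs
      rw [MonoidHom.ker_rangeRestrict, MonoidHom.mem_ker] at hs
      have : (s : Γ) ∈ Z := (QuotientGroup.eq_one_iff _).1 hs
      exact mem_center_iff.2 fun t => Subtype.ext (mem_center_iff.1 (hZc this) t)
    have hbot : commutator (P : Subgroup Γ) = ⊥ := by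
      rw [commutator_eq_closure, closure_eq_bot_iff]
      rintro _ ⟨s, t, rfl⟩
      exact commutatorElement_eq_one_iff_mul_comm.2 (hab s t)
    rw [hbot, mem_bot] at hx
    rw [← hxz, hx, map_one]
  -- the two-part
  haveI := Fact.mk Nat.prime_two
  obtain ⟨P⟩ : Nonempty (Sylow 2 Γ) := inferInstance
  obtain ⟨c, hc2, hcc, hcP⟩ : ∃ c : Γ, c * c = 1 ∧ c ∈ center Γ ∧ ∀ s ∈ P, ∀ t ∈ P, ⁅s, t⁆ ∈ zpowers c := by
    by_cases hall : ∀ s ∈ P, ∀ t ∈ P, ⁅s, t⁆ = (1 : Γ)
    · exact ⟨1, by simp, one_mem _, fun s hs t ht => by rw [hall s hs t ht]; exact one_mem _⟩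
    push Not at hall
    obtain ⟨u, hu, v, hv, huv⟩ := hall
    set W := (P : Subgroup Γ).map π with hW
    have hWP : IsPGroup 2 W := P.2.map π
    have hinv : ∀ x ∈ W, x * x = 1 := by
      intro x hx
      obtain ⟨e, he⟩ := hWP ⟨x, hx⟩
      obtain ⟨eW, heW⟩ := IsPGroup.iff_card.1 hWP
      have hd : Nat.card W ∣ Nat.card (Γ ⧸ Z) := Subgroup.card_subgroup_dvd_card _
      rw [heW] at hd
      have : eW ≤ 2 := by
        by_contra hh
        exact h8 ((pow_dvd_pow 2 (by omega)).trans hd)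
      have h4 : (⟨x, hx⟩ : W) ^ 4 = 1 := by
        refine orderOf_dvd_iff_pow_eq_one.1 (dvd_trans (orderOf_dvd_natCard _) ?_)
        rw [heW]; exact (pow_dvd_pow 2 this : 2 ^ eW ∣ 2 ^ 2)
      have := htwo x (congrArg Subtype.val h4)
      rwa [pow_two] at this
    have hWc : ∀ s ∈ W, ∀ t ∈ W, s * t = t * s := by
      intro s hs t ht
      have h := hinv _ (mul_mem hs ht)
      calc s * t = (s * t)⁻¹ := (inv_eq_of_mul_eq_one_right h).symm
        _ = t * s := by
          rw [mul_inv_rev, inv_eq_of_mul_eq_one_right (hinv s hs), inv_eq_of_mul_eq_one_right (hinv t ht)]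
    have hmemW : ∀ s ∈ P, π s ∈ W := fun s hs => mem_map_of_mem π hs
    have hcentral : ∀ s ∈ P, ∀ t ∈ P, ⁅s, t⁆ ∈ center Γ := fun s hs t ht => hZc (by
      rw [← QuotientGroup.eq_one_iff, ← QuotientGroup.mk'_apply, map_commutatorElement,
        commutatorElement_eq_one_iff_mul_comm]
      exact hWc _ (hmemW s hs) _ (hmemW t ht))
    have bil : ∀ s ∈ P, ∀ s' ∈ P, ∀ t ∈ P, ⁅s * s', t⁆ = ⁅s, t⁆ * ⁅s', t⁆ := by
      intro s hs s' hs' t ht
      have h1 := hcentral s' hs' t ht
      calc ⁅s * s', t⁆ = s * ⁅s', t⁆ * (t * s⁻¹ * t⁻¹) := by simp only [commutatorElement_def]; group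
        _ = ⁅s', t⁆ * ⁅s, t⁆ := by
          rw [mem_center_iff.1 h1 s]; simp only [commutatorElement_def]; group
        _ = _ := (mem_center_iff.1 h1 _).symm
    have hzero : ∀ r ∈ Z, ∀ t : Γ, ⁅r, t⁆ = 1 := fun r hr t =>
      commutatorElement_eq_one_iff_mul_comm.2 (mem_center_iff.1 (hZc hr) t).symm
    have hsq : ∀ s ∈ P, ∀ t ∈ P, ⁅s, t⁆ * ⁅s, t⁆ = 1 := fun s hs t ht => by
      rw [← bil s hs s hs t ht]
      refine hzero _ ?_ t
      rw [← QuotientGroup.eq_one_iff]
      exact hinv _ (hmemW s hs)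
    set c := ⁅u, v⁆ with hcdef
    -- `W` is `{1, u, v, uv}`
    have hu1 : π u ≠ 1 := fun h => huv (hzero u ((QuotientGroup.eq_one_iff _).1 h) v)
    have hv1 : π v ≠ 1 := fun h => huv (by
      rw [hcdef, ← commutatorElement_inv, hzero v ((QuotientGroup.eq_one_iff _).1 h) u, inv_one])
    have huv1 : π u ≠ π v := fun h => huv (by
      have hm : u⁻¹ * v ∈ Z := QuotientGroup.eq.1 h
      have : ⁅u, v⁆ = ⁅u, u * (u⁻¹ * v)⁆ := by rw [mul_inv_cancel_left]
      rw [hcdef, this, commutatorElement_def, mul_inv_rev,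
        show u * (u * (u⁻¹ * v)) * u⁻¹ * ((u⁻¹ * v)⁻¹ * u⁻¹) =
          u * u * ((u⁻¹ * v) * u⁻¹) * ((u⁻¹ * v)⁻¹ * u⁻¹) by group,
        ← mem_center_iff.1 (hZc hm) u⁻¹]
      group)
    have hspan : ∀ s ∈ P, π s = 1 ∨ π s = π u ∨ π s = π v ∨ π s = π u * π v := by
      intro s hs
      by_contra hh
      push Not at hh
      obtain ⟨a1, a2, a3, a4⟩ := hh
      set S : Finset (Γ ⧸ Z) := {1, π u, π v, π u * π v, π s}
      have hS : S.card = 5 := by
        have n4 : π u * π v ≠ 1 := fun h => huv1 (by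
          have := inv_eq_of_mul_eq_one_right h
          rw [← this]; exact (inv_eq_of_mul_eq_one_right (hinv _ (hmemW u hu))).symm)
        have n5 : π u * π v ≠ π u := fun h => hv1 (by simpa using h)
        have n6 : π u * π v ≠ π v := fun h => hu1 (by simpa using h)
        simp [S, hu1.symm, hv1.symm, n4.symm, a1.symm, huv1, n5.symm, a2.symm, n6.symm, a3.symm, a4.symm]
      have hsub : (S : Set (Γ ⧸ Z)) ⊆ W := by
        intro x hx
        simp only [S, Finset.coe_insert, Finset.coe_singleton, Set.mem_insert_iff, Set.mem_singleton_iff] at hx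
        rcases hx with rfl | rfl | rfl | rfl | rfl
        exacts [one_mem _, hmemW u hu, hmemW v hv, mul_mem (hmemW u hu) (hmemW v hv), hmemW s hs]
      have h5 : 5 ≤ Nat.card W := by
        rw [← hS, ← Set.ncard_coe_finset, ← Nat.card_coe_set_eq]
        exact Set.ncard_le_ncard hsub
      obtain ⟨eW, heW⟩ := IsPGroup.iff_card.1 hWP
      have hd : Nat.card W ∣ Nat.card (Γ ⧸ Z) := Subgroup.card_subgroup_dvd_card _
      rw [heW] at hd h5
      have : eW ≤ 2 := by
        by_contra hh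
        exact h8 ((pow_dvd_pow 2 (by omega)).trans hd)
      have := Nat.pow_le_pow_right (show 1 ≤ 2 by norm_num) this
      omega
    have hleft : ∀ t ∈ P, ⁅u, t⁆ ∈ zpowers c → ⁅v, t⁆ ∈ zpowers c → ∀ s ∈ P, ⁅s, t⁆ ∈ zpowers c := by
      intro t ht h1 h2 s hs
      have red : ∀ r ∈ P, π s = π r → ⁅s, t⁆ = ⁅r, t⁆ := by
        intro r hr he
        have hm : r⁻¹ * s ∈ Z := QuotientGroup.eq.1 he.symm
        conv_lhs => rw [← mul_inv_cancel_left r s]
        rw [bil r hr _ (mul_mem (inv_mem hr) hs) t ht, hzero _ hm t, mul_one]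
      rcases hspan s hs with h | h | h | h
      · rw [hzero s ((QuotientGroup.eq_one_iff _).1 h) t]; exact one_mem _
      · rw [red u hu h]; exact h1
      · rw [red v hv h]; exact h2
      · rw [red (u * v) (mul_mem hu hv) (h.trans (map_mul π u v).symm), bil u hu v hv t ht]
        exact mul_mem h1 h2
    have swap' : ∀ s t : Γ, ⁅s, t⁆ ∈ zpowers c → ⁅t, s⁆ ∈ zpowers c := fun s t h => by
      rw [← commutatorElement_inv]; exact inv_mem h
    refine ⟨c, hsq u hu v hv, hcentral u hu v hv, fun s hs t ht => hleft t ht ?_ ?_ s hs⟩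
    · exact swap' t u (hleft u hu (by rw [commutatorElement_self]; exact one_mem _)
        (swap' u v (mem_zpowers _)) t ht)
    · exact swap' t v (hleft v hv (mem_zpowers _)
        (by rw [commutatorElement_self]; exact one_mem _) t ht)
  have h2z : ∀ z ∈ Z, ∀ k, z ^ 2 ^ k = 1 → z ∈ zpowers c := by
    intro z hz k hk
    refine (?_ : (commutator (P : Subgroup Γ)).map (P : Subgroup Γ).subtype ≤ zpowers c)
      (mem_commutator_sylow (hZc hz) (hZd hz) hk P)
    rw [map_subtype_commutator, commutator_le]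
    exact hcP
  have hle : Z ≤ zpowers c := by
    intro z hz
    obtain ⟨k, m, hm, hkm⟩ := Nat.exists_eq_pow_mul_and_not_dvd (orderOf_pos z).ne' 2 (by norm_num)
    -- the odd part is trivial
    have hodd1 : z ^ 2 ^ k = 1 := by
      by_contra hne
      have ho : orderOf (z ^ 2 ^ k) ∣ m := orderOf_dvd_of_pow_eq_one (by
        rw [← pow_mul, ← hkm, pow_orderOf_eq_one])
      obtain ⟨p, hp, hpd⟩ := Nat.exists_prime_and_dvd (fun h => hne (orderOf_eq_one_iff.1 h))
      have hp2 : p ≠ 2 := fun h => hm (h ▸ hpd.trans ho)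
      set y := (z ^ 2 ^ k) ^ (orderOf (z ^ 2 ^ k) / p) with hy
      have hyp : orderOf y = p := orderOf_pow_orderOf_div (orderOf_pos _).ne' hpd
      have := hoddz p hp hp2 y (pow_mem (pow_mem hz _) _) 1 (by rw [pow_one, ← hyp, pow_orderOf_eq_one])
      rw [this, orderOf_one] at hyp
      exact hp.one_lt.ne hyp
    exact h2z z hz k hodd1
  refine (Nat.le_of_dvd Nat.card_pos (Subgroup.card_dvd_of_le hle)).trans ?_
  rw [Nat.card_zpowers]
  exact Nat.le_of_dvd (by norm_num) (orderOf_dvd_of_pow_eq_one (by rw [pow_two, hc2]))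

end Small

end Cfsg.Agent.Core.AltMult
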