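/-
Core library: groups all of whose subgroups satisfy the converse of Lagrange's theorem.
-/
import Cfsg.Agent.Core.Huppert
import Cfsg.Agent.Core.HallSystem
import Cfsg.Agent.Coprime.Conjugacy

set_option autoImplicit false
set_option linter.style.haveILetI false

namespace Cfsg.Agent.Core

open Subgroup
open scoped Pointwise

universe u

theorem hasSubgroupOfEveryOrder_congr {G H : Type*} [Group G] [Group H] (e : G ≃* H)
    (h : Cfsg.HasSubgroupOfEveryOrder G) : Cfsg.HasSubgroupOfEveryOrder H := fun d hd => by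
  obtain ⟨K, hK⟩ := h d (Nat.card_congr e.toEquiv ▸ hd)
  exact ⟨K.map e.toMonoidHom, by rw [card_map_of_injective e.injective, hK]⟩

/-- All subgroups satisfy the converse of Lagrange's theorem. -/
def AllCLT (G : Type*) [Group G] : Prop := ∀ H : Subgroup G, Cfsg.HasSubgroupOfEveryOrder H

theorem AllCLT.subgroup {G : Type*} [Group G] (h : AllCLT G) (K : Subgroup G) : AllCLT K := fun H =>
  hasSubgroupOfEveryOrder_congr (H.equivMapOfInjective K.subtype K.subtype_injective).symm
    (h (H.map K.subtype))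

theorem AllCLT.self {G : Type*} [Group G] (h : AllCLT G) : Cfsg.HasSubgroupOfEveryOrder G :=
  hasSubgroupOfEveryOrder_congr topEquiv (h ⊤)

theorem AllCLT.congr {G H : Type*} [Group G] [Group H] (e : G ≃* H) (h : AllCLT G) : AllCLT H :=
  fun K => hasSubgroupOfEveryOrder_congr
    ((e.subgroupMap (K.comap e.toMonoidHom)).trans (MulEquiv.subgroupCongr
      (map_comap_eq_self_of_surjective e.surjective K))) (h (K.comap e.toMonoidHom))

theorem AllCLT.sylow_normal_aux : ∀ (n : ℕ) {G : Type u} [Group G] [Finite G], Nat.card G = n →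
    AllCLT G → ∀ (p : ℕ) [Fact p.Prime], p ∣ Nat.card G →
      (∀ q : ℕ, q.Prime → q ∣ Nat.card G → q ≤ p) → ∀ P : Sylow p G, (P : Subgroup G).Normal := by
  intro n
  induction n using Nat.strong_induction_on with
  | _ n ih =>
  intro G _ _ hn h p _ hd hmax P
  have hp : p.Prime := Fact.out
  obtain ⟨q, hq⟩ : ∃ q, q = (Nat.card G).minFac := ⟨_, rfl⟩
  have hn1 : Nat.card G ≠ 1 := fun e => hp.ne_one (Nat.dvd_one.mp (e ▸ hd))
  have hqp : q.Prime := hq ▸ Nat.minFac_prime hn1
  by_cases hqe : q = p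
  · -- a `p`-group
    have hG : IsPGroup p G := IsPGroup.of_card (n := (Nat.card G).primeFactorsList.length)
      (Nat.eq_prime_pow_of_unique_prime_dvd Nat.card_pos.ne' fun {r} hr hrd =>
        le_antisymm (hmax r hr hrd) ((hqe ▸ hq).le.trans (Nat.minFac_le_of_dvd hr.two_le hrd)))
    haveI := hG.isNilpotent
    exact isNilpotent_iff_forall_sylow_normal.mp inferInstance p inferInstance P
  obtain ⟨H, hH⟩ := h.self (Nat.card G / q) (Nat.div_dvd_of_dvd (hq ▸ Nat.minFac_dvd _))
  have hHi : H.index = q := by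
    have h1 := H.card_mul_index
    have h2 : Nat.card G / q * q = Nat.card G := Nat.div_mul_cancel (hq ▸ Nat.minFac_dvd _)
    rw [hH] at h1
    exact Nat.eq_of_mul_eq_mul_left (hH ▸ Nat.card_pos) (h1.trans h2.symm)
  haveI hHn : H.Normal := normal_of_index_eq_minFac_card (hHi.trans hq)
  have hPH : (P : Subgroup G) ≤ H := le_of_coprime_index (by
    obtain ⟨k, hk⟩ := IsPGroup.iff_card.mp P.2
    rw [hk, hHi]
    exact ((Nat.coprime_primes hp hqp).mpr (Ne.symm hqe)).pow_left k)
  have hlt : Nat.card H < n := by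
    rw [← hn, ← H.card_mul_index, hHi]
    exact lt_mul_of_one_lt_right Nat.card_pos hqp.one_lt
  have hdH : p ∣ Nat.card H := by
    rw [← H.card_mul_index, hHi] at hd
    exact (hp.dvd_mul.mp hd).resolve_right fun h => hqe ((Nat.prime_dvd_prime_iff_eq hp hqp).mp h).symm
  haveI := ih _ hlt rfl (h.subgroup H) p hdH
    (fun r hr hrd => hmax r hr (hrd.trans H.card_subgroup_dvd_card)) (P.subtype hPH)
  haveI := (P.subtype hPH).characteristic_of_normal inferInstance
  have h4 := normal_map_subtype_of_characteristic ((P.subtype hPH : Sylow p H) : Subgroup H)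
  rwa [Sylow.coe_subtype, map_subgroupOf_eq_of_le hPH] at h4

theorem AllCLT.sylow_normal {G : Type*} [Group G] [Finite G] (h : AllCLT G) {p : ℕ} [Fact p.Prime]
    (hd : p ∣ Nat.card G) (hmax : ∀ q : ℕ, q.Prime → q ∣ Nat.card G → q ≤ p) (P : Sylow p G) :
    (P : Subgroup G).Normal :=
  AllCLT.sylow_normal_aux _ rfl h p hd hmax P

theorem AllCLT.isSupersolvable_aux : ∀ (n : ℕ) {G : Type u} [Group G] [Finite G], Nat.card G = n →
    AllCLT G → Cfsg.IsSupersolvable G := by
  intro n
  induction n using Nat.strong_induction_on with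
  | _ n ih =>
  intro G _ _ hn h
  classical
  rcases subsingleton_or_nontrivial G with hs | hs
  · exact isSupersolvable_iff.mpr fun N _ hN => absurd (Subsingleton.elim N ⊤) hN
  have hne : (Nat.card G).primeFactors.Nonempty :=
    Nat.nonempty_primeFactors.mpr Finite.one_lt_card
  obtain ⟨p, hp, hmax⟩ : ∃ p ∈ (Nat.card G).primeFactors, ∀ r ∈ (Nat.card G).primeFactors, r ≤ p :=
    ⟨_, Finset.max'_mem _ hne, fun r hr => Finset.le_max' _ r hr⟩
  have hpp : p.Prime := Nat.prime_of_mem_primeFactors hp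
  have hpd : p ∣ Nat.card G := Nat.dvd_of_mem_primeFactors hp
  haveI := Fact.mk hpp
  obtain ⟨P⟩ := (inferInstance : Nonempty (Sylow p G))
  haveI hPn := h.sylow_normal hpd
    (fun r hr hrd => hmax r (Nat.mem_primeFactors.mpr ⟨hr, hrd, Nat.card_pos.ne'⟩)) P
  haveI := P.2.isNilpotent
  have hPsol : Group.IsSolvable (P : Subgroup G) := inferInstance
  obtain ⟨K, hK⟩ := exists_right_complement'_of_coprime (N := (P : Subgroup G)) P.card_coprime_index
  have hKi : Nat.card K = (P : Subgroup G).index := hK.symm.index_eq_card.symm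
  have hPc : 1 < Nat.card (P : Subgroup G) := Finite.one_lt_card_iff_nontrivial.mpr
    ((nontrivial_iff_ne_bot _).2 fun e => P.not_dvd_index (by rw [e, index_bot]; exact hpd))
  -- the quotient by `P` is a copy of `K`
  let f : K →* G ⧸ (P : Subgroup G) := (QuotientGroup.mk' _).comp K.subtype
  have hfb : Function.Bijective f := by
    refine ⟨(injective_iff_map_eq_one f).mpr fun x hx => Subtype.ext
      (disjoint_def.mp hK.disjoint ((QuotientGroup.eq_one_iff (x : G)).mp hx) x.2), fun y => ?_⟩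
    obtain ⟨g, rfl⟩ := QuotientGroup.mk'_surjective _ y
    obtain ⟨a, ha, k, hk, rfl⟩ := mem_sup_of_normal_left.mp (hK.sup_eq_top.ge (mem_top g))
    refine ⟨⟨k, hk⟩, ?_⟩
    show QuotientGroup.mk' (P : Subgroup G) k = QuotientGroup.mk' (P : Subgroup G) (a * k)
    rw [map_mul, QuotientGroup.mk'_apply _ a, (QuotientGroup.eq_one_iff a).mpr ha, one_mul]
  have hquot : Cfsg.IsSupersolvable (G ⧸ (P : Subgroup G)) :=
    ih _ (by rw [← hn, card_eq_card_quotient_mul_card_subgroup (P : Subgroup G)]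
             exact lt_mul_of_one_lt_right Nat.card_pos hPc) rfl
      ((h.subgroup K).congr (MulEquiv.ofBijective f hfb))
  refine isSupersolvable_of_forall_coatom_prime_index fun M hM => ?_
  by_cases hPM : (P : Subgroup G) ≤ M
  · have hsurj := QuotientGroup.mk'_surjective (P : Subgroup G)
    have hcm : (M.map (QuotientGroup.mk' (P : Subgroup G))).comap (QuotientGroup.mk' _) = M := by
      rw [comap_map_eq, QuotientGroup.ker_mk', sup_eq_left.mpr hPM]
    have hM' : IsCoatom (M.map (QuotientGroup.mk' (P : Subgroup G))) := by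
      refine ⟨fun e => hM.1 (by rw [← hcm, e, comap_top]), fun X hX => ?_⟩
      have hlt : M < X.comap (QuotientGroup.mk' (P : Subgroup G)) :=
        hcm ▸ (comap_lt_comap_of_surjective hsurj).mpr hX
      rw [← map_comap_eq_self_of_surjective hsurj X, hM.2 _ hlt, map_top_of_surjective _ hsurj]
    have := index_prime_of_isSupersolvable hquot hM'
    rwa [← index_comap_of_surjective _ hsurj, hcm] at this
  have htop : (P : Subgroup G) ⊔ M = ⊤ := sup_eq_top_of_coatom hM hPM
  -- `M` contains a conjugate of `K`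
  obtain ⟨D, hD⟩ : ∃ D, D = M ⊓ (P : Subgroup G) := ⟨_, rfl⟩
  haveI : ((P : Subgroup G).subgroupOf M).Normal := inferInstance
  have hMidx : ((P : Subgroup G).subgroupOf M).index = (P : Subgroup G).index := by
    refine relIndex_eq_index_of_forall fun g => ?_
    obtain ⟨a, ha, m, hm, e⟩ := mem_sup_of_normal_left.mp (htop ▸ mem_top g)
    exact ⟨a, ha, m, hm, e.symm⟩
  obtain ⟨K₁, hK₁⟩ := exists_right_complement'_of_coprime (N := (P : Subgroup G).subgroupOf M) (by
    rw [hMidx]
    refine P.card_coprime_index.coprime_dvd_left ?_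
    rw [← card_map_of_injective M.subtype_injective]
    exact card_dvd_of_le (map_comap_le _ _))
  obtain ⟨K', hK'⟩ : ∃ K', K' = K₁.map M.subtype := ⟨_, rfl⟩
  have hK'M : K' ≤ M := hK' ▸ map_subtype_le _
  have hK'c : Nat.card K' = (P : Subgroup G).index := by
    rw [hK', card_map_of_injective M.subtype_injective, ← hK₁.symm.index_eq_card, hMidx]
  -- a subgroup of index `p` containing `K'`
  obtain ⟨H₀, hH₀⟩ := h.self (Nat.card G / p) (Nat.div_dvd_of_dvd hpd)
  have hH₀i : H₀.index = p := by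
    have h1 := H₀.card_mul_index
    rw [hH₀] at h1
    exact Nat.eq_of_mul_eq_mul_left (hH₀ ▸ Nat.card_pos) (h1.trans (Nat.div_mul_cancel hpd).symm)
  have hG0 : H₀ ⊔ (P : Subgroup G) = ⊤ := by
    rw [← index_eq_one]
    have h1 : (H₀ ⊔ (P : Subgroup G)).index ∣ p := (index_dvd_of_le le_sup_left).trans hH₀i.dvd
    have h2 : (H₀ ⊔ (P : Subgroup G)).index ∣ (P : Subgroup G).index := index_dvd_of_le le_sup_right
    exact Nat.eq_one_of_dvd_coprimes (hpp.coprime_iff_not_dvd.mpr P.not_dvd_index) h1 h2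
  have hP0i : ((P : Subgroup G).subgroupOf H₀).index = (P : Subgroup G).index := by
    refine relIndex_eq_index_of_forall fun g => ?_
    obtain ⟨a, ha, m, hm, e⟩ := mem_sup_of_normal_left.mp
      (show g ∈ (P : Subgroup G) ⊔ H₀ by rw [sup_comm, hG0]; exact mem_top g)
    exact ⟨a, ha, m, hm, e.symm⟩
  obtain ⟨K₀, hK₀⟩ := exists_right_complement'_of_coprime (N := (P : Subgroup G).subgroupOf H₀) (by
    rw [hP0i]
    refine P.card_coprime_index.coprime_dvd_left ?_
    rw [← card_map_of_injective H₀.subtype_injective]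
    exact card_dvd_of_le (map_comap_le _ _))
  haveI : Group.IsSolvable G :=
    (Group.isSolvable_iff_subgroup_quotient (P : Subgroup G)).mpr
      ⟨hPsol, isSolvable_of_isSupersolvable hquot⟩
  have hcompl : ∀ X : Subgroup G, Nat.card X = (P : Subgroup G).index →
      X.index = p ^ (Nat.card G).factorization p := fun X hX => by
    have h1 := X.card_mul_index
    have h2 := (P : Subgroup G).card_mul_index
    rw [hX] at h1
    rw [← P.card_eq_multiplicity]
    exact Nat.eq_of_mul_eq_mul_left (Nat.pos_of_ne_zero index_ne_zero_of_finite)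
      (h1.trans (by rw [← h2, mul_comm]))
  obtain ⟨g, hg⟩ := exists_conj_eq_of_isPiHall_of_isSolvable
    ((isPiHall_of_index_eq hpp).mp (hcompl (K₀.map H₀.subtype)
      (by rw [card_map_of_injective H₀.subtype_injective, ← hK₀.symm.index_eq_card, hP0i])))
    ((isPiHall_of_index_eq hpp).mp (hcompl K' hK'c))
  obtain ⟨H, hH⟩ : ∃ H, H = MulAut.conj g • H₀ := ⟨_, rfl⟩
  have hHi : H.index = p := by rw [hH, index_conj_smul, hH₀i]
  have hK'H : K' ≤ H := by
    rw [hH, ← hg]
    exact pointwise_smul_le_pointwise_smul_iff.mpr (map_subtype_le _)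
  -- `H` is supersolvable and `G = P H`
  have hPH : ∀ x : G, ∃ a ∈ (P : Subgroup G), ∃ k ∈ K', x = a * k := by
    intro x
    obtain ⟨a, ha, m, hm, rfl⟩ := mem_sup_of_normal_left.mp (htop ▸ mem_top x)
    obtain ⟨⟨⟨b, hb⟩, ⟨k, hk⟩⟩, e : b * k = (⟨m, hm⟩ : M)⟩ := hK₁.2 (⟨m, hm⟩ : M)
    refine ⟨a * b, mul_mem ha (mem_subgroupOf.mp hb), k, hK' ▸ mem_map_of_mem _ hk, ?_⟩
    have e' : (b : G) * k = m := congrArg Subtype.val e
    rw [mul_assoc, e']
  have hHlt : Nat.card H < n := hn ▸ card_lt_of_ne_top (fun e => hpp.ne_one (by rw [← hHi, e, index_top]))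
  have hHsup := ih _ hHlt rfl (h.subgroup H)
  -- `D` is normal
  have hDn : D.Normal := by
    have hDP : D ≤ (P : Subgroup G) := hD ▸ inf_le_right
    have hDM : M ≤ normalizer (D : Set G) := hD ▸
      (le_inf le_normalizer (normalizer_eq_top_iff.mpr hPn ▸ le_top)).trans inf_normalizer_le_normalizer_inf
    rw [← normalizer_eq_top_iff]
    by_contra hne'
    have hMN : normalizer (D : Set G) = M :=
      ((hM.le_iff_eq hne').mp hDM)
    have hlt : D < (P : Subgroup G) := lt_of_le_of_ne hDP fun e => hPM (by rw [← e, hD]; exact inf_le_left)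
    have hlt' : D.subgroupOf (P : Subgroup G) < ⊤ := lt_top_iff_ne_top.2 fun e =>
      hlt.not_ge (subgroupOf_eq_top.mp e)
    obtain ⟨⟨x, hxP⟩, hx, hxD⟩ := SetLike.exists_of_lt
      (Group.normalizerCondition_of_isNilpotent (G := (P : Subgroup G)) (D.subgroupOf (P : Subgroup G)) hlt')
    rw [← subgroupOf_normalizer_eq hDP, mem_subgroupOf, hMN] at hx
    exact hxD (by rw [mem_subgroupOf, hD]; exact ⟨hx, hxP⟩)
  haveI := hDn
  by_cases hHM : H ≤ M
  · have hidx : M.index ∣ p := (index_dvd_of_le hHM).trans hHi.dvd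
    rcases (Nat.dvd_prime hpp).mp hidx with h1 | h1
    · exact absurd (index_eq_one.mp h1) hM.1
    · exact h1 ▸ hpp
  -- `H ⊓ M` is maximal in `H` of index `[G : M]`
  have hrel : M.relIndex H = M.index := by
    refine relIndex_eq_index_of_forall fun x => ?_
    have hDH : ¬ D ≤ H := fun hle => by
      have hMH : M ≤ H := fun m hm => by
        obtain ⟨a, ha, k, hk, rfl⟩ := hPH m
        exact mul_mem (hle (hD ▸ ⟨by simpa using mul_mem hm (inv_mem (hK'M hk)), ha⟩)) (hK'H hk)
      rcases eq_or_lt_of_le hMH with e | e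
      · exact hHM e.ge
      · exact hpp.ne_one (by rw [← hHi, hM.2 _ e, index_top])
    obtain ⟨R, hR⟩ : ∃ R, R = (P : Subgroup G) ⊓ H := ⟨_, rfl⟩
    have hRi : R.relIndex (P : Subgroup G) = p := by
      rw [hR, inf_relIndex_left]
      refine Eq.trans ?_ hHi
      refine relIndex_eq_index_of_forall fun z => ?_
      obtain ⟨a, ha, k, hk, e⟩ := hPH z⁻¹
      exact ⟨k⁻¹, inv_mem (hK'H hk), a⁻¹, inv_mem ha, by rw [← mul_inv_rev, ← e, inv_inv]⟩
    have hX : D ⊔ R = (P : Subgroup G) := by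
      have hle : D ⊔ R ≤ (P : Subgroup G) := sup_le (hD ▸ inf_le_right) (hR ▸ inf_le_left)
      have h1 := relIndex_mul_relIndex R (D ⊔ R) (P : Subgroup G) le_sup_right hle
      rw [hRi] at h1
      rcases (Nat.dvd_prime hpp).mp ⟨_, h1.symm⟩ with h2 | h2
      · exact absurd (((le_sup_left : D ≤ D ⊔ R).trans (relIndex_eq_one.mp h2)).trans (hR ▸ inf_le_right)) hDH
      · rw [h2] at h1
        refine le_antisymm hle (relIndex_eq_one.mp ?_)
        exact Nat.eq_of_mul_eq_mul_left hpp.pos (h1.trans (mul_one p).symm)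
    obtain ⟨a, ha, k, hk, rfl⟩ := hPH x
    obtain ⟨d, hd, r, hr, rfl⟩ := mem_sup_of_normal_left.mp (hX.ge ha)
    exact ⟨d, (hD ▸ hd).1, r * k, mul_mem (hR ▸ hr).2 (hK'H hk), mul_assoc _ _ _⟩
  have hcoat : IsCoatom (M.subgroupOf H) := by
    refine ⟨fun e => hHM (subgroupOf_eq_top.mp e), fun X hX => ?_⟩
    obtain ⟨X', hX'⟩ : ∃ X', X' = X.map H.subtype := ⟨_, rfl⟩
    have hX'H : X' ≤ H := hX' ▸ map_subtype_le X
    have hMX : M ⊓ H ≤ X' := by
      rw [hX', ← subgroupOf_map_subtype]
      exact map_mono hX.le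
    have hK'X : K' ≤ X' := (le_inf hK'M hK'H).trans hMX
    have hnot : ¬ X' ≤ M := fun hle => hX.not_ge fun z hz => hle (hX' ▸ mem_map_of_mem _ hz)
    have hMD : ∀ m ∈ M, ∃ d ∈ D, ∃ k ∈ K', m = d * k := fun m hm => by
      obtain ⟨a, ha, k, hk, rfl⟩ := hPH m
      exact ⟨a, hD ▸ ⟨by simpa using mul_mem hm (inv_mem (hK'M hk)), ha⟩, k, hk, rfl⟩
    have htop' : D ⊔ X' = ⊤ := hM.2 _ (lt_of_le_of_ne (fun m hm => by
      obtain ⟨d, hd, k, hk, rfl⟩ := hMD m hm
      exact mul_mem_sup hd (hK'X hk)) fun e => hnot (e.symm ▸ le_sup_right))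
    refine eq_top_iff.mpr fun y _ => ?_
    obtain ⟨d, hd, x, hx, e⟩ := mem_sup_of_normal_left.mp (htop' ▸ mem_top (y : G))
    have hdH : d ∈ X' := hMX ⟨(hD ▸ hd).1, by
      have : d = (y : G) * x⁻¹ := by rw [← e, mul_inv_cancel_right]
      rw [this]; exact H.mul_mem y.2 (H.inv_mem (hX'H hx))⟩
    have hyX : (y : G) ∈ X' := e ▸ mul_mem hdH hx
    rw [hX'] at hyX
    obtain ⟨z, hz, hze⟩ := hyX
    exact (Subtype.ext hze : z = y) ▸ hz
  have := index_prime_of_isSupersolvable hHsup hcoat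
  rwa [← relIndex, hrel] at this
where
  card_lt_of_ne_top {G : Type _} [Group G] [Finite G] {H : Subgroup G} (h : H ≠ ⊤) :
      Nat.card H < Nat.card G :=
    lt_of_le_of_ne (Finite.card_subtype_le _) fun hc => h (eq_top_of_card_eq H hc)

end Cfsg.Agent.Core
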