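/-
Core library: Carter subgroups of finite solvable groups.
-/
import Cfsg.Agent.Core.Hall
import Cfsg.Agent.Core.Frattini
import Cfsg.Agent.Core.ThompsonFPF
import Cfsg.Prelude.Def_SolvableStructure

set_option autoImplicit false
set_option linter.style.haveILetI false

namespace Cfsg.Agent.Core

open Cfsg Subgroup
open scoped Pointwise

theorem isNilpotent_map_subgroup {G H : Type*} [Group G] [Group H] (f : G →* H) (C : Subgroup G)
    [Group.IsNilpotent C] : Group.IsNilpotent (C.map f) :=
  Group.nilpotent_of_surjective _ (f.subgroupMap_surjective C)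

theorem isNilpotent_subgroupOf {G : Type*} [Group G] {C X : Subgroup G} (h : C ≤ X)
    [Group.IsNilpotent C] : Group.IsNilpotent (C.subgroupOf X) :=
  Group.nilpotent_of_mulEquiv (Subgroup.subgroupOfEquivOfLe h).symm

theorem IsCarterSubgroup.subgroupOf' {G : Type*} [Group G] {C X : Subgroup G} (hC : IsCarterSubgroup C)
    (h : C ≤ X) : IsCarterSubgroup (C.subgroupOf X) := by
  haveI := hC.1
  refine ⟨isNilpotent_subgroupOf h, ?_⟩
  rw [← Subgroup.subgroupOf_normalizer_eq h, hC.2]

theorem IsCarterSubgroup.eq_top {G : Type*} [Group G] [Finite G] [Group.IsNilpotent G]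
    {C : Subgroup G} (hC : IsCarterSubgroup C) : C = ⊤ := by
  by_contra h
  exact (Group.normalizerCondition_of_isNilpotent C (lt_top_iff_ne_top.mpr h)).ne hC.2.symm

/-- A nilpotent self-normalizing subgroup of a preimage: images of Carter subgroups, given
conjugacy in proper subgroups. -/
theorem carter_map_aux {G : Type*} [Group G] [Finite G]
    (hconj : ∀ X : Subgroup G, X ≠ ⊤ → ∀ C D : Subgroup X, IsCarterSubgroup C → IsCarterSubgroup D →
      ∃ g : X, MulAut.conj g • C = D)
    {C : Subgroup G} (hC : IsCarterSubgroup C) (N : Subgroup G) [N.Normal] :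
    IsCarterSubgroup (C.map (QuotientGroup.mk' N)) := by
  haveI := hC.1
  refine ⟨isNilpotent_map_subgroup _ _, le_antisymm ?_ le_normalizer⟩
  intro y hy
  obtain ⟨g, rfl⟩ := QuotientGroup.mk'_surjective N y
  set X := C ⊔ N with hX
  have hcomap : (C.map (QuotientGroup.mk' N)).comap (QuotientGroup.mk' N) = X := by
    rw [Subgroup.comap_map_eq, QuotientGroup.ker_mk']
  by_cases htop : X = ⊤
  · rw [← Subgroup.map_comap_eq_self_of_surjective (QuotientGroup.mk'_surjective N)
      (C.map (QuotientGroup.mk' N)), hcomap, htop]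
    exact Subgroup.mem_map_of_mem _ (mem_top g)
  have hgC : MulAut.conj g • C ≤ X := by
    rw [← hcomap]
    rintro _ ⟨c, hc, rfl⟩
    have := (mem_normalizer_iff.mp hy _).mp (Subgroup.mem_map_of_mem (QuotientGroup.mk' N) hc)
    show QuotientGroup.mk' N (g * c * g⁻¹) ∈ C.map (QuotientGroup.mk' N)
    rwa [map_mul, map_mul, map_inv]
  have hgCar : IsCarterSubgroup (MulAut.conj g • C) := by
    refine ⟨isNilpotent_map_subgroup (MulAut.conj g).toMonoidHom C, ?_⟩
    show normalizer ((C.map (MulAut.conj g).toMonoidHom : Subgroup G) : Set G) = C.map (MulAut.conj g).toMonoidHom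
    rw [← Subgroup.map_equiv_normalizer_eq, hC.2]
  obtain ⟨⟨x, hxX⟩, hx⟩ := hconj X htop _ _ (IsCarterSubgroup.subgroupOf' hC le_sup_left)
    (IsCarterSubgroup.subgroupOf' hgCar hgC)
  have hx' := congrArg (Subgroup.map X.subtype) hx
  rw [map_conj_smul, map_subgroupOf_eq_of_le (le_sup_left : C ≤ X), map_subgroupOf_eq_of_le hgC] at hx'
  have hmem : g⁻¹ * x ∈ normalizer (C : Set G) := by
    rw [mem_normalizer_iff_map_conj_eq]
    show MulAut.conj (g⁻¹ * x) • C = C
    rw [conj_mul_smul, show MulAut.conj x • C = MulAut.conj g • C from hx', conj_inv_smul_smul]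
  rw [hC.2] at hmem
  have hgX : g ∈ X := by
    have : g = x * (g⁻¹ * x)⁻¹ := by group
    rw [this]
    exact X.mul_mem hxX (X.inv_mem (le_sup_left (a := C) hmem))
  rw [← hcomap] at hgX
  exact hgX

universe u

theorem carter_aux : ∀ (n : ℕ) {G : Type u} [Group G] [Finite G] [Group.IsSolvable G],
    Nat.card G ≤ n → (∃ C : Subgroup G, IsCarterSubgroup C) ∧
      ∀ C D : Subgroup G, IsCarterSubgroup C → IsCarterSubgroup D → ∃ g : G, MulAut.conj g • C = D := by
  intro n
  induction n with
  | zero => intro G _ _ _ h; exact absurd h (by simp [Nat.card_pos.ne'])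
  | succ n ih =>
  intro G _ _ _ hcard
  by_cases hnil : Group.IsNilpotent G
  · refine ⟨⟨⊤, Group.nilpotent_of_mulEquiv Subgroup.topEquiv.symm, normalizer_eq_top_iff.mpr inferInstance⟩,
      fun C D hC hD => ⟨1, ?_⟩⟩
    rw [IsCarterSubgroup.eq_top hC, IsCarterSubgroup.eq_top hD, map_one, one_smul]
  haveI : Nontrivial G := by
    by_contra h
    rw [not_nontrivial_iff_subsingleton] at h
    exact hnil inferInstance
  obtain ⟨N, hN⟩ := exists_isMinNormal (G := G)
  haveI := hN.1
  obtain ⟨hNab, p, hp, -, hNp⟩ := hN.elementaryAbelian_of_isSolvable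
  haveI := Fact.mk hp
  haveI := hNab
  set f := QuotientGroup.mk' N with hf
  have hfs : Function.Surjective f := QuotientGroup.mk'_surjective N
  have hlt : Nat.card (G ⧸ N) ≤ n := by
    have := Subgroup.card_eq_card_quotient_mul_card_subgroup N
    have h2 : Nat.card (G ⧸ N) < Nat.card G := by
      rw [this]
      exact lt_mul_of_one_lt_right Nat.card_pos ((Subgroup.one_lt_card_iff_ne_bot N).mpr hN.2.1)
    omega
  have hsub : ∀ X : Subgroup G, X ≠ ⊤ → Nat.card X ≤ n := fun X hX => by
    have : Nat.card X < Nat.card G := lt_of_le_of_ne (Subgroup.card_le_card_group X) fun e => hX (eq_top_of_card_eq X e)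
    omega
  obtain ⟨⟨Dbar, hDbar⟩, hconjbar⟩ := ih (G := G ⧸ N) hlt
  have hmap : ∀ C : Subgroup G, IsCarterSubgroup C → IsCarterSubgroup (C.map f) := fun C hC =>
    carter_map_aux (fun X hX => (ih (G := X) (hsub X hX)).2) hC N
  have hcompl : ∀ M : Subgroup G, M ⊓ N = ⊥ → M ⊔ N = ⊤ → ∀ L : Subgroup G, M ≤ L → L = M ∨ L = ⊤ := by
    intro M h1 h2 L hML
    have hn : (N ⊓ L).Normal := inf_normal_of_sup_eq_top (by
      rw [eq_top_iff, ← h2]; exact sup_le (hML.trans le_sup_right) le_sup_left)
    rcases hN.2.2 (N ⊓ L) hn inf_le_left with h | h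
    · left
      refine le_antisymm (fun x hx => ?_) hML
      obtain ⟨m, hm, z, hz, rfl⟩ := Subgroup.mem_sup_of_normal_right.mp (h2 ▸ mem_top x : x ∈ M ⊔ N)
      have : z ∈ N ⊓ L := ⟨hz, by simpa using L.mul_mem (L.inv_mem (hML hm)) hx⟩
      rw [h, mem_bot] at this
      rw [this, mul_one]; exact hm
    · right
      rw [eq_top_iff, ← h2]
      exact sup_le hML (inf_eq_left.mp h)
  refine ⟨?_, ?_⟩
  · -- existence
    by_cases htop : Dbar = ⊤
    · haveI : Group.IsNilpotent (G ⧸ N) := by
        haveI := hDbar.1
        subst htop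
        exact Group.nilpotent_of_mulEquiv Subgroup.topEquiv
      obtain ⟨M, hM, hMn⟩ : ∃ M : Subgroup G, IsCoatom M ∧ ¬ M.Normal := by
        by_contra hcon
        push Not at hcon
        exact hnil ((Group.isNilpotent_of_finite_tfae (G := G)).out 0 2 rfl rfl |>.mpr hcon)
      have hNM : ¬ N ≤ M := fun h => hMn (by
        have hM' : IsCoatom (M.map f) ∨ M.map f = ⊤ := by
          by_cases e : M.map f = ⊤
          · exact Or.inr e
          refine Or.inl ⟨e, fun L hL => ?_⟩
          have : M < L.comap f := by
            refine lt_of_le_of_ne (Subgroup.map_le_iff_le_comap.mp hL.le) fun e' => hL.ne ?_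
            rw [e', Subgroup.map_comap_eq_self_of_surjective hfs]
          have h' := hM.2 _ this
          rw [← Subgroup.map_comap_eq_self_of_surjective hfs L, h', Subgroup.map_top_of_surjective _ hfs]
        have hcm : (M.map f).comap f = M := by
          rw [Subgroup.comap_map_eq, QuotientGroup.ker_mk', sup_eq_left.mpr h]
        rcases hM' with h' | h'
        · have := Group.normalizerCondition_of_isNilpotent.normal_of_coatom (M.map f) h'
          rw [← hcm]; exact this.comap f
        · exact absurd (by rw [← hcm, h', comap_top]) hM.1)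
      have h2 : M ⊔ N = ⊤ := by rw [sup_comm]; exact sup_eq_top_of_coatom hM hNM
      have h1 : M ⊓ N = ⊥ := by
        have hn := inf_normal_of_sup_eq_top (A := N) (H := M) (by rw [sup_comm]; exact h2)
        rw [inf_comm]
        exact (hN.2.2 _ hn inf_le_left).resolve_right fun e => hNM (inf_eq_left.mp e)
      refine ⟨M, Group.nilpotent_of_mulEquiv (MulEquiv.ofBijective (f.comp M.subtype) ⟨?_, ?_⟩).symm, ?_⟩
      · intro a b h
        have : (a : G)⁻¹ * b ∈ M ⊓ N := ⟨M.mul_mem (M.inv_mem a.2) b.2, QuotientGroup.eq.mp h⟩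
        rw [h1, mem_bot, inv_mul_eq_one] at this
        exact Subtype.ext this
      · intro y
        obtain ⟨g, rfl⟩ := hfs y
        obtain ⟨m, hm, z, hz, rfl⟩ := Subgroup.mem_sup_of_normal_right.mp (h2 ▸ mem_top g : g ∈ M ⊔ N)
        refine ⟨⟨m, hm⟩, ?_⟩
        show f m = f (m * z)
        rw [map_mul, show f z = 1 from (QuotientGroup.eq_one_iff z).mpr hz, mul_one]
      · exact (hcompl M h1 h2 _ le_normalizer).resolve_right fun e => hMn (normalizer_eq_top_iff.mp e)
    · set D := Dbar.comap f with hD
      have hDne : D ≠ ⊤ := fun e => htop (by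
        rw [← Subgroup.map_comap_eq_self_of_surjective hfs Dbar, ← hD, e, Subgroup.map_top_of_surjective _ hfs])
      obtain ⟨⟨C₀, hC₀⟩, -⟩ := ih (G := D) (hsub D hDne)
      set C := C₀.map D.subtype with hC
      haveI := hC₀.1
      have hND : N ≤ D := fun x hx => by
        show f x ∈ Dbar
        rw [show f x = 1 from (QuotientGroup.eq_one_iff x).mpr hx]; exact Dbar.one_mem
      -- the image of `C₀` is all of `Dbar`
      let g : D →* Dbar := f.subgroupComap Dbar
      have hgs : Function.Surjective g := fun y => by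
        obtain ⟨x, hx⟩ := hfs (y : G ⧸ N)
        exact ⟨⟨x, show f x ∈ Dbar by rw [hx]; exact y.2⟩, Subtype.ext hx⟩
      have hCar' : IsCarterSubgroup (C₀.map (QuotientGroup.mk' g.ker)) := by
        haveI : Group.IsSolvable D := inferInstance
        exact carter_map_aux (fun X hX => (ih (G := X) (by
          have := Subgroup.card_le_card_group X
          have := hsub D hDne
          omega)).2) hC₀ g.ker
      haveI : Group.IsNilpotent (D ⧸ g.ker) := by
        haveI := hDbar.1
        exact Group.nilpotent_of_mulEquiv (QuotientGroup.quotientKerEquivOfSurjective g hgs).symm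
      have htop' := IsCarterSubgroup.eq_top hCar'
      have hCD : D ≤ C ⊔ N := by
        intro x hx
        have : QuotientGroup.mk' g.ker ⟨x, hx⟩ ∈ C₀.map (QuotientGroup.mk' g.ker) := htop' ▸ mem_top _
        obtain ⟨c, hc, hce⟩ := this
        have hk : g (c⁻¹ * ⟨x, hx⟩) = 1 := QuotientGroup.eq.mp hce
        have hk' : (c : G)⁻¹ * x ∈ N := (QuotientGroup.eq_one_iff _).mp (congrArg Subtype.val hk)
        rw [← mul_inv_cancel_left (c : G) x]
        exact mul_mem_sup ⟨c, hc, rfl⟩ hk'
      refine ⟨C, isNilpotent_map_subgroup D.subtype C₀, le_antisymm ?_ le_normalizer⟩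
      intro x hx
      have hxD : x ∈ D := by
        have h1 : x ∈ normalizer ((C ⊔ N : Subgroup G) : Set G) := by
          rw [mem_normalizer_iff_map_conj_eq, Subgroup.map_sup, mem_normalizer_iff_map_conj_eq.mp hx,
            mem_normalizer_iff_map_conj_eq.mp (show x ∈ normalizer (N : Set G) from
              (normalizer_eq_top N).symm ▸ mem_top x)]
        have hCND : C ⊔ N = D := le_antisymm (sup_le (map_subtype_le _) hND) hCD
        rw [hCND] at h1
        have h2 : f x ∈ normalizer (Dbar : Set (G ⧸ N)) := by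
          have := (Subgroup.le_normalizer_map f) (Subgroup.mem_map_of_mem f h1)
          rwa [hD, Subgroup.map_comap_eq_self_of_surjective hfs] at this
        rw [hDbar.2] at h2
        exact h2
      have h3 : (⟨x, hxD⟩ : D) ∈ normalizer (C₀ : Set D) := by
        rw [mem_normalizer_iff]
        intro c
        have := mem_normalizer_iff.mp hx (c : G)
        constructor
        · intro hc
          obtain ⟨c', hc', hce⟩ := this.mp ⟨c, hc, rfl⟩
          rwa [show c' = ⟨x, hxD⟩ * c * ⟨x, hxD⟩⁻¹ from Subtype.ext hce] at hc'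
        · intro hc
          obtain ⟨c', hc', hce⟩ := this.mpr ⟨_, hc, rfl⟩
          rwa [show c' = c from Subtype.ext hce] at hc'
      rw [hC₀.2] at h3
      exact ⟨_, h3, rfl⟩
  · -- conjugacy
    intro C D hC hD
    obtain ⟨gbar, hgbar⟩ := hconjbar _ _ (hmap C hC) (hmap D hD)
    obtain ⟨g, rfl⟩ := hfs gbar
    rw [← map_conj_smul] at hgbar
    have hX : MulAut.conj g • C ⊔ N = D ⊔ N := by
      have := congrArg (Subgroup.comap f) hgbar
      simpa [Subgroup.comap_map_eq, hf] using this
    have hgCar : IsCarterSubgroup (MulAut.conj g • C) := by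
      haveI := hC.1
      refine ⟨isNilpotent_map_subgroup (MulAut.conj g).toMonoidHom C, ?_⟩
      show normalizer ((C.map (MulAut.conj g).toMonoidHom : Subgroup G) : Set G) = C.map (MulAut.conj g).toMonoidHom
      rw [← Subgroup.map_equiv_normalizer_eq, hC.2]
    suffices ∀ E : Subgroup G, IsCarterSubgroup E → E ⊔ N = D ⊔ N → ∃ x : G, MulAut.conj x • E = D by
      obtain ⟨x, hx⟩ := this _ hgCar hX
      exact ⟨x * g, by rw [conj_mul_smul, hx]⟩
    intro E hE hEN
    by_cases htop : D ⊔ N = ⊤
    · haveI hGN : Group.IsNilpotent (G ⧸ N) := by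
        haveI := hD.1
        have : D.map f = ⊤ := by
          rw [← Subgroup.map_comap_eq_self_of_surjective hfs (D.map f), Subgroup.comap_map_eq,
            QuotientGroup.ker_mk', htop, Subgroup.map_top_of_surjective _ hfs]
        exact Group.nilpotent_of_surjective (f.comp D.subtype) fun y => by
          obtain ⟨x, hx, rfl⟩ := (this ▸ mem_top y : y ∈ D.map f)
          exact ⟨⟨x, hx⟩, rfl⟩
      have key : ∀ E : Subgroup G, IsCarterSubgroup E → E ⊔ N = ⊤ →
          ∃ K : Subgroup G, IsPiHall {p}ᶜ K ∧ normalizer (K : Set G) = E := by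
        intro E hE hEN
        haveI := hE.1
        have hb : E ⊓ N = ⊥ := by
          have hn := inf_normal_of_sup_eq_top (A := N) (H := E) (by rw [sup_comm]; exact hEN)
          rw [inf_comm]
          refine (hN.2.2 _ hn inf_le_left).resolve_right fun e => hnil ?_
          have : E = ⊤ := by rwa [sup_eq_left.mpr (inf_eq_left.mp e)] at hEN
          subst this
          exact Group.nilpotent_of_mulEquiv Subgroup.topEquiv
        have hcE : Nat.card G = Nat.card E * Nat.card N := by
          have := card_sup_mul_card_inf E N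
          rw [hEN, hb, card_bot, mul_one, card_top] at this
          exact this
        set K₀ := pResidual p E with hK₀
        have hnpc : HasNormalPComplement p E := ThompsonFPF.hasNormalPComplement_of_isNilpotent
        obtain ⟨k, hk⟩ := IsPGroup.iff_card.mp (Transfer.isPGroup_quotient_pResidual (p := p) (G := E))
        obtain ⟨j, hj⟩ := IsPGroup.iff_card.mp hNp
        set K := K₀.map E.subtype with hK
        have hcK : Nat.card K = Nat.card K₀ := Subgroup.card_map_of_injective E.subtype_injective
        have hKi : K.index = p ^ (k + j) := by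
          refine Nat.eq_of_mul_eq_mul_left (Nat.card_pos (α := K)) ?_
          rw [K.card_mul_index, hcE, hcK, Subgroup.card_eq_card_quotient_mul_card_subgroup K₀, hk, hj, pow_add]
          ring
        have hHall : IsPiHall {p}ᶜ K := by
          rw [isPiHall_iff, compl_compl, hKi, hcK]
          refine ⟨(isPiNat_compl_singleton_iff_coprime hp).mpr
            (Transfer.hasNormalPComplement_iff_coprime_pResidual.mp hnpc), ?_⟩
          intro q hq hd
          exact (Nat.prime_dvd_prime_iff_eq hq hp).mp (hq.dvd_of_dvd_pow hd)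
        refine ⟨K, hHall, ?_⟩
        haveI : K₀.Normal := Transfer.pResidual_normal
        have hle : E ≤ normalizer (K : Set G) := by
          have := (Subgroup.le_normalizer_map (H := K₀) E.subtype)
          rw [normalizer_eq_top_iff.mpr inferInstance, ← MonoidHom.range_eq_map, range_subtype] at this
          exact this
        refine (hcompl E hb hEN _ hle).resolve_right fun e => hnil ?_
        -- `K` normal forces `E = G`
        haveI : K.Normal := normalizer_eq_top_iff.mp e
        have hKp : IsPGroup p (G ⧸ K) := IsPGroup.of_card (n := k + j) (by rw [← Subgroup.index_eq_card, hKi])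
        haveI := hKp.isNilpotent
        have hcomap : (E.map (QuotientGroup.mk' K)).comap (QuotientGroup.mk' K) = E := by
          rw [Subgroup.comap_map_eq, QuotientGroup.ker_mk', sup_eq_left.mpr (map_subtype_le _)]
        have hmapE : E.map (QuotientGroup.mk' K) = ⊤ := by
          by_contra hne
          obtain ⟨y, hyn, hy⟩ := SetLike.exists_of_lt
            (Group.normalizerCondition_of_isNilpotent _ (lt_top_iff_ne_top.mpr hne))
          obtain ⟨x, rfl⟩ := QuotientGroup.mk'_surjective K y
          have hx : x ∈ normalizer (E : Set G) := by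
            rw [← hcomap]
            exact Subgroup.le_normalizer_comap _ hyn
          rw [hE.2] at hx
          exact hy (Subgroup.mem_map_of_mem _ hx)
        have hEtop : E = ⊤ := by rw [← hcomap, hmapE, comap_top]
        subst hEtop
        exact Group.nilpotent_of_mulEquiv Subgroup.topEquiv
      obtain ⟨K, hK, hKE⟩ := key E hE (hEN.trans htop)
      obtain ⟨L, hL, hLD⟩ := key D hD htop
      obtain ⟨x, hx⟩ := exists_conj_eq_of_isPiHall_of_isSolvable hK hL
      refine ⟨x, ?_⟩
      rw [← hKE, ← hLD, ← hx]
      show (normalizer (K : Set G)).map (MulAut.conj x).toMonoidHom = _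
      rw [Subgroup.map_equiv_normalizer_eq]
      rfl
    · have hXle : E ≤ D ⊔ N := hEN ▸ le_sup_left
      obtain ⟨⟨x, hxX⟩, hx⟩ := (ih (G := ↥(D ⊔ N)) (hsub _ htop)).2 _ _
        (IsCarterSubgroup.subgroupOf' hE hXle) (IsCarterSubgroup.subgroupOf' hD le_sup_left)
      have hx' := congrArg (Subgroup.map (D ⊔ N).subtype) hx
      rw [map_conj_smul, map_subgroupOf_eq_of_le hXle, map_subgroupOf_eq_of_le (le_sup_left : D ≤ D ⊔ N)] at hx'
      exact ⟨x, hx'⟩

theorem exists_carter {G : Type*} [Group G] [Finite G] [Group.IsSolvable G] :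
    ∃ C : Subgroup G, IsCarterSubgroup C := (carter_aux _ le_rfl).1

theorem carter_conj {G : Type*} [Group G] [Finite G] [Group.IsSolvable G] {C D : Subgroup G}
    (hC : IsCarterSubgroup C) (hD : IsCarterSubgroup D) : ∃ g : G, MulAut.conj g • C = D :=
  (carter_aux _ le_rfl).2 C D hC hD

theorem carter_map {G : Type*} [Group G] [Finite G] [Group.IsSolvable G] {C : Subgroup G}
    (hC : IsCarterSubgroup C) (N : Subgroup G) [N.Normal] :
    IsCarterSubgroup (C.map (QuotientGroup.mk' N)) :=
  carter_map_aux (fun _ _ _ _ h1 h2 => carter_conj h1 h2) hC N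

end Cfsg.Agent.Core
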