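/-
Core library: system normalizers.
-/
import Cfsg.Agent.Core.HallSystem
import Cfsg.Agent.Coprime.Conjugacy

set_option autoImplicit false
set_option linter.style.haveILetI false

namespace Cfsg.Agent.Core

open Cfsg Subgroup
open scoped Pointwise

variable {G : Type*} [Group G]

theorem systemNormalizer_le (K : Nat.Primes → Subgroup G) (p : Nat.Primes) :
    systemNormalizer K ≤ normalizer (K p : Set G) := iInf_le _ p

theorem isNilpotent_systemNormalizer [Finite G] {K : Nat.Primes → Subgroup G}
    (hK : IsComplementSystem K) : Group.IsNilpotent (systemNormalizer K) := by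
  classical
  obtain ⟨D, hD⟩ : ∃ D, D = systemNormalizer K := ⟨_, rfl⟩
  rw [← hD]
  have hdvd : ∀ p : Nat.Primes, ((K p).subgroupOf D).index ∣ (p : ℕ) ^ (Nat.card G).factorization p :=
    fun p => by
    rw [← hK p, ← relIndex]
    have h1 : (K p).relIndex (D ⊔ K p) = (K p).relIndex D := by
      haveI : ((K p).subgroupOf (D ⊔ K p)).Normal :=
        (normal_subgroupOf_iff_le_normalizer le_sup_right).mpr
          (sup_le (hD ▸ systemNormalizer_le K p) le_normalizer)
      have h2 := relIndex_sup_right (H := D.subgroupOf (D ⊔ K p)) (K := (K p).subgroupOf (D ⊔ K p))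
      rw [← subgroupOf_sup le_sup_left le_sup_right, relIndex_subgroupOf le_rfl,
        relIndex_subgroupOf le_sup_left] at h2
      exact h2
    rw [← h1]
    exact relIndex_dvd_index_of_le le_sup_right
  refine isNilpotent_of_sylow_normal fun r hr R => ?_
  -- `R` is the intersection of the `D ∩ K q`, `q ≠ r`
  obtain ⟨E, hE⟩ : ∃ E, E = ((Nat.card D).primeFactors.erase r).inf
      (fun q => if h : q.Prime then (K ⟨q, h⟩).subgroupOf D else ⊤) := ⟨_, rfl⟩
  have hEn' : E.Normal ∧ ¬ r ∣ E.index := by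
    rw [hE]
    refine Finset.inf_induction (p := fun X : Subgroup D => X.Normal ∧ ¬ r ∣ X.index)
      ⟨inferInstance, by rw [index_top]; exact hr.out.not_dvd_one⟩ ?_ fun q hq => ?_
    · rintro A ⟨hA, hA'⟩ B ⟨hB, hB'⟩
      haveI := hA
      haveI := hB
      refine ⟨inferInstance, fun hd => ?_⟩
      have h7 : (A ⊓ B).index = A.index * B.relIndex A := by
        rw [← relIndex_mul_index (inf_le_left : A ⊓ B ≤ A), inf_relIndex_left, mul_comm]
      rw [h7] at hd
      rcases hr.out.dvd_mul.mp hd with h | h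
      · exact hA' h
      · exact hB' (h.trans (relIndex_dvd_index_of_normal B A))
    · by_cases h : q.Prime
      · rw [dif_pos h]
        refine ⟨(normal_subgroupOf_iff_le_normalizer_inf).mpr
          ((le_inf (hD ▸ systemNormalizer_le K ⟨q, h⟩) le_normalizer).trans inf_normalizer_le_normalizer_inf),
          fun hd => ?_⟩
        have := (Nat.prime_dvd_prime_iff_eq hr.out h).mp
          (hr.out.dvd_of_dvd_pow (hd.trans (hdvd ⟨q, h⟩)))
        exact (Finset.mem_erase.mp hq).1 this.symm
      · rw [dif_neg h, index_top]; exact ⟨inferInstance, hr.out.not_dvd_one⟩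
  haveI hEn : E.Normal := hEn'.1
  have hEr : ∀ q : ℕ, q.Prime → q ∣ Nat.card E → q = r := by
    intro q hq hqd
    by_contra hne
    have hqD : q ∣ Nat.card D := hqd.trans E.card_subgroup_dvd_card
    have hle : E ≤ (K ⟨q, hq⟩).subgroupOf D := by
      rw [hE]
      refine (Finset.inf_le (Finset.mem_erase.mpr ⟨hne, Nat.mem_primeFactors.mpr ⟨hq, hqD, Nat.card_pos.ne'⟩⟩)).trans ?_
      rw [dif_pos hq]
    have hqK : q ∣ Nat.card (K ⟨q, hq⟩) := by
      refine (hqd.trans (card_dvd_of_le hle)).trans ?_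
      have h3 : ((K ⟨q, hq⟩).subgroupOf D).map D.subtype ≤ K ⟨q, hq⟩ := map_comap_le _ _
      rw [← card_map_of_injective D.subtype_injective]
      exact card_dvd_of_le h3
    have h4 := (K ⟨q, hq⟩).card_mul_index
    rw [show (K ⟨q, hq⟩).index = q ^ (Nat.card G).factorization q from hK ⟨q, hq⟩] at h4
    have h5 : q ^ ((Nat.card G).factorization q + 1) ∣ Nat.card G := by
      have h6 : q ^ ((Nat.card G).factorization q + 1) ∣
          Nat.card (K ⟨q, hq⟩) * q ^ (Nat.card G).factorization q := by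
        rw [pow_succ']
        exact mul_dvd_mul_right hqK _
      rwa [h4] at h6
    have := (Nat.Prime.pow_dvd_iff_le_factorization hq Nat.card_pos.ne').mp h5
    omega
  have hEi : ¬ r ∣ E.index := hEn'.2
  have hEp : IsPGroup r E := IsPGroup.of_card (n := (Nat.card E).primeFactorsList.length) (
    Nat.eq_prime_pow_of_unique_prime_dvd Nat.card_pos.ne' fun {q} hq hd => hEr q hq hd)
  rw [sylow_eq_of_normal_of_not_dvd_index hEp hEi R]
  infer_instance

/-- Conjugating one system to another by an element of a normal subgroup. -/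
theorem exists_conj_mem_of_sup_eq [Finite G] [Group.IsSolvable G] {K L : ℕ → Subgroup G}
    (hK : IsCompl' K) (hL : IsCompl' L) {N : Subgroup G} [N.Normal] (T : Finset ℕ)
    (hT : ∀ p ∈ T, p.Prime) (hKL : ∀ p ∈ T, K p ⊔ N = L p ⊔ N) :
    ∃ n ∈ N, ∀ p ∈ T, MulAut.conj n • K p = L p := by
  induction T using Finset.induction_on with
  | empty => exact ⟨1, one_mem N, fun p hp => absurd hp (Finset.notMem_empty p)⟩
  | @insert a T ha ih =>
    have hT' : ∀ p ∈ T, p.Prime := fun p hp => hT p (Finset.mem_insert_of_mem hp)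
    have hap := hT a (Finset.mem_insert_self a T)
    obtain ⟨g, hgN, hg⟩ := ih hT' fun p hp => hKL p (Finset.mem_insert_of_mem hp)
    obtain ⟨K', hK'⟩ : ∃ K', K' = MulAut.conj g • K a := ⟨_, rfl⟩
    obtain ⟨M, hM⟩ : ∃ M, M = L a ⊔ N := ⟨_, rfl⟩
    have hLM : L a ≤ M := hM ▸ le_sup_left
    have hKM : K' ≤ M := by
      rw [hK', hM, ← hKL a (Finset.mem_insert_self a T)]
      intro z hz
      rw [mem_conj_smul_iff] at hz
      have hgM : g ∈ K a ⊔ N := mem_sup_right hgN
      simpa [mul_assoc] using mul_mem (mul_mem hgM (mem_sup_left (T := N) hz)) (inv_mem hgM)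
    have hidx : ∀ X : Subgroup G, X ≤ M → X.index = a ^ (Nat.card G).factorization a →
        IsPiHall {q | q ∣ Nat.card G / a ^ (Nat.card G).factorization a} (X.subgroupOf M) :=
      fun X hX hXi => by
        have h := (isPiHall_of_index_eq hap).mp hXi
        refine ⟨fun r hr hd => h.1 r hr ?_, fun r hr hrm hd => h.2 r hr hrm ?_⟩
        · rwa [Nat.card_congr (subgroupOfEquivOfLe hX).toEquiv] at hd
        · exact hd.trans (relIndex_dvd_index_of_le hX)
    haveI : Group.IsSolvable M := inferInstance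
    obtain ⟨⟨x, hxM⟩, hx⟩ := exists_conj_eq_of_isPiHall_of_isSolvable
      (hidx (L a) hLM (hL a hap))
      (hidx K' hKM (by rw [hK', index_conj_smul]; exact hK a hap))
    have hx' : MulAut.conj x • L a = K' := by
      have := congrArg (Subgroup.map M.subtype) hx
      rw [map_conj_smul, map_subgroupOf_eq_of_le hLM, map_subgroupOf_eq_of_le hKM] at this
      exact this
    obtain ⟨n, hn, l₀, hl₀, rfl⟩ := mem_sup_of_normal_left.mp (show x ∈ N ⊔ L a by rw [sup_comm, ← hM]; exact hxM)
    have hl₀' : MulAut.conj l₀ • L a = L a := mem_normalizer_iff_map_conj_eq.mp (le_normalizer hl₀)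
    rw [conj_mul_smul, hl₀'] at hx'
    -- decompose `n` in `N = (N ∩ E) (N ∩ L a)`
    obtain ⟨E, hE⟩ : ∃ E, E = T.inf L := ⟨_, rfl⟩
    have hcop : (E.subgroupOf N).index.Coprime ((L a).subgroupOf N).index := by
      have h1 : (E.subgroupOf N).index ∣ E.index := relIndex_dvd_index_of_normal_aux
      have h2 : ((L a).subgroupOf N).index ∣ (L a).index := relIndex_dvd_index_of_normal_aux
      refine (Nat.Coprime.coprime_dvd_left h1 ?_).coprime_dvd_right h2
      rw [hL a hap, hE, index_finset_inf hL T hT']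
      refine Nat.Coprime.prod_left fun p hp => Nat.Coprime.pow _ _ ?_
      exact (Nat.coprime_primes (hT' p hp) hap).mpr fun e => ha (e ▸ hp)
    obtain ⟨⟨e, heN⟩, he, ⟨l, hlN⟩, hl, hel⟩ := exists_mul_of_coprime_index hcop ⟨n, hn⟩
    have hel' : n = e * l := congrArg Subtype.val hel
    refine ⟨e⁻¹ * g, mul_mem (inv_mem heN) hgN, fun p hp => ?_⟩
    rcases Finset.mem_insert.mp hp with rfl | hp
    · have h1 : MulAut.conj l • L p = L p :=
        mem_normalizer_iff_map_conj_eq.mp (le_normalizer (mem_subgroupOf.mp hl))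
      rw [conj_mul_smul, ← hK', ← hx', hel', conj_mul_smul, h1, conj_inv_smul_smul]
    · have h1 : e⁻¹ ∈ L p := inv_mem ((Finset.inf_le hp : T.inf L ≤ L p) (hE ▸ mem_subgroupOf.mp he))
      rw [conj_mul_smul, hg p hp]
      exact mem_normalizer_iff_map_conj_eq.mp (le_normalizer h1)
where
  relIndex_dvd_index_of_normal_aux {G : Type _} [Group G] [Finite G] {A N : Subgroup G} [N.Normal] :
      (A.subgroupOf N).index ∣ A.index := by
    rw [← relIndex]
    have h1 : A.relIndex N = A.relIndex (A ⊔ N) := by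
      have : ∀ g : ↥(A ⊔ N), ∃ x ∈ A.subgroupOf (A ⊔ N), ∃ y ∈ N.subgroupOf (A ⊔ N), g = x * y := by
        rintro ⟨g, hg⟩
        obtain ⟨x, hx, y, hy, rfl⟩ := mem_sup_of_normal_right.mp hg
        exact ⟨⟨x, mem_sup_left hx⟩, hx, ⟨y, mem_sup_right hy⟩, hy, rfl⟩
      rw [← relIndex_subgroupOf (le_sup_right : N ≤ A ⊔ N)]
      exact relIndex_eq_index_of_forall this
    rw [h1]
    exact relIndex_dvd_index_of_le le_sup_left

theorem isComplementSystem_map [Finite G] {K : Nat.Primes → Subgroup G} (hK : IsComplementSystem K)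
    (N : Subgroup G) [N.Normal] :
    IsComplementSystem (fun p => (K p).map (QuotientGroup.mk' N)) := by
  intro p
  show ((K p).map (QuotientGroup.mk' N)).index = _
  obtain ⟨X, hX⟩ : ∃ X, X = (K p).map (QuotientGroup.mk' N) := ⟨_, rfl⟩
  rw [← hX]
  have h1 : X.index ∣ (p : ℕ) ^ (Nat.card G).factorization p := by
    rw [← hK p, hX]
    exact index_map_dvd (K p) (QuotientGroup.mk'_surjective N)
  obtain ⟨j, -, hj⟩ := (Nat.dvd_prime_pow p.2).mp h1
  have h2 : ¬ (p : ℕ) ∣ Nat.card X := fun hd => by
    have h4 := (K p).card_mul_index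
    rw [hK p] at h4
    have h5 : (p : ℕ) ^ ((Nat.card G).factorization p + 1) ∣ Nat.card G := by
      have h6 : (p : ℕ) ^ ((Nat.card G).factorization p + 1) ∣
          Nat.card (K p) * (p : ℕ) ^ (Nat.card G).factorization p := by
        rw [pow_succ']
        exact mul_dvd_mul_right (hd.trans (hX ▸ card_map_dvd _ _)) _
      rwa [h4] at h6
    have := (Nat.Prime.pow_dvd_iff_le_factorization p.2 Nat.card_pos.ne').mp h5
    omega
  have h3 := X.card_mul_index
  rw [hj, ← h3, hj, Nat.factorization_mul Nat.card_pos.ne' (pow_ne_zero _ p.2.ne_zero),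
    Finsupp.add_apply, p.2.factorization_pow, Finsupp.single_eq_same,
    Nat.factorization_eq_zero_of_not_dvd h2, zero_add]

theorem systemNormalizer_map [Finite G] [Group.IsSolvable G] {K : Nat.Primes → Subgroup G}
    (hK : IsComplementSystem K) (N : Subgroup G) [N.Normal] :
    systemNormalizer (fun p => (K p).map (QuotientGroup.mk' N)) =
      (systemNormalizer K).map (QuotientGroup.mk' N) := by
  classical
  have hsurj := QuotientGroup.mk'_surjective N
  refine le_antisymm (fun q hq => ?_) (le_iInf fun p =>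
    (map_mono (systemNormalizer_le K p)).trans (le_normalizer_map _))
  obtain ⟨g, rfl⟩ := hsurj q
  let ext : (Nat.Primes → Subgroup G) → ℕ → Subgroup G := fun K p =>
    if h : p.Prime then K ⟨p, h⟩ else ⊤
  have hK' : IsCompl' (ext K) := fun p hp => by simp only [ext, dif_pos hp]; exact hK ⟨p, hp⟩
  obtain ⟨L, hL⟩ : ∃ L : Nat.Primes → Subgroup G, ∀ p, L p = MulAut.conj g • K p := ⟨_, fun _ => rfl⟩
  have hL' : IsCompl' (ext L) := fun p hp => by
    simp only [ext, dif_pos hp]
    exact (congrArg Subgroup.index (hL ⟨p, hp⟩)).trans ((index_conj_smul _ _).trans (hK ⟨p, hp⟩))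
  have hsup : ∀ p : Nat.Primes, L p ⊔ N = K p ⊔ N := fun p => by
    have h1 : MulAut.conj (QuotientGroup.mk' N g) • (K p).map (QuotientGroup.mk' N) =
        (K p).map (QuotientGroup.mk' N) :=
      mem_normalizer_iff_map_conj_eq.mp ((Subgroup.mem_iInf.mp hq) p)
    rw [← map_conj_smul, ← hL] at h1
    have h2 := congrArg (Subgroup.comap (QuotientGroup.mk' N)) h1
    rwa [comap_map_eq, comap_map_eq, QuotientGroup.ker_mk'] at h2
  obtain ⟨n, hn, hnK⟩ := exists_conj_mem_of_sup_eq hL' hK' (N := N) (Nat.card G).primeFactors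
    (fun p hp => Nat.prime_of_mem_primeFactors hp) fun p hp => by
      simp only [ext, dif_pos (Nat.prime_of_mem_primeFactors hp)]
      exact hsup _
  refine ⟨n * g, Subgroup.mem_iInf.mpr fun p => ?_, ?_⟩
  · rw [mem_normalizer_iff_map_conj_eq]
    show MulAut.conj (n * g) • K p = K p
    by_cases hp : (p : ℕ) ∈ (Nat.card G).primeFactors
    · have h := hnK p hp
      simp only [ext, dif_pos p.2] at h
      rw [conj_mul_smul, ← hL]
      exact h
    · have h0 : (Nat.card G).factorization p = 0 :=
        Nat.factorization_eq_zero_of_not_dvd fun hd =>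
          hp (Nat.mem_primeFactors.mpr ⟨p.2, hd, Nat.card_pos.ne'⟩)
      rw [index_eq_one.mp (by rw [hK p, h0, pow_zero] : (K p).index = 1)]
      exact conj_smul_normal _ ⊤
  · rw [map_mul, QuotientGroup.mk'_apply, (QuotientGroup.eq_one_iff n).mpr hn, one_mul]

theorem normalClosure_systemNormalizer [Finite G] [Group.IsSolvable G]
    {K : Nat.Primes → Subgroup G} (hK : IsComplementSystem K) :
    normalClosure ((systemNormalizer K : Subgroup G) : Set G) = ⊤ := by
  by_contra hne
  obtain ⟨C, hC⟩ : ∃ C, C = normalClosure ((systemNormalizer K : Subgroup G) : Set G) := ⟨_, rfl⟩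
  rw [← hC] at hne
  haveI hCn : C.Normal := hC ▸ normalClosure_normal
  haveI : Nontrivial (G ⧸ C) := QuotientGroup.nontrivial_iff.mpr hne
  obtain ⟨p, M, hp, hM, hMi⟩ := Coprime.exists_normal_prime_index (G := G ⧸ C)
  haveI := hM
  obtain ⟨M', hM'⟩ : ∃ M', M' = M.comap (QuotientGroup.mk' C) := ⟨_, rfl⟩
  haveI : M'.Normal := hM' ▸ hM.comap _
  have hidx : M'.index = p := by rw [hM', index_comap_of_surjective _ (QuotientGroup.mk'_surjective C), hMi]
  haveI : IsCyclic (G ⧸ M') := by
    haveI := Fact.mk hp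
    exact isCyclic_of_prime_card (p := p) (by rw [← index_eq_card, hidx])
  have h1 := systemNormalizer_map hK M'
  have h2 : (systemNormalizer K).map (QuotientGroup.mk' M') = ⊥ := by
    rw [Subgroup.map_eq_bot_iff, QuotientGroup.ker_mk', hM']
    refine le_trans (hC ▸ le_normalClosure) ?_
    intro x hx
    rw [mem_comap, QuotientGroup.mk'_apply, (QuotientGroup.eq_one_iff x).mpr hx]
    exact one_mem M
  have h3 : systemNormalizer (fun q => (K q).map (QuotientGroup.mk' M')) = ⊤ := by
    refine eq_top_iff.mpr (le_iInf fun q => ?_)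
    letI : CommGroup (G ⧸ M') := IsCyclic.commGroup
    exact (normalizer_eq_top_iff.mpr inferInstance).ge
  rw [h3, h2] at h1
  have h4 := congrArg (fun X : Subgroup (G ⧸ M') => Nat.card X) h1
  simp only [card_top, card_bot, ← index_eq_card, hidx] at h4
  exact hp.ne_one h4

end Cfsg.Agent.Core
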