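/-
Core library: system normalizers, chief factors and Carter subgroups.
-/
import Cfsg.Agent.Core.Carter
import Cfsg.Agent.Core.SystemNormalizer
import Cfsg.Agent.OddLocal.NilBasics
import Cfsg.Agent.Core.Subnormal

set_option autoImplicit false
set_option linter.style.haveILetI false
set_option linter.unusedSectionVars false

namespace Cfsg.Agent.Core

open Cfsg Subgroup
open scoped Pointwise

variable {G : Type*} [Group G] [Finite G]

theorem center_le_systemNormalizer (K : Nat.Primes → Subgroup G) : center G ≤ systemNormalizer K :=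
  le_iInf fun p => (center_le_centralizer _).trans (centralizer_le_normalizer _)

theorem coprime_card_of_system {K : Nat.Primes → Subgroup G} (hK : IsComplementSystem K) (p : Nat.Primes) :
    (Nat.card (K p)).Coprime p := by
  refine (p.2.coprime_iff_not_dvd.mpr fun hd => ?_).symm
  have h4 := (K p).card_mul_index
  rw [hK p] at h4
  have h5 : (p : ℕ) ^ ((Nat.card G).factorization p + 1) ∣ Nat.card G := by
    have h6 : (p : ℕ) ^ ((Nat.card G).factorization p + 1) ∣
        Nat.card (K p) * (p : ℕ) ^ (Nat.card G).factorization p := by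
      rw [pow_succ']
      exact mul_dvd_mul_right hd _
    rwa [h4] at h6
  have := (Nat.Prime.pow_dvd_iff_le_factorization p.2 Nat.card_pos.ne').mp h5
  omega

theorem le_system_of_isPGroup {K : Nat.Primes → Subgroup G} (hK : IsComplementSystem K) (r : Nat.Primes)
    {p : ℕ} (hp : p.Prime) (hne : p ≠ r) {N : Subgroup G} [N.Normal] (hN : IsPGroup p N) : N ≤ K r := by
  haveI := Fact.mk hp
  set m := (K r).relIndex (K r ⊔ N) with hm
  have h1 : m ∣ (r : ℕ) ^ (Nat.card G).factorization r := by
    rw [← hK r]; exact relIndex_dvd_index_of_le le_sup_left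
  have h2 : m ∣ Nat.card N := by
    have e1 := card_sup_mul_card_inf (K r) N
    rw [← card_mul_relIndex (le_sup_left : K r ≤ K r ⊔ N), ← hm, mul_assoc] at e1
    exact ⟨_, (Nat.eq_of_mul_eq_mul_left Nat.card_pos e1).symm⟩
  obtain ⟨j, hj⟩ := IsPGroup.iff_card.mp hN
  have h3 : m = 1 := Nat.eq_one_of_dvd_coprimes
    (Nat.coprime_pow_primes _ j r.2 hp hne.symm) h1 (hj ▸ h2)
  exact le_sup_right.trans (relIndex_eq_one.mp h3)

/-- A Carter subgroup supplementing a normal `p`-subgroup is the normalizer of its `p'`-part. -/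
theorem normalizer_pResidual_eq {p : ℕ} [Fact p.Prime] {C : Subgroup G} (hC : IsCarterSubgroup C)
    {N : Subgroup G} [N.Normal] (hNp : IsPGroup p N) (hCN : C ⊔ N = ⊤) :
    normalizer (((pResidual p C).map C.subtype : Subgroup G) : Set G) = C := by
  haveI := hC.1
  set K := (pResidual p C).map C.subtype with hK
  have hnpc : HasNormalPComplement p C := ThompsonFPF.hasNormalPComplement_of_isNilpotent
  have hKo : ∀ k ∈ K, k ∈ C ∧ (orderOf k).Coprime p := by
    rintro _ ⟨k, hk, rfl⟩
    refine ⟨k.2, ?_⟩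
    rw [show C.subtype k = (k : G) from rfl, Subgroup.orderOf_coe]
    exact (Transfer.mem_pResidual_iff hnpc).mp hk
  have hCK : C ≤ normalizer (K : Set G) := by
    haveI : (pResidual p C).Normal := Transfer.pResidual_normal
    have := Subgroup.le_normalizer_map (H := pResidual p C) C.subtype
    rw [normalizer_eq_top_iff.mpr inferInstance, ← MonoidHom.range_eq_map, range_subtype] at this
    exact this
  set T := N ⊓ centralizer (K : Set G) with hT
  obtain ⟨S⟩ : Nonempty (Sylow p C) := inferInstance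
  set P := (S : Subgroup C).map C.subtype with hP
  have hPC : P ≤ C := map_subtype_le _
  have hCT : C ≤ normalizer (T : Set G) := by
    refine le_trans (le_inf (le_top.trans_eq (normalizer_eq_top N).symm) ?_) inf_normalizer_le_normalizer_inf
    intro c hc
    refine Coprime.mem_normalizer_of_conj_mem fun y hy => ?_
    rw [mem_centralizer_iff]
    intro k hk
    have h1 : c⁻¹ * k * c ∈ K := (mem_normalizer_iff''.mp (hCK hc) k).mp hk
    calc k * (c * y * c⁻¹) = c * ((c⁻¹ * k * c) * y) * c⁻¹ := by group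
      _ = c * (y * (c⁻¹ * k * c)) * c⁻¹ := by rw [mem_centralizer_iff.mp hy _ h1]
      _ = c * y * c⁻¹ * k := by group
  have hPK : P ≤ centralizer (K : Set G) := by
    rintro _ ⟨x, hx, rfl⟩
    rw [mem_centralizer_iff]
    intro k hk
    obtain ⟨hkC, hko⟩ := hKo k hk
    obtain ⟨i, hi⟩ := IsPGroup.iff_orderOf.mp S.2 ⟨x, hx⟩
    have := OddLocal.commute_of_coprime_orderOf (x := (⟨k, hkC⟩ : C)) (y := x) (by
      rw [← Subgroup.orderOf_coe] at hi
      rw [← Subgroup.orderOf_coe, show orderOf x = p ^ i from hi]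
      exact hko.pow_right i)
    exact congrArg Subtype.val this.eq
  have hTC : T ≤ C := by
    set W := T ⊔ P with hW
    have hWp : IsPGroup p W := (hNp.to_le inf_le_left).to_sup_of_normal_left' (S.2.map _) (hPC.trans hCT)
    have hWK : W ≤ centralizer (K : Set G) := sup_le inf_le_right hPK
    have hCW : C ⊓ W ≤ P := by
      have h1 : (S : Subgroup C) ≤ (C ⊓ W).subgroupOf C := fun x hx =>
        ⟨x.2, mem_sup_right ⟨x, hx, rfl⟩⟩
      have h2 := S.3 ((hWp.to_le inf_le_right).comap_subtype (K := C)) h1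
      intro y hy
      refine ⟨⟨y, hy.1⟩, ?_, rfl⟩
      show (⟨y, hy.1⟩ : C) ∈ (S : Subgroup C)
      rw [← h2]; exact hy
    rcases eq_or_lt_of_le (le_sup_right : P ≤ W) with e | hlt
    · intro t ht
      exact hPC (e.symm ▸ (mem_sup_left ht : t ∈ W))
    · exfalso
      obtain ⟨y, ⟨hyW, hyP⟩, hy⟩ := SetLike.exists_of_lt (Transfer.lt_inf_normalizer hWp hlt)
      have hCPK : C = P ⊔ K := by
        rw [hP, hK, ← Subgroup.map_sup, Transfer.sylow_sup_pResidual, ← MonoidHom.range_eq_map, range_subtype]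
      have hyC : y ∈ normalizer (C : Set G) := by
        rw [mem_normalizer_iff_map_conj_eq, hCPK, Subgroup.map_sup, mem_normalizer_iff_map_conj_eq.mp hyP,
          mem_normalizer_iff_map_conj_eq.mp (centralizer_le_normalizer _ (hWK hyW))]
      rw [hC.2] at hyC
      exact hy (hCW ⟨hyC, hyW⟩)
  refine le_antisymm ?_ hCK
  intro z hz
  obtain ⟨c, hc, n, hn, rfl⟩ := mem_sup_of_normal_right.mp (hCN ▸ mem_top z : z ∈ C ⊔ N)
  refine C.mul_mem hc (hTC ⟨hn, ?_⟩)
  show n ∈ centralizer (K : Set G)
  have hnK : n ∈ normalizer (K : Set G) := by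
    have := (normalizer (K : Set G)).mul_mem ((normalizer (K : Set G)).inv_mem (hCK hc)) hz
    simpa using this
  rw [mem_centralizer_iff]
  intro k hk
  have h1 : n * k * n⁻¹ * k⁻¹ ∈ N := by
    rw [show n * k * n⁻¹ * k⁻¹ = n * (k * n⁻¹ * k⁻¹) by group]
    exact N.mul_mem hn ((inferInstance : N.Normal).conj_mem _ (N.inv_mem hn) k)
  have h2 : n * k * n⁻¹ * k⁻¹ ∈ K := K.mul_mem ((mem_normalizer_iff.mp hnK k).mp hk) (K.inv_mem hk)
  have h3 : n * k * n⁻¹ * k⁻¹ = 1 := ThompsonComplement.eq_one_of_mem hNp h1 (hKo _ h2).2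
  exact (mul_inv_eq_iff_eq_mul.mp (mul_inv_eq_one.mp h3)).symm

universe u

theorem carter_system_aux : ∀ (n : ℕ) {G : Type u} [Group G] [Finite G] [Group.IsSolvable G],
    Nat.card G ≤ n → ∀ K : Nat.Primes → Subgroup G, IsComplementSystem K →
      ∃ C : Subgroup G, IsCarterSubgroup C ∧ systemNormalizer K ≤ C ∧
        ∀ (r : Nat.Primes) (c : G), c ∈ C → (orderOf c).Coprime r → c ∈ K r := by
  intro n
  induction n with
  | zero => intro G _ _ _ h; exact absurd h (by simp [Nat.card_pos.ne'])
  | succ n ih =>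
  intro G _ _ _ hcard K hK
  rcases subsingleton_or_nontrivial G with hG | hG
  · obtain ⟨C, hC⟩ := exists_carter (G := G)
    exact ⟨C, hC, fun x _ => by rw [Subsingleton.elim x 1]; exact C.one_mem,
      fun r c _ _ => by rw [Subsingleton.elim c 1]; exact (K r).one_mem⟩
  obtain ⟨N, hN⟩ := exists_isMinNormal (G := G)
  haveI := hN.1
  obtain ⟨-, p, hp, -, hNp⟩ := hN.elementaryAbelian_of_isSolvable
  haveI := Fact.mk hp
  set f := QuotientGroup.mk' N with hf
  have hfs : Function.Surjective f := QuotientGroup.mk'_surjective N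
  have hlt : Nat.card (G ⧸ N) ≤ n := by
    have h2 : Nat.card (G ⧸ N) < Nat.card G := by
      rw [Subgroup.card_eq_card_quotient_mul_card_subgroup N]
      exact lt_mul_of_one_lt_right Nat.card_pos ((Subgroup.one_lt_card_iff_ne_bot N).mpr hN.2.1)
    omega
  obtain ⟨Cb, hCb, hDb, hKb⟩ := ih (G := G ⧸ N) hlt _ (isComplementSystem_map hK N)
  haveI := hCb.1
  have hcomapK : ∀ r, ((K r).map f).comap f = K r ⊔ N := fun r => by
    rw [Subgroup.comap_map_eq, QuotientGroup.ker_mk']
  set X := Cb.comap f with hX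
  have hDX : systemNormalizer K ≤ X := by
    rw [hX, ← Subgroup.map_le_iff_le_comap, ← systemNormalizer_map hK N]; exact hDb
  set Rb := (pResidual p Cb).map Cb.subtype with hRb
  set Y := Rb.comap f with hY
  have hnpcb : HasNormalPComplement p Cb := ThompsonFPF.hasNormalPComplement_of_isNilpotent
  have hRbK : Rb ≤ (K ⟨p, hp⟩).map f := by
    rintro _ ⟨y, hy, rfl⟩
    refine hKb ⟨p, hp⟩ (y : G ⧸ N) y.2 ?_
    rw [Subgroup.orderOf_coe]; exact (Transfer.mem_pResidual_iff hnpcb).mp hy
  have hXY : X ≤ normalizer (Y : Set G) := by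
    haveI : (pResidual p Cb).Normal := Transfer.pResidual_normal
    have := Subgroup.le_normalizer_map (H := pResidual p Cb) Cb.subtype
    rw [normalizer_eq_top_iff.mpr inferInstance, ← MonoidHom.range_eq_map, range_subtype] at this
    exact (Subgroup.comap_mono this).trans (Subgroup.le_normalizer_comap f)
  have hYX : Y ≤ X := Subgroup.comap_mono (map_subtype_le _)
  have hNY : N ≤ Y := fun x hx => by
    show f x ∈ Rb
    rw [show f x = 1 from (QuotientGroup.eq_one_iff x).mpr hx]; exact Rb.one_mem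
  set H := K ⟨p, hp⟩ ⊓ Y with hH
  have hHN : H ⊔ N = Y := by
    refine le_antisymm (sup_le inf_le_right hNY) fun y hy => ?_
    have h1 : y ∈ K ⟨p, hp⟩ ⊔ N := by rw [← hcomapK ⟨p, hp⟩]; exact hRbK hy
    obtain ⟨k, hk, z, hz, rfl⟩ := mem_sup_of_normal_right.mp h1
    exact mul_mem_sup ⟨hk, by simpa using Y.mul_mem hy (Y.inv_mem (hNY hz))⟩ hz
  have hHc : (Nat.card H).Coprime p :=
    (coprime_card_of_system hK ⟨p, hp⟩).coprime_dvd_left (card_dvd_of_le inf_le_left)
  obtain ⟨j, hj⟩ := IsPGroup.iff_card.mp hNp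
  have hHNb : Nat.card (H ⊓ N : Subgroup G) = 1 := Nat.eq_one_of_dvd_coprimes
    (hHc.pow_right j) (card_dvd_of_le inf_le_left) (hj ▸ card_dvd_of_le inf_le_right)
  have hcardH : Nat.card H = Nat.card (pResidual p Cb) := by
    have h1 := card_sup_mul_card_inf H N
    rw [hHN, hHNb, mul_one, hY, card_comap_mk, hRb, Subgroup.card_map_of_injective Cb.subtype_injective] at h1
    first
    | exact (Nat.eq_of_mul_eq_mul_right Nat.card_pos h1).symm
    | exact (Nat.eq_of_mul_eq_mul_left Nat.card_pos (h1.trans (mul_comm _ _))).symm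
  set H' := H.subgroupOf X with hH'
  have hHX : H ≤ X := inf_le_right.trans hYX
  obtain ⟨i, hi⟩ := IsPGroup.iff_card.mp (Transfer.isPGroup_quotient_pResidual (p := p) (G := Cb))
  have hH'i : H'.index = p ^ (i + j) := by
    refine Nat.eq_of_mul_eq_mul_left (Nat.card_pos (α := H')) ?_
    rw [H'.card_mul_index, Nat.card_congr (subgroupOfEquivOfLe hHX).toEquiv, hcardH, hX, card_comap_mk,
      Subgroup.card_eq_card_quotient_mul_card_subgroup (pResidual p Cb), hi, hj, pow_add]
    ring
  have hHall : IsPiHall {p}ᶜ H' := by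
    rw [isPiHall_iff, compl_compl, hH'i]
    refine ⟨(isPiNat_compl_singleton_iff_coprime hp).mpr ?_, fun q hq hd => ?_⟩
    · rw [Nat.card_congr (subgroupOfEquivOfLe hHX).toEquiv]; exact hHc
    · exact (Nat.prime_dvd_prime_iff_eq hq hp).mp (hq.dvd_of_dvd_pow hd)
  -- a Carter subgroup of `X`
  set N' := N.subgroupOf X with hN'
  have hNX : N ≤ X := hNY.trans hYX
  haveI hqn : Group.IsNilpotent (X ⧸ N') := by
    let g : X →* Cb := f.subgroupComap Cb
    have hgs : Function.Surjective g := fun y => by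
      obtain ⟨x, hx⟩ := hfs (y : G ⧸ N)
      exact ⟨⟨x, show f x ∈ Cb by rw [hx]; exact y.2⟩, Subtype.ext hx⟩
    have hk : g.ker = N' := by
      ext x
      rw [MonoidHom.mem_ker, mem_subgroupOf]
      exact ⟨fun h => (QuotientGroup.eq_one_iff _).mp (congrArg Subtype.val h),
        fun h => Subtype.ext ((QuotientGroup.eq_one_iff (x : G)).mpr h)⟩
    exact Group.nilpotent_of_mulEquiv
      ((QuotientGroup.quotientKerEquivOfSurjective g hgs).symm.trans (QuotientGroup.quotientMulEquivOfEq hk))
  obtain ⟨C₁, hC₁⟩ := exists_carter (G := X)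
  have hsup : C₁ ⊔ N' = ⊤ := by
    have h1 := IsCarterSubgroup.eq_top (carter_map hC₁ N')
    have h2 := congrArg (Subgroup.comap (QuotientGroup.mk' N')) h1
    rwa [Subgroup.comap_map_eq, QuotientGroup.ker_mk', comap_top] at h2
  have hN'p : IsPGroup p N' := hNp.comap_subtype
  have hnorm₁ := normalizer_pResidual_eq hC₁ hN'p hsup
  set K₁ := (pResidual p C₁).map C₁.subtype with hK₁
  have hK₁H : IsPiHall {p}ᶜ K₁ := by
    haveI := hC₁.1
    have hnpc : HasNormalPComplement p C₁ := ThompsonFPF.hasNormalPComplement_of_isNilpotent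
    rw [isPiHall_iff, compl_compl, hK₁, Subgroup.card_map_of_injective C₁.subtype_injective]
    refine ⟨(isPiNat_compl_singleton_iff_coprime hp).mpr
      (Transfer.hasNormalPComplement_iff_coprime_pResidual.mp hnpc), ?_⟩
    rw [← relIndex_mul_index (map_subtype_le _ : (pResidual p C₁).map C₁.subtype ≤ C₁)]
    refine IsPiNat.mul ?_ ?_
    · rw [relIndex, show ((pResidual p C₁).map C₁.subtype).subgroupOf C₁ = pResidual p C₁ from
        comap_map_eq_self_of_injective C₁.subtype_injective _, Subgroup.index_eq_card]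
      obtain ⟨a, ha⟩ := IsPGroup.iff_card.mp (Transfer.isPGroup_quotient_pResidual (p := p) (G := C₁))
      rw [ha]
      exact fun q hq hd => (Nat.prime_dvd_prime_iff_eq hq hp).mp (hq.dvd_of_dvd_pow hd)
    · obtain ⟨a, ha⟩ := IsPGroup.iff_card.mp hN'p
      have h1 := card_sup_mul_card_inf C₁ N'
      rw [hsup, card_top, ← C₁.card_mul_index, mul_assoc] at h1
      have h2 : C₁.index ∣ p ^ a := ha ▸ ⟨_, (Nat.eq_of_mul_eq_mul_left Nat.card_pos h1).symm⟩
      exact fun q hq hd => (Nat.prime_dvd_prime_iff_eq hq hp).mp (hq.dvd_of_dvd_pow (hd.trans h2))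
  obtain ⟨x, hx⟩ := exists_conj_eq_of_isPiHall_of_isSolvable hK₁H hHall
  set C' := normalizer (H' : Set X) with hC'
  have hC'eq : C' = C₁.map (MulAut.conj x).toMonoidHom := by
    rw [hC', ← hx, ← hnorm₁, Subgroup.map_equiv_normalizer_eq]; rfl
  have hC'C : IsCarterSubgroup C' := by
    haveI := hC₁.1
    rw [hC'eq]
    exact ⟨isNilpotent_map_subgroup _ _, by rw [← Subgroup.map_equiv_normalizer_eq, hC₁.2]⟩
  set C := C'.map X.subtype with hCdef
  haveI := hC'C.1
  refine ⟨C, ⟨isNilpotent_map_subgroup _ _, ?_⟩, ?_, ?_⟩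
  · refine le_antisymm ?_ le_normalizer
    intro g hg
    have hsup' : C ⊔ N = X := by
      have h1 := IsCarterSubgroup.eq_top (carter_map hC'C N')
      have h2 := congrArg (Subgroup.comap (QuotientGroup.mk' N')) h1
      rw [Subgroup.comap_map_eq, QuotientGroup.ker_mk', comap_top] at h2
      have h3 := congrArg (Subgroup.map X.subtype) h2
      rwa [Subgroup.map_sup, hN', map_subgroupOf_eq_of_le hNX, ← MonoidHom.range_eq_map, range_subtype] at h3
    have hgX : g ∈ X := by
      have h1 : g ∈ normalizer ((C ⊔ N : Subgroup G) : Set G) := by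
        rw [mem_normalizer_iff_map_conj_eq, Subgroup.map_sup, mem_normalizer_iff_map_conj_eq.mp hg,
          mem_normalizer_iff_map_conj_eq.mp (show g ∈ normalizer (N : Set G) from
            (normalizer_eq_top N).symm ▸ mem_top g)]
      rw [hsup'] at h1
      have h2 : f g ∈ normalizer (Cb : Set (G ⧸ N)) := by
        have := (Subgroup.le_normalizer_map f) (Subgroup.mem_map_of_mem f h1)
        rwa [hX, Subgroup.map_comap_eq_self_of_surjective hfs] at this
      rwa [hCb.2] at h2
    have h3 : (⟨g, hgX⟩ : X) ∈ normalizer (C' : Set X) := by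
      refine Coprime.mem_normalizer_of_conj_mem fun c hc => ?_
      obtain ⟨c', hc', hce⟩ := (mem_normalizer_iff.mp hg (c : G)).mp ⟨c, hc, rfl⟩
      rwa [show c' = ⟨g, hgX⟩ * c * ⟨g, hgX⟩⁻¹ from Subtype.ext hce] at hc'
    rw [hC'C.2] at h3
    exact ⟨_, h3, rfl⟩
  · intro d hd
    refine ⟨⟨d, hDX hd⟩, ?_, rfl⟩
    refine Coprime.mem_normalizer_of_conj_mem fun h hh => ?_
    exact ⟨(mem_normalizer_iff.mp (systemNormalizer_le K _ hd) (h : G)).mp hh.1,
      (mem_normalizer_iff.mp (hXY (hDX hd)) (h : G)).mp hh.2⟩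
  · rintro r _ ⟨c, hc, rfl⟩ hco
    change (orderOf (c : G)).Coprime r at hco
    change (c : G) ∈ K r
    by_cases hrp : (r : ℕ) = p
    · obtain rfl : r = ⟨p, hp⟩ := Subtype.ext hrp
      have hzc : zpowers (⟨c, hc⟩ : C') ≤ H'.subgroupOf C' := by
        haveI : (H'.subgroupOf C').Normal := normal_in_normalizer
        refine le_of_coprime_index ?_
        rw [Nat.card_zpowers, ← Subgroup.orderOf_coe, ← Subgroup.orderOf_coe]
        refine Nat.Coprime.coprime_dvd_right ?_ (hco.pow_right (i + j))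
        rw [← hH'i]
        exact relIndex_dvd_index_of_le le_normalizer
      exact (hzc (mem_zpowers _) : (c : G) ∈ H).1
    · have hfc : f c ∈ Cb := c.2
      have h1 : f c ∈ (K r).map f := hKb r (f c) hfc
        (hco.coprime_dvd_left (orderOf_map_dvd f (c : G)))
      have h2 : (c : G) ∈ ((K r).map f).comap f := h1
      rw [hcomapK, sup_eq_left.mpr (le_system_of_isPGroup hK r hp (Ne.symm hrp) hNp)] at h2
      exact h2

theorem exists_carter_ge_systemNormalizer {G : Type*} [Group G] [Finite G] [Group.IsSolvable G]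
    {K : Nat.Primes → Subgroup G} (hK : IsComplementSystem K) :
    ∃ C : Subgroup G, IsCarterSubgroup C ∧ systemNormalizer K ≤ C := by
  obtain ⟨C, h1, h2, -⟩ := carter_system_aux _ le_rfl K hK
  exact ⟨C, h1, h2⟩

theorem conj_systemNormalizer (K : Nat.Primes → Subgroup G) (g : G) :
    systemNormalizer (fun p => MulAut.conj g • K p) = MulAut.conj g • systemNormalizer K := by
  ext x
  simp only [systemNormalizer, mem_conj_smul_iff, Subgroup.mem_iInf]
  refine forall_congr' fun p => ?_
  rw [← mem_conj_smul_iff (g := g) (H := normalizer (K p : Set G))]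
  show _ ↔ x ∈ (normalizer (K p : Set G)).map (MulAut.conj g).toMonoidHom
  rw [Subgroup.map_equiv_normalizer_eq]
  rfl

theorem exists_system [Group.IsSolvable G] : ∃ K : Nat.Primes → Subgroup G, IsComplementSystem K := by
  obtain ⟨K, hK⟩ := exists_isCompl' (G := G)
  exact ⟨fun p => K p, fun p => hK p p.2⟩

theorem exists_system_le_carter [Group.IsSolvable G] {C : Subgroup G} (hC : IsCarterSubgroup C) :
    ∃ K : Nat.Primes → Subgroup G, IsComplementSystem K ∧ systemNormalizer K ≤ C := by
  obtain ⟨K, hK⟩ := exists_system (G := G)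
  obtain ⟨C', hC', hle⟩ := exists_carter_ge_systemNormalizer hK
  obtain ⟨g, hg⟩ := carter_conj hC' hC
  refine ⟨fun p => MulAut.conj g • K p, fun p => (index_conj_smul g (K p)).trans (hK p), ?_⟩
  rw [conj_systemNormalizer, ← hg]
  exact pointwise_smul_le_pointwise_smul_iff.mpr hle

theorem carter_eq_aux : ∀ (n : ℕ) {G : Type u} [Group G] [Finite G] [Group.IsSolvable G],
    Nat.card G ≤ n → ∀ (F : Subgroup G) [F.Normal], Group.IsNilpotent F → Group.IsNilpotent (G ⧸ F) →
      ∀ (K : Nat.Primes → Subgroup G), IsComplementSystem K →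
        ∀ C : Subgroup G, IsCarterSubgroup C → systemNormalizer K ≤ C → C = systemNormalizer K := by
  intro n
  induction n with
  | zero => intro G _ _ _ h; exact absurd h (by simp [Nat.card_pos.ne'])
  | succ n ih =>
  intro G _ _ _ hcard F _ hF hGF K hK C hC hDC
  haveI := hC.1
  haveI := hGF
  have hsupF : C ⊔ F = ⊤ := by
    have h1 := IsCarterSubgroup.eq_top (carter_map hC F)
    have h2 := congrArg (Subgroup.comap (QuotientGroup.mk' F)) h1
    rwa [Subgroup.comap_map_eq, QuotientGroup.ker_mk', comap_top] at h2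
  by_cases hFb : F = ⊥
  · subst hFb
    rw [sup_bot_eq] at hsupF
    subst hsupF
    haveI : Group.IsNilpotent G := Group.nilpotent_of_mulEquiv Subgroup.topEquiv
    refine le_antisymm (le_iInf fun p => ?_) hDC
    rw [show normalizer (K p : Set G) = ⊤ from ?_]
    -- Hall subgroups of nilpotent groups are normal
    rw [normalizer_eq_top_iff]
    set D := pResidual (p : ℕ) G with hD
    haveI : Fact (p : ℕ).Prime := ⟨p.2⟩
    haveI : D.Normal := Transfer.pResidual_normal
    have h1 : K p ≤ D := fun x hx => Transfer.mem_pResidual_of_coprime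
      ((coprime_card_of_system hK p).coprime_dvd_left (Subgroup.orderOf_dvd_natCard _ hx))
    have h2 : D ≤ K p := by
      have hnpc : HasNormalPComplement (p : ℕ) G := ThompsonFPF.hasNormalPComplement_of_isNilpotent
      have hDc := Transfer.hasNormalPComplement_iff_coprime_pResidual.mp hnpc
      refine (eq_of_le_of_card_ge h1 (Nat.le_of_dvd Nat.card_pos ?_)).ge
      refine (hDc.pow_right ((Nat.card G).factorization p)).dvd_of_dvd_mul_right ?_
      rw [← hK p, (K p).card_mul_index]
      exact card_subgroup_dvd_card _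
    rw [le_antisymm h1 h2]
    infer_instance
  obtain ⟨N, hN, hNF⟩ := exists_isMinNormal_le (inferInstance : F.Normal) hFb
  haveI := hN.1
  set f := QuotientGroup.mk' N with hf
  have hfs : Function.Surjective f := QuotientGroup.mk'_surjective N
  have hlt : Nat.card (G ⧸ N) ≤ n := by
    have h2 : Nat.card (G ⧸ N) < Nat.card G := by
      rw [Subgroup.card_eq_card_quotient_mul_card_subgroup N]
      exact lt_mul_of_one_lt_right Nat.card_pos ((Subgroup.one_lt_card_iff_ne_bot N).mpr hN.2.1)
    omega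
  haveI hFn : (F.map f).Normal := (inferInstance : F.Normal).map f hfs
  have hCD : C.map f = (systemNormalizer K).map f := by
    rw [← systemNormalizer_map hK N]
    refine ih (G := G ⧸ N) hlt (F.map f) (isNilpotent_map hF f) ?_ _ (isComplementSystem_map hK N) _
      (carter_map hC N) ?_
    · exact Group.nilpotent_of_surjective (QuotientGroup.map F (F.map f) f (le_comap_map f F)) fun y => by
        obtain ⟨z, rfl⟩ := QuotientGroup.mk'_surjective _ y
        obtain ⟨g, rfl⟩ := hfs z
        exact ⟨g, rfl⟩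
    · rw [systemNormalizer_map hK N]; exact map_mono hDC
  have hFc : F ≤ centralizer (N : Set G) :=
    ((le_fittingSubgroup_of_isSubnormal (inferInstance : F.Normal).isSubnormal hF)).trans
      hN.fittingSubgroup_le_centralizer
  have hn : (N ⊓ C).Normal := by
    rw [← normalizer_eq_top_iff, eq_top_iff, ← hsupF]
    refine sup_le ((le_inf (le_top.trans_eq (normalizer_eq_top N).symm) le_normalizer).trans
      inf_normalizer_le_normalizer_inf) (hFc.trans ((centralizer_le ?_).trans (centralizer_le_normalizer _)))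
    exact fun x hx => hx.1
  rcases hN.2.2 _ hn inf_le_left with hb | hall
  · refine (eq_of_le_of_card_ge hDC ?_).symm
    refine le_of_eq_of_le ?_ (Nat.le_of_dvd Nat.card_pos (card_map_dvd (systemNormalizer K) f))
    rw [← hCD]
    refine (Nat.card_congr (Equiv.ofBijective (f.subgroupMap C) ⟨?_, f.subgroupMap_surjective C⟩))
    intro a b h
    have h1 : (a : G)⁻¹ * b ∈ N ⊓ C :=
      ⟨QuotientGroup.eq.mp (congrArg Subtype.val h), C.mul_mem (C.inv_mem a.2) b.2⟩
    rw [hb, mem_bot, inv_mul_eq_one] at h1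
    exact Subtype.ext h1
  · have hNC : N ≤ C := inf_eq_left.mp hall
    have hNZ : N ≤ center G := by
      refine (hN.inf_eq_bot_or_le inferInstance).resolve_left fun hb => ?_
      obtain ⟨z, hzN, hz1, hzc⟩ := OddLocal.exists_ne_one_mem_center_of_normal (N.subgroupOf C) (by
        rw [ne_eq, subgroupOf_eq_bot, disjoint_iff, inf_eq_left.mpr hNC]
        exact hN.2.1)
      refine hz1 (Subtype.ext (mem_bot.mp (hb ▸ (show (z : G) ∈ N ⊓ center G from ⟨hzN, mem_center_iff.mpr fun g => ?_⟩))))
      have hg : g ∈ centralizer ({(z : G)} : Set G) := by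
        refine (hsupF ▸ sup_le (fun c hc => ?_) (fun x hx => ?_) : (⊤ : Subgroup G) ≤ _) (mem_top g)
        · exact mem_centralizer_singleton_iff.mpr (congrArg Subtype.val (mem_center_iff.mp hzc ⟨c, hc⟩))
        · exact mem_centralizer_singleton_iff.mpr (mem_centralizer_iff.mp (hFc hx) _ hzN).symm
      exact mem_centralizer_singleton_iff.mp hg
    refine le_antisymm ?_ hDC
    intro c hc
    have h1 : c ∈ ((systemNormalizer K).map f).comap f := by
      rw [← hCD]; exact ⟨c, hc, rfl⟩
    rwa [Subgroup.comap_map_eq, QuotientGroup.ker_mk',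
      sup_eq_left.mpr (hNZ.trans (center_le_systemNormalizer K))] at h1

theorem carter_iff_systemNormalizer {G : Type*} [Group G] [Finite G] (F : Subgroup G) [F.Normal]
    (hF : Group.IsNilpotent F) (hGF : Group.IsNilpotent (G ⧸ F)) (C : Subgroup G) :
    IsCarterSubgroup C ↔ ∃ K : Nat.Primes → Subgroup G, IsComplementSystem K ∧ C = systemNormalizer K := by
  haveI := hF
  haveI := hGF
  haveI : Group.IsSolvable G :=
    (Group.isSolvable_iff_subgroup_quotient F).mpr ⟨IsNilpotent.to_isSolvable, IsNilpotent.to_isSolvable⟩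
  constructor
  · intro hC
    obtain ⟨K, hK, hle⟩ := exists_system_le_carter hC
    exact ⟨K, hK, carter_eq_aux _ le_rfl F hF hGF K hK C hC hle⟩
  · rintro ⟨K, hK, rfl⟩
    obtain ⟨C, hC, hle⟩ := exists_carter_ge_systemNormalizer hK
    rw [← carter_eq_aux _ le_rfl F hF hGF K hK C hC hle]
    exact hC

/-- A system normalizer covers central and avoids eccentric chief factors. -/
theorem systemNormalizer_cover_avoid [Group.IsSolvable G] {K : Nat.Primes → Subgroup G}
    (hK : IsComplementSystem K) (A B : Subgroup G) [A.Normal] [B.Normal] (hAB : A < B)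
    (hchief : ∀ N : Subgroup G, N.Normal → A ≤ N → N ≤ B → N = A ∨ N = B) :
    (⁅B, (⊤ : Subgroup G)⁆ ≤ A → B ≤ A ⊔ systemNormalizer K) ∧
      (¬ ⁅B, (⊤ : Subgroup G)⁆ ≤ A → B ⊓ systemNormalizer K ≤ A) := by
  set f := QuotientGroup.mk' A with hf
  have hfs : Function.Surjective f := QuotientGroup.mk'_surjective A
  set V := B.map f with hV
  haveI hVn : V.Normal := (inferInstance : B.Normal).map f hfs
  have hmem : ∀ {b}, f b = 1 ↔ b ∈ A := fun {b} => QuotientGroup.eq_one_iff b
  have hcomm : ⁅B, (⊤ : Subgroup G)⁆ ≤ A ↔ V ≤ center (G ⧸ A) := by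
    rw [Subgroup.commutator_le]
    constructor
    · rintro h _ ⟨b, hb, rfl⟩
      rw [mem_center_iff]
      intro y
      obtain ⟨g, rfl⟩ := hfs y
      have := hmem.mpr (h b hb g (mem_top g))
      rw [map_commutatorElement, commutatorElement_eq_one_iff_mul_comm] at this
      exact this.symm
    · intro h b hb g _
      rw [← hmem, map_commutatorElement, commutatorElement_eq_one_iff_mul_comm]
      exact (mem_center_iff.mp (h ⟨b, hb, rfl⟩) (f g)).symm
  have hKb := isComplementSystem_map hK A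
  have hmap : systemNormalizer (fun p => (K p).map f) = (systemNormalizer K).map f := systemNormalizer_map hK A
  refine ⟨fun h => ?_, fun h => ?_⟩
  · have h1 : V ≤ (systemNormalizer K).map f := hmap ▸ (hcomm.mp h).trans (center_le_systemNormalizer _)
    intro b hb
    have h2 : b ∈ ((systemNormalizer K).map f).comap f := h1 ⟨b, hb, rfl⟩
    rwa [Subgroup.comap_map_eq, QuotientGroup.ker_mk', sup_comm] at h2
  rw [hcomm] at h
  rintro x ⟨hxB, hxD⟩
  rw [← hmem]
  have hVmin : IsMinNormal V := by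
    refine ⟨hVn, ?_, fun M hM hMV => ?_⟩
    · rw [hV, ne_eq, Subgroup.map_eq_bot_iff, QuotientGroup.ker_mk']
      exact hAB.not_ge
    · have h1 : A ≤ M.comap f := fun a ha => by
        show f a ∈ M
        rw [hmem.mpr ha]; exact M.one_mem
      have h2 : M.comap f ≤ B := by
        intro b hb
        obtain ⟨b', hb', he⟩ := hMV hb
        have : b'⁻¹ * b ∈ A := QuotientGroup.eq.mp he
        simpa using B.mul_mem hb' (hAB.le this)
      rcases hchief _ (hM.comap f) h1 h2 with h' | h'
      · left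
        rw [← Subgroup.map_comap_eq_self_of_surjective hfs M, h', Subgroup.map_eq_bot_iff, QuotientGroup.ker_mk']
      · right
        rw [← Subgroup.map_comap_eq_self_of_surjective hfs M, h']
  obtain ⟨-, q, hq, -, hVq⟩ := hVmin.elementaryAbelian_of_isSolvable
  haveI := Fact.mk hq
  set C := centralizer (V : Set (G ⧸ A)) with hC
  have hCtop : C ≠ ⊤ := fun e => h fun v hv => mem_center_iff.mpr fun g => by
    exact (mem_centralizer_iff.mp (show g ∈ C from e ▸ mem_top g) v hv).symm
  haveI : Nontrivial ((G ⧸ A) ⧸ C) := QuotientGroup.nontrivial_iff.mpr hCtop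
  obtain ⟨Lb, hLb⟩ := exists_isMinNormal (G := (G ⧸ A) ⧸ C)
  haveI := hLb.1
  obtain ⟨-, r, hr, -, hLr⟩ := hLb.elementaryAbelian_of_isSolvable
  haveI := Fact.mk hr
  set g := QuotientGroup.mk' C with hg
  set L := Lb.comap g with hL
  have hgs : Function.Surjective g := QuotientGroup.mk'_surjective C
  have hCL : C ≤ L := fun c hc => by
    show g c ∈ Lb
    rw [show g c = 1 from (QuotientGroup.eq_one_iff c).mpr hc]; exact Lb.one_mem
  have hVL : V ⊓ centralizer (L : Set (G ⧸ A)) = ⊥ := by
    refine (hVmin.inf_eq_bot_or_le inferInstance).resolve_right fun hle => hLb.2.1 ?_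
    rw [← Subgroup.map_comap_eq_self_of_surjective hgs Lb, ← hL, Subgroup.map_eq_bot_iff, QuotientGroup.ker_mk']
    exact le_centralizer_iff.mp hle
  have hrq : r ≠ q := by
    rintro rfl
    obtain ⟨S⟩ : Nonempty (Sylow r L) := inferInstance
    set P := (S : Subgroup L).map L.subtype with hP
    have hW : IsPGroup r (V ⊔ P : Subgroup (G ⧸ A)) := hVq.to_sup_of_normal_left (S.2.map _)
    haveI := hW.isNilpotent
    obtain ⟨z, hzV, hz1, hzc⟩ := OddLocal.exists_ne_one_mem_center_of_normal (V.subgroupOf (V ⊔ P)) (by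
      rw [ne_eq, subgroupOf_eq_bot, disjoint_iff, inf_eq_left.mpr le_sup_left]
      exact hVmin.2.1)
    have hq' : IsPGroup r (L ⧸ C.subgroupOf L) := by
      refine fun y => ?_
      obtain ⟨l, rfl⟩ := QuotientGroup.mk'_surjective _ y
      obtain ⟨k, hk⟩ := hLr ⟨g l, l.2⟩
      refine ⟨k, ?_⟩
      rw [← map_pow, QuotientGroup.mk'_apply, QuotientGroup.eq_one_iff, mem_subgroupOf]
      refine (QuotientGroup.eq_one_iff _).mp ?_
      show g ((l ^ r ^ k : L) : G ⧸ A) = 1
      rw [SubmonoidClass.coe_pow, map_pow]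
      exact congrArg Subtype.val hk
    have htop := Transfer.sup_eq_top_of_isPGroup_quotient S hq'
    have hzcent : (z : G ⧸ A) ∈ centralizer (L : Set (G ⧸ A)) := by
      rw [mem_centralizer_iff]
      intro l hl
      obtain ⟨s, hs, c, hc, hsc⟩ := mem_sup_of_normal_right.mp
        (htop ▸ mem_top (⟨l, hl⟩ : L) : (⟨l, hl⟩ : L) ∈ (S : Subgroup L) ⊔ C.subgroupOf L)
      have h1 : Commute (z : G ⧸ A) (s : G ⧸ A) := (congrArg Subtype.val
        (mem_center_iff.mp hzc ⟨(s : G ⧸ A), mem_sup_right ⟨s, hs, rfl⟩⟩)).symm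
      have h2 : Commute (z : G ⧸ A) (c : G ⧸ A) := mem_centralizer_iff.mp hc _ hzV
      have h3 : (s : G ⧸ A) * (c : G ⧸ A) = l := congrArg Subtype.val hsc
      rw [← h3]
      exact (h1.mul_right h2).eq.symm
    exact hz1 (Subtype.ext (mem_bot.mp (hVL ▸ (show (z : G ⧸ A) ∈ V ⊓ centralizer _ from ⟨hzV, hzcent⟩))))
  set y := f x with hy
  have hyV : y ∈ V := ⟨x, hxB, rfl⟩
  have hyD : y ∈ systemNormalizer (fun p => (K p).map f) := hmap ▸ mem_map_of_mem f hxD
  have hyK : ∀ k ∈ (K ⟨q, hq⟩).map f, Commute y k := by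
    intro k hk
    have h1 : y * k * y⁻¹ * k⁻¹ ∈ (K ⟨q, hq⟩).map f :=
      mul_mem ((mem_normalizer_iff.mp (systemNormalizer_le _ _ hyD) k).mp hk) (inv_mem hk)
    have h2 : y * k * y⁻¹ * k⁻¹ ∈ V := by
      rw [show y * k * y⁻¹ * k⁻¹ = y * (k * y⁻¹ * k⁻¹) by group]
      exact V.mul_mem hyV (hVn.conj_mem _ (V.inv_mem hyV) k)
    have h3 := ThompsonComplement.eq_one_of_mem hVq h2
      ((coprime_card_of_system hKb ⟨q, hq⟩).coprime_dvd_left (Subgroup.orderOf_dvd_natCard _ h1))
    exact mul_inv_eq_iff_eq_mul.mp (mul_inv_eq_one.mp h3)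
  have hLle : L ≤ (K ⟨q, hq⟩).map f ⊔ C := by
    have h1 : Lb ≤ ((K ⟨q, hq⟩).map f).map g := by
      set Kq := ((K ⟨q, hq⟩).map f).map g with hKq
      set m := Kq.relIndex (Kq ⊔ Lb) with hm
      have h1 : m ∣ q ^ (Nat.card (G ⧸ A)).factorization q := by
        refine (relIndex_dvd_index_of_le le_sup_left).trans ?_
        rw [← hKb ⟨q, hq⟩]
        exact index_map_dvd _ hgs
      have h2 : m ∣ Nat.card Lb := by
        have e1 := card_sup_mul_card_inf Kq Lb
        rw [← card_mul_relIndex (le_sup_left : Kq ≤ Kq ⊔ Lb), ← hm, mul_assoc] at e1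
        exact ⟨_, (Nat.eq_of_mul_eq_mul_left Nat.card_pos e1).symm⟩
      obtain ⟨j, hj⟩ := IsPGroup.iff_card.mp hLr
      have h3 : m = 1 := Nat.eq_one_of_dvd_coprimes
        (Nat.coprime_pow_primes _ j hq hr hrq.symm) h1 (hj ▸ h2)
      exact le_sup_right.trans (relIndex_eq_one.mp h3)
    intro l hl
    have h2 : l ∈ (((K ⟨q, hq⟩).map f).map g).comap g := h1 hl
    rwa [Subgroup.comap_map_eq, QuotientGroup.ker_mk'] at h2
  have hycent : y ∈ centralizer (L : Set (G ⧸ A)) := by
    rw [mem_centralizer_iff]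
    intro l hl
    obtain ⟨k, hk, c, hc, rfl⟩ := mem_sup_of_normal_right.mp (hLle hl)
    exact ((hyK k hk).mul_right (mem_centralizer_iff.mp hc y hyV)).eq.symm
  exact mem_bot.mp (hVL ▸ (show y ∈ V ⊓ centralizer _ from ⟨hyV, hycent⟩))

end Cfsg.Agent.Core
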