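/-
Core library: the centre of a fixed-point-free complement is nontrivial.
-/
import Cfsg.Agent.Core.ThompsonFPF
import Cfsg.Agent.OddLocal.FPF
import Cfsg.Agent.OddLocal.NilBasics
import Cfsg.Agent.FGS2.Basic

set_option autoImplicit false
set_option linter.style.haveILetI false
set_option linter.unusedSectionVars false

namespace Cfsg.Agent.Core.ComplementCenter

open Cfsg

variable {G : Type*} [Group G] [Finite G]

/-- Two subgroups of prime order of a fixed point free complement commute if one normalizes the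
other. -/
theorem commute_of_prime_orders {K H : Subgroup G} [K.Normal] (hfpf : OddLocal.FPF K H) (hK : K ≠ ⊥)
    (hdisj : ∀ x, x ∈ K → x ∈ H → x = 1) {d x : G} (hd : d ∈ H) (hx : x ∈ H) (hd1 : d ≠ 1)
    (hx1 : x ≠ 1) {r q : ℕ} (hr : r.Prime) (hq : q.Prime) (hdr : d ^ r = 1) (hxq : x ^ q = 1)
    (hnorm : d * x * d⁻¹ ∈ Subgroup.zpowers x) : Commute d x := by
  by_contra hnc
  haveI := Fact.mk hq
  have hox : orderOf x = q := orderOf_eq_prime hxq hx1
  set L := K ⊔ Subgroup.zpowers x with hL
  have hLle : L.map (MulAut.conj d).toMonoidHom ≤ L := by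
    rw [hL, Subgroup.map_sup]
    refine sup_le_sup ?_ ?_
    · rintro _ ⟨k, hk, rfl⟩
      exact (inferInstance : K.Normal).conj_mem k hk d
    · rw [MonoidHom.map_zpowers, Subgroup.zpowers_le]
      exact hnorm
  have hLφ := ThompsonFPF.map_eq_of_le hLle
  have hfix : ∀ l : L, ThompsonFPF.restrict (MulAut.conj d) L hLφ l = l → l = 1 := by
    intro l hl
    have hl' : d * (l : G) * d⁻¹ = l := congrArg Subtype.val hl
    obtain ⟨k, hk, y, hy, hky⟩ := Subgroup.mem_sup_of_normal_left.mp l.2
    have hyH : y ∈ H := Subgroup.zpowers_le.mpr hx hy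
    rw [← hky] at hl'
    have hdy : d * y * d⁻¹ = y := by
      have hm : k⁻¹ * (d * k * d⁻¹) = y * (d * y * d⁻¹)⁻¹ := by
        rw [inv_mul_eq_iff_eq_mul, ← mul_assoc, eq_mul_inv_iff_mul_eq]
        rw [← hl']
        group
      have h1 := hdisj _ (K.mul_mem (K.inv_mem hk) ((inferInstance : K.Normal).conj_mem k hk d))
        (hm ▸ H.mul_mem hyH (H.inv_mem (H.mul_mem (H.mul_mem hd hyH) (H.inv_mem hd))))
      rw [h1] at hm
      exact (mul_inv_eq_one.mp hm.symm).symm
    have hy1 : y = 1 := by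
      by_contra hy1
      apply hnc
      obtain ⟨i, rfl⟩ := Subgroup.mem_zpowers_iff.mp hy
      obtain ⟨m, hm⟩ := Subgroup.mem_zpowers_iff.mp
        (mem_zpowers_of_prime_card (p := q) (g' := (⟨x, Subgroup.mem_zpowers x⟩ : Subgroup.zpowers x))
          (Nat.card_zpowers x ▸ hox) (g := ⟨x ^ i, hy⟩) (fun e => hy1 (congrArg Subtype.val e)))
      have hm' : (x ^ i) ^ m = x := congrArg Subtype.val hm
      have hc : Commute d (x ^ i) := mul_inv_eq_iff_eq_mul.mp hdy
      exact hm' ▸ hc.zpow_right m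
    subst hy1
    rw [mul_one] at hky hl'
    have : k = 1 := hfpf d hd hd1 k hk (mul_inv_eq_iff_eq_mul.mp hl')
    exact Subtype.ext (by rw [← hky, this]; rfl)
  have hiter : ∀ l : L, (ThompsonFPF.restrict (MulAut.conj d) L hLφ : L → L)^[r] l = l := fun l => by
    apply Subtype.ext
    rw [ThompsonFPF.restrict_iterate, ThompsonFPF.iterate_eq_pow, ← map_pow, hdr, map_one]
    rfl
  haveI := ThompsonFPF.isNilpotent_of_fpf hr _ hfix hiter
  obtain ⟨z, hzK, hz1, hzc⟩ := OddLocal.exists_ne_one_mem_center_of_normal (K.subgroupOf L) (by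
    rw [ne_eq, Subgroup.subgroupOf_eq_bot, disjoint_iff, inf_eq_left.mpr le_sup_left]
    exact hK)
  have hxz := congrArg Subtype.val
    (Subgroup.mem_center_iff.mp hzc ⟨x, Subgroup.mem_sup_right (Subgroup.mem_zpowers x)⟩)
  exact hz1 (Subtype.ext (hfpf x hx hx1 _ hzK hxz))

theorem center_ne_bot {K H : Subgroup G} [K.Normal] (hc : Subgroup.IsComplement' K H) (hK : K ≠ ⊥)
    (hH : H ≠ ⊥) (hfpf : OddLocal.FPF K H) : Subgroup.center H ≠ ⊥ := by
  haveI : Nontrivial H := (Subgroup.nontrivial_iff_ne_bot H).mpr hH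
  have hn : H ≤ Subgroup.normalizer (K : Set G) := le_top.trans_eq (Subgroup.normalizer_eq_top K).symm
  have hdisj : ∀ x, x ∈ K → x ∈ H → x = 1 := fun x hxK hxH =>
    Subgroup.mem_bot.mp (hc.disjoint.le_bot ⟨hxK, hxH⟩)
  by_cases h2 : 2 ∣ Nat.card H
  · haveI : Fact (Nat.Prime 2) := ⟨Nat.prime_two⟩
    obtain ⟨t, ht⟩ := exists_prime_orderOf_dvd_card' (G := H) 2 h2
    have hinv : ∀ s : H, orderOf s = 2 → ∀ k ∈ K, (s : G) * k * (s : G)⁻¹ = k⁻¹ := by
      intro s hs k hk
      have hs2 : (s : G) * s = 1 := by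
        have := pow_orderOf_eq_one s
        rw [hs, pow_two] at this
        exact congrArg Subtype.val this
      have hff : MonoidHom.FixedPointFree (MulAut.conjNormal (s : G) : MulAut K) := fun k hk => by
        refine Subtype.ext (hfpf s s.2 ?_ k k.2 ?_)
        · intro e
          rw [show s = 1 from Subtype.ext e, orderOf_one] at hs
          omega
        · have := congrArg Subtype.val hk
          rw [MulAut.conjNormal_apply] at this
          exact mul_inv_eq_iff_eq_mul.mp this
      have h := hff.coe_eq_inv_of_involutive (fun k => by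
        rw [← MulAut.mul_apply, ← map_mul, hs2, map_one, MulAut.one_apply])
      have h' := congrArg Subtype.val (congrFun h ⟨k, hk⟩)
      rwa [MulAut.conjNormal_apply] at h'
    have huniq : ∀ s : H, orderOf s = 2 → s = t := by
      intro s hs
      obtain ⟨k, hk, hk1⟩ := SetLike.exists_of_lt (bot_lt_iff_ne_bot.mpr hK)
      by_contra hne
      have hc1 : ((s * t : H) : G) * k * ((s * t : H) : G)⁻¹ = k := by
        rw [Subgroup.coe_mul, show (s : G) * t * k * ((s : G) * t)⁻¹ = s * ((t : G) * k * (t : G)⁻¹) * (s : G)⁻¹ by group,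
          hinv t ht k hk, hinv s hs _ (K.inv_mem hk), inv_inv]
      refine hk1 (Subgroup.mem_bot.mpr (hfpf _ (s * t).2 ?_ k hk (mul_inv_eq_iff_eq_mul.mp hc1)))
      intro e
      apply hne
      have htt : t * t = 1 := by
        have := pow_orderOf_eq_one t
        rwa [ht, pow_two] at this
      calc s = s * (t * t) := by rw [htt, mul_one]
        _ = (s * t) * t := by group
        _ = t := by rw [show s * t = 1 from Subtype.ext e, one_mul]
    intro hb
    have hmem : t ∈ Subgroup.center H := by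
      rw [Subgroup.mem_center_iff]
      intro g
      have := huniq (g * t * g⁻¹) (by
        rw [← ht]; exact orderOf_injective (MulAut.conj g).toMonoidHom (MulAut.conj g).injective t)
      exact mul_inv_eq_iff_eq_mul.mp this
    rw [hb, Subgroup.mem_bot] at hmem
    rw [hmem, orderOf_one] at ht
    omega
  have hz : IsZGroup H := by
    refine ⟨fun p hp P => ?_⟩
    haveI := Fact.mk hp
    rcases subsingleton_or_nontrivial (P : Subgroup H) with hP | hP
    · exact ⟨⟨1, fun x => ⟨0, Subsingleton.elim _ _⟩⟩⟩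
    have hp2 : p ≠ 2 := by
      rintro rfl
      obtain ⟨k, hk⟩ := IsPGroup.iff_card.mp P.isPGroup'
      have hk0 : k ≠ 0 := fun e => Finite.one_lt_card.ne' (by rw [hk, e, pow_zero])
      exact h2 ((dvd_pow_self 2 hk0).trans (hk ▸ Subgroup.card_subgroup_dvd_card (P : Subgroup H)))
    have h1 : IsCyclic ((P : Subgroup H).map H.subtype) :=
      hfpf.sylow_cyclic_of_odd hK hn hp2 _ (Subgroup.map_subtype_le _) (P.isPGroup'.map _)
    exact isCyclic_of_injective ((P : Subgroup H).equivMapOfInjective H.subtype H.subtype_injective).toMonoidHom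
      (MulEquiv.injective _)
  set C := commutator H with hC
  haveI hCc : IsCyclic C := hz.isCyclic_commutator
  intro hb
  have hcop := hz.coprime_commutator_index
  obtain ⟨D, hD⟩ := Subgroup.exists_right_complement'_of_coprime hcop
  haveI : IsCyclic (Abelianization H) := IsZGroup.isCyclic_abelianization
  have h1 : Abelianization H ≃* D := hD.symm.QuotientMulEquiv
  haveI hDc : IsCyclic D := isCyclic_of_surjective _ h1.surjective
  have hDne : D ≠ ⊥ := by
    rintro rfl
    rw [Subgroup.isComplement'_bot_right] at hD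
    exact (IsZGroup.commutator_lt (G := H)).ne hD
  obtain ⟨r, hr, hrD⟩ := Nat.exists_prime_and_dvd ((Subgroup.one_lt_card_iff_ne_bot D).mpr hDne).ne'
  haveI := Fact.mk hr
  obtain ⟨d, hd⟩ := exists_prime_orderOf_dvd_card' (G := D) r hrD
  have hcopCr : (Nat.card C).Coprime r := by
    refine hcop.coprime_dvd_right (hrD.trans ?_)
    rw [Subgroup.IsComplement'.index_eq_card hD.symm]
  have hdo : orderOf (d : H) = r := by rw [Subgroup.orderOf_coe, hd]
  have hdne : (d : H) ≠ 1 := fun e => by rw [e, orderOf_one] at hdo; exact hr.ne_one hdo.symm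
  have hzp : ∀ y ∈ C, (d : H) * y * (d : H)⁻¹ ∈ Subgroup.zpowers y := by
    intro y hy
    have hy' := (inferInstance : C.Normal).conj_mem y hy (d : H)
    have := FGS2.subgroup_eq_of_card_eq (G := C) (H := Subgroup.zpowers ⟨_, hy'⟩)
      (K := Subgroup.zpowers ⟨y, hy⟩) (by
        rw [Nat.card_zpowers, Nat.card_zpowers, ← Subgroup.orderOf_coe (⟨_, hy'⟩ : C), ← Subgroup.orderOf_coe (⟨y, hy⟩ : C)]
        exact orderOf_injective (MulAut.conj (d : H)).toMonoidHom (MulAut.conj (d : H)).injective y)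
    obtain ⟨i, hi⟩ := Subgroup.mem_zpowers_iff.mp (this ▸ Subgroup.mem_zpowers (⟨_, hy'⟩ : C))
    exact Subgroup.mem_zpowers_iff.mpr ⟨i, congrArg Subtype.val hi⟩
  have hprime : ∀ y ∈ C, ∀ q : ℕ, q.Prime → y ^ q = 1 → (d : H) * y * (d : H)⁻¹ = y := by
    intro y hy q hq hyq
    rcases eq_or_ne y 1 with rfl | hy1
    · simp
    obtain ⟨i, hi⟩ := Subgroup.mem_zpowers_iff.mp (hzp y hy)
    have h := commute_of_prime_orders hfpf hK hdisj (d := ((d : H) : G)) (x := (y : G)) (d : H).2 y.2
      (fun e => hdne (Subtype.ext e)) (fun e => hy1 (Subtype.ext e)) hr hq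
      (by rw [← hdo, ← SubmonoidClass.coe_pow, pow_orderOf_eq_one]; rfl)
      (by rw [← SubmonoidClass.coe_pow, hyq]; rfl)
      (Subgroup.mem_zpowers_iff.mpr ⟨i, congrArg Subtype.val hi⟩)
    exact mul_inv_eq_iff_eq_mul.mpr (Subtype.ext h)
  have hall : ∀ n : ℕ, ∀ y ∈ C, orderOf y = n → Commute (d : H) y := by
    intro n
    induction n using Nat.recOnPrimeCoprime with
    | zero => intro y _ hy; exact absurd hy (orderOf_pos y).ne'
    | prime_pow q k hq =>
      intro y hy hyo
      haveI := Fact.mk hq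
      rcases k with _ | k
      · rw [pow_zero, orderOf_eq_one_iff] at hyo
        rw [hyo]; exact Commute.one_right _
      have hq2 : q ≠ 2 := by
        rintro rfl
        exact h2 ((dvd_pow_self 2 (Nat.succ_ne_zero k)).trans (hyo ▸ orderOf_dvd_natCard y))
      have hqC : q ∣ Nat.card C :=
        (dvd_pow_self q (Nat.succ_ne_zero k)).trans (hyo ▸ Subgroup.orderOf_dvd_natCard C hy)
      have hyp : IsPGroup q (Subgroup.zpowers y) :=
        IsPGroup.of_card (n := k + 1) (by rw [Nat.card_zpowers, hyo])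
      refine mul_inv_eq_iff_eq_mul.mp
        (OddLocal.fixed_of_fixed_order_p hq2 (d : H) ?_ _ (Subgroup.zpowers y) le_rfl hyp ?_ ?_ y
          (Subgroup.mem_zpowers y))
      · rw [hdo]
        exact (hcopCr.coprime_dvd_left hqC).symm
      · intro z hz
        exact (Subgroup.zpowers_le.mpr hz) (hzp z (Subgroup.zpowers_le.mpr hy hz))
      · intro z hz hzq
        exact hprime z (Subgroup.zpowers_le.mpr hy hz) q hq hzq
    | coprime a b _ _ hab iha ihb =>
      intro y hy hyo
      have ha := iha (y ^ b) (C.pow_mem hy b) (by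
        rw [orderOf_pow_of_dvd (by omega) (hyo ▸ dvd_mul_left b a), hyo, Nat.mul_div_cancel _ (by omega)])
      have hb' := ihb (y ^ a) (C.pow_mem hy a) (by
        rw [orderOf_pow_of_dvd (by omega) (hyo ▸ dvd_mul_right a b), hyo, Nat.mul_div_cancel_left _ (by omega)])
      obtain ⟨u, v, huv⟩ : IsCoprime (a : ℤ) (b : ℤ) := Nat.Coprime.cast hab
      have : y = (y ^ a) ^ u * (y ^ b) ^ v := by
        rw [← zpow_natCast, ← zpow_natCast, ← zpow_mul, ← zpow_mul, ← zpow_add, mul_comm (a : ℤ), mul_comm (b : ℤ),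
          huv, zpow_one]
      rw [this]
      exact (hb'.zpow_right u).mul_right (ha.zpow_right v)
  have hmem : (d : H) ∈ Subgroup.center H := by
    rw [Subgroup.mem_center_iff]
    intro g
    obtain ⟨⟨c, e⟩, hce⟩ := (hD : Function.Bijective _).2 g
    simp only at hce
    obtain ⟨t, ht⟩ := IsCyclic.exists_generator (α := D)
    obtain ⟨i, hi⟩ := Subgroup.mem_zpowers_iff.mp (ht e)
    obtain ⟨j, hj⟩ := Subgroup.mem_zpowers_iff.mp (ht d)
    have hde : Commute (d : H) (e : H) := by
      rw [← hi, ← hj]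
      exact (Commute.zpow_zpow_self (t : H) j i).symm.symm.eq |> fun h => by simpa using h
    rw [← hce]
    exact ((hall _ c c.2 rfl).mul_right hde).eq.symm
  rw [hb, Subgroup.mem_bot] at hmem
  exact hdne hmem

end Cfsg.Agent.Core.ComplementCenter
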