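/-
Core library: Itô's theorem on products of two abelian subgroups.
-/
import Cfsg.Agent.Core.Products
import Mathlib.GroupTheory.Solvable

set_option linter.style.haveILetI false
set_option linter.unusedSectionVars false

namespace Cfsg.Agent.Core

open scoped commutatorElement

variable {G : Type*} [Group G]

/-- `[A, B]` is abelian when `G = AB` with `A`, `B` abelian. -/
theorem isMulCommutative_commutator_of_forall {A B : Subgroup G} [IsMulCommutative A]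
    [IsMulCommutative B] (hAB : ∀ g : G, ∃ a ∈ A, ∃ b ∈ B, g = a * b) :
    IsMulCommutative (⁅A, B⁆ : Subgroup G) := by
  have hA : ∀ x ∈ A, ∀ y ∈ A, x * y = y * x := fun x hx y hy =>
    congrArg Subtype.val (mul_comm' (⟨x, hx⟩ : A) ⟨y, hy⟩)
  have hB : ∀ x ∈ B, ∀ y ∈ B, x * y = y * x := fun x hx y hy =>
    congrArg Subtype.val (mul_comm' (⟨x, hx⟩ : B) ⟨y, hy⟩)
  have left : ∀ a₂ ∈ A, ∀ b₂ ∈ B, ∀ b ∈ B, ⁅a₂ * b₂, b⁆ = ⁅a₂, b⁆ := by
    intro a₂ _ b₂ hb₂ b hb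
    simp only [commutatorElement_def, mul_inv_rev]
    rw [show a₂ * b₂ * b * (b₂⁻¹ * a₂⁻¹) = a₂ * (b₂ * b) * b₂⁻¹ * a₂⁻¹ by group,
      hB b₂ hb₂ b hb]
    group
  have right : ∀ a ∈ A, ∀ a₂ ∈ A, ∀ b₂ : G, ⁅a, b₂ * a₂⁆ = ⁅a, b₂⁆ := by
    intro a ha a₂ ha₂ b₂
    simp only [commutatorElement_def, mul_inv_rev]
    rw [show a * (b₂ * a₂) * a⁻¹ * (a₂⁻¹ * b₂⁻¹) = a * b₂ * (a₂ * a⁻¹) * a₂⁻¹ * b₂⁻¹ by group,
      hA a₂ ha₂ a⁻¹ (A.inv_mem ha)]
    group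
  have key : ∀ a₁ ∈ A, ∀ b₁ ∈ B, ∀ a ∈ A, ∀ b ∈ B,
      MulAut.conj (a₁ * b₁) ⁅a, b⁆ = MulAut.conj (b₁ * a₁) ⁅a, b⁆ := by
    intro a₁ ha₁ b₁ hb₁ a ha b hb
    obtain ⟨a₂, ha₂, b₂, hb₂, he⟩ := hAB (b₁ * a * b₁⁻¹)
    obtain ⟨b₃, hb₃, a₃, ha₃, he'⟩ := forall_exists_mul_symm hAB (a₁ * b * a₁⁻¹)
    have e1 : MulAut.conj b₁ a = a₂ * b₂ := he
    have e2 : MulAut.conj a₁ b = b₃ * a₃ := he'
    have f1 : ∀ y ∈ B, MulAut.conj b₁ y = y := fun y hy => by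
      rw [MulAut.conj_apply, hB b₁ hb₁ y hy, mul_inv_cancel_right]
    have f2 : ∀ y ∈ A, MulAut.conj a₁ y = y := fun y hy => by
      rw [MulAut.conj_apply, hA a₁ ha₁ y hy, mul_inv_cancel_right]
    rw [map_mul, map_mul, MulAut.mul_apply, MulAut.mul_apply, map_commutatorElement,
      map_commutatorElement (MulAut.conj a₁) a, e1, f1 b hb, left a₂ ha₂ b₂ hb₂ b hb,
      f2 a ha, e2, right a ha a₃ ha₃ b₃, map_commutatorElement, map_commutatorElement,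
      f2 a₂ ha₂, e2, e1, f1 b₃ hb₃, right a₂ ha₂ a₃ ha₃ b₃, left a₂ ha₂ b₂ hb₂ b₃ hb₃]
  have hcomm : ∀ a₁ ∈ A, ∀ b₁ ∈ B, ∀ a ∈ A, ∀ b ∈ B, Commute ⁅a₁, b₁⁆ ⁅a, b⁆ := by
    intro a₁ ha₁ b₁ hb₁ a ha b hb
    have h := key a₁⁻¹ (A.inv_mem ha₁) b₁⁻¹ (B.inv_mem hb₁) a ha b hb
    have h2 : MulAut.conj ⁅a₁, b₁⁆ ⁅a, b⁆ = ⁅a, b⁆ := by
      have he : (⁅a₁, b₁⁆ : G) = (b₁⁻¹ * a₁⁻¹)⁻¹ * (a₁⁻¹ * b₁⁻¹) := by
        simp only [commutatorElement_def, mul_inv_rev, inv_inv]; group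
      rw [he, map_mul, MulAut.mul_apply, h, ← MulAut.mul_apply, ← map_mul, inv_mul_cancel, map_one,
        MulAut.one_apply]
    exact (mul_inv_eq_iff_eq_mul.mp h2 : _)
  refine Subgroup.isMulCommutative_closure ?_
  rintro _ ⟨a₁, ha₁, b₁, hb₁, rfl⟩ _ ⟨a, ha, b, hb, rfl⟩
  exact hcomm a₁ ha₁ b₁ hb₁ a ha b hb

theorem commutator_le_of_forall {A B : Subgroup G} [IsMulCommutative A] [IsMulCommutative B]
    (hAB : ∀ g : G, ∃ a ∈ A, ∃ b ∈ B, g = a * b) : commutator G ≤ ⁅A, B⁆ := by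
  have htop : A ⊔ B = ⊤ := sup_eq_top_of_forall hAB
  haveI : (⁅A, B⁆ : Subgroup G).Normal := by
    rw [← Subgroup.normalizer_eq_top_iff, eq_top_iff, ← htop]
    refine sup_le ?_ ?_
    · exact Subgroup.normalizer_commutator_ge_left A B
    · exact Subgroup.normalizer_commutator_ge_right A B
  rw [commutator_def, Subgroup.commutator_le]
  intro x _ y _
  rw [← QuotientGroup.ker_mk' ⁅A, B⁆, MonoidHom.mem_ker, map_commutatorElement,
    commutatorElement_eq_one_iff_mul_comm]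
  obtain ⟨a, ha, b, hb, rfl⟩ := hAB x
  obtain ⟨a', ha', b', hb', rfl⟩ := hAB y
  let f := QuotientGroup.mk' (⁅A, B⁆ : Subgroup G)
  have hAB' : ∀ u ∈ A, ∀ v ∈ B, Commute (f u) (f v) := by
    intro u hu v hv
    rw [← commutatorElement_eq_one_iff_commute, ← map_commutatorElement, ← MonoidHom.mem_ker,
      QuotientGroup.ker_mk']
    exact Subgroup.commutator_mem_commutator hu hv
  have hAA : Commute (f a) (f a') :=
    (show Commute a a' from congrArg Subtype.val (mul_comm' (⟨a, ha⟩ : A) ⟨a', ha'⟩)).map f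
  have hBB : Commute (f b) (f b') :=
    (show Commute b b' from congrArg Subtype.val (mul_comm' (⟨b, hb⟩ : B) ⟨b', hb'⟩)).map f
  have h : Commute (f a * f b) (f a' * f b') :=
    ((hAA.mul_left (hAB' a' ha' b hb).symm).mul_right ((hAB' a ha b' hb').mul_left hBB))
  rw [map_mul, map_mul]
  exact h.eq

/-- **Itô**: a product of two abelian subgroups is metabelian. -/
theorem derivedSeries_two_eq_bot_of_forall {A B : Subgroup G} [IsMulCommutative A]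
    [IsMulCommutative B] (hAB : ∀ g : G, ∃ a ∈ A, ∃ b ∈ B, g = a * b) :
    derivedSeries G 2 = ⊥ := by
  rw [derivedSeries_succ, derivedSeries_one, eq_bot_iff]
  refine (Subgroup.commutator_mono (commutator_le_of_forall hAB) (commutator_le_of_forall hAB)).trans
    (le_of_eq ?_)
  rw [Subgroup.commutator_eq_bot_iff_le_centralizer]
  exact Subgroup.le_centralizer_iff_isMulCommutative.mpr (isMulCommutative_commutator_of_forall hAB)

theorem isSolvable_of_forall {A B : Subgroup G} [IsMulCommutative A] [IsMulCommutative B]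
    (hAB : ∀ g : G, ∃ a ∈ A, ∃ b ∈ B, g = a * b) : Group.IsSolvable G :=
  (Group.isSolvable_def G).mpr ⟨2, derivedSeries_two_eq_bot_of_forall hAB⟩

end Cfsg.Agent.Core
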