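/-
Core library: a product of two abelian subgroups has a normal subgroup inside a factor.
-/
import Cfsg.Agent.Core.Ito
import Cfsg.Agent.Core.MinimalNormal
import Cfsg.Agent.OddLocal.FixOrderP
import Cfsg.Agent.OddLocal.NilBasics

set_option autoImplicit false
set_option linter.style.haveILetI false
set_option linter.unusedSectionVars false

namespace Cfsg.Agent.Core.ItoFactor

open scoped commutatorElement

variable {G : Type*} [Group G]

theorem comm_of_mulComm {A : Subgroup G} [IsMulCommutative A] {x y : G} (hx : x ∈ A) (hy : y ∈ A) :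
    Commute x y :=
  congrArg Subtype.val (mul_comm' (⟨x, hx⟩ : A) ⟨y, hy⟩)

/-- A central element of a factor gives a normal subgroup inside it. -/
theorem exists_of_central {A : Subgroup G} {x : G} (hx : x ∈ A) (hx1 : x ≠ 1)
    (hc : ∀ g : G, Commute x g) : ∃ K : Subgroup G, K.Normal ∧ K ≠ ⊥ ∧ K ≤ A := by
  refine ⟨Subgroup.zpowers x, ⟨fun k hk g => ?_⟩, Subgroup.zpowers_ne_bot.mpr hx1,
    Subgroup.zpowers_le.mpr hx⟩
  obtain ⟨i, rfl⟩ := Subgroup.mem_zpowers_iff.mp hk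
  rw [← ((hc g).zpow_left i).eq, mul_inv_cancel_right]
  exact Subgroup.zpow_mem_zpowers x i

variable [Finite G]

/-- The elements of `N` centralized by `A`: either none or all, and "all" gives the conclusion. -/
theorem exists_or_fixed_eq_one {A B : Subgroup G} [IsMulCommutative A] [IsMulCommutative B]
    (hAB : ∀ g : G, ∃ a ∈ A, ∃ b ∈ B, g = a * b) {N : Subgroup G} (hN : IsMinNormal N)
    (hcM : ∀ m ∈ commutator G, ∀ n ∈ N, Commute m n) :
    (∃ K : Subgroup G, K.Normal ∧ K ≠ ⊥ ∧ (K ≤ A ∨ K ≤ B)) ∨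
      ∀ n ∈ N, (∀ a ∈ A, Commute a n) → n = 1 := by
  let T : Subgroup G := N ⊓ Subgroup.centralizer (A : Set G)
  have hmem : ∀ n, n ∈ T ↔ n ∈ N ∧ ∀ a ∈ A, Commute a n := fun n => by
    simp only [T, Subgroup.mem_inf, Subgroup.mem_centralizer_iff]; rfl
  have hTn : T.Normal := by
    refine ⟨fun n hn g => ?_⟩
    rw [hmem] at hn ⊢
    refine ⟨hN.1.conj_mem n hn.1 g, fun a ha => ?_⟩
    have hm : Commute (a⁻¹ * (g⁻¹ * a * g)) n :=
      hcM _ (by
        rw [show a⁻¹ * (g⁻¹ * a * g) = ⁅a⁻¹, g⁻¹⁆ by rw [commutatorElement_def]; group, commutator_def]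
        exact Subgroup.commutator_mem_commutator (Subgroup.mem_top _) (Subgroup.mem_top _)) n hn.1
    have h2 : Commute (g⁻¹ * a * g) n := by
      have := (hn.2 a ha).mul_left hm
      rwa [mul_inv_cancel_left] at this
    calc a * (g * n * g⁻¹) = g * ((g⁻¹ * a * g) * n) * g⁻¹ := by group
      _ = g * (n * (g⁻¹ * a * g)) * g⁻¹ := by rw [h2.eq]
      _ = g * n * g⁻¹ * a := by group
  rcases hN.2.2 T hTn inf_le_left with h | h
  · right
    intro n hn hc
    have : n ∈ T := (hmem n).mpr ⟨hn, hc⟩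
    rwa [h, Subgroup.mem_bot] at this
  · left
    have hall : ∀ n ∈ N, ∀ a ∈ A, Commute a n := fun n hn => ((hmem n).mp (h.symm ▸ hn)).2
    by_cases hNA : N ≤ A
    · exact ⟨N, hN.1, hN.2.1, Or.inl hNA⟩
    obtain ⟨n, hn, hnA⟩ := SetLike.not_le_iff_exists.mp hNA
    obtain ⟨a, ha, b, hb, rfl⟩ := hAB n
    have hb1 : b ≠ 1 := fun e => hnA (by rw [e, mul_one]; exact ha)
    have hbA : ∀ a' ∈ A, Commute a' b := fun a' ha' => by
      have := ((hall _ hn a' ha').symm.inv_left).symm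
      have h1 : Commute a' (a * b) := hall _ hn a' ha'
      have h2 : Commute a' a⁻¹ := (comm_of_mulComm ha' ha).inv_right
      simpa using h2.mul_right h1
    obtain ⟨K, h1, h2, h3⟩ := exists_of_central hb hb1 fun g => by
      obtain ⟨a', ha', b', hb', rfl⟩ := hAB g
      exact (hbA a' ha').symm.mul_right (comm_of_mulComm hb hb')
    exact ⟨K, h1, h2, Or.inr h3⟩

theorem exists_normal_le_factor [Nontrivial G] {A B : Subgroup G} [IsMulCommutative A]
    [IsMulCommutative B] (hAB : ∀ g : G, ∃ a ∈ A, ∃ b ∈ B, g = a * b) :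
    ∃ K : Subgroup G, K.Normal ∧ K ≠ ⊥ ∧ (K ≤ A ∨ K ≤ B) := by
  by_contra hcon
  have habs : ∀ K : Subgroup G, K.Normal → K ≤ A ∨ K ≤ B → K = ⊥ := fun K hK hle => by
    by_contra h; exact hcon ⟨K, hK, h, hle⟩
  have hsolv := isSolvable_of_forall hAB
  have hBA : ∀ g : G, ∃ b ∈ B, ∃ a ∈ A, g = b * a := forall_exists_mul_symm hAB
  by_cases hM : commutator G = ⊥
  · have hcomm : ∀ x y : G, Commute x y := fun x y => by
      rw [← commutatorElement_eq_one_iff_commute, ← Subgroup.mem_bot, ← hM, commutator_def]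
      exact Subgroup.commutator_mem_commutator (Subgroup.mem_top x) (Subgroup.mem_top y)
    obtain ⟨g, hg⟩ := exists_ne (1 : G)
    obtain ⟨a, ha, b, hb, rfl⟩ := hAB g
    rcases eq_or_ne a 1 with rfl | ha1
    · obtain ⟨K, h1, h2, h3⟩ := exists_of_central hb (by simpa using hg) (hcomm b)
      exact hcon ⟨K, h1, h2, Or.inr h3⟩
    · obtain ⟨K, h1, h2, h3⟩ := exists_of_central ha ha1 (hcomm a)
      exact hcon ⟨K, h1, h2, Or.inl h3⟩
  obtain ⟨N, hN, hNM⟩ := exists_isMinNormal_le (N := commutator G) inferInstance hM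
  haveI := hN.1
  obtain ⟨hNab, p, hp, hNexp, hNp⟩ := hN.elementaryAbelian_of_isSolvable
  haveI := Fact.mk hp
  haveI := isMulCommutative_commutator_of_forall hAB
  have hcM : ∀ m ∈ commutator G, ∀ n ∈ N, Commute m n := fun m hm n hn =>
    comm_of_mulComm (A := ⁅A, B⁆) (commutator_le_of_forall hAB hm) (commutator_le_of_forall hAB (hNM hn))
  have hfixA := (exists_or_fixed_eq_one hAB hN hcM).resolve_left hcon
  have hfixB := (exists_or_fixed_eq_one hBA hN hcM).resolve_left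
    (fun ⟨K, h1, h2, h3⟩ => hcon ⟨K, h1, h2, h3.symm⟩)
  have hNA : ∀ n ∈ N, n ∈ A → n = 1 := fun n hn hnA => hfixA n hn fun a ha => comm_of_mulComm ha hnA
  have hNB : ∀ n ∈ N, n ∈ B → n = 1 := fun n hn hnB => hfixB n hn fun a ha => comm_of_mulComm ha hnB
  have hABbot : ∀ x, x ∈ A → x ∈ B → x = 1 := by
    intro x hxA hxB
    by_contra hx
    obtain ⟨K, h1, h2, h3⟩ := exists_of_central hxA hx fun g => by
      obtain ⟨a, ha, b, hb, rfl⟩ := hAB g
      exact (comm_of_mulComm hxA ha).mul_right (comm_of_mulComm hxB hb)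
    exact hcon ⟨K, h1, h2, Or.inl h3⟩
  set X := A ⊓ (B ⊔ N) with hX
  set Y := B ⊓ (A ⊔ N) with hY
  set V := (A ⊔ N) ⊓ (B ⊔ N) with hV
  have hmemAN : ∀ {x}, x ∈ A ⊔ N → ∃ a ∈ A, ∃ n ∈ N, a * n = x := fun {x} hx =>
    Subgroup.mem_sup_of_normal_right.mp hx
  have hmemBN : ∀ {x}, x ∈ B ⊔ N → ∃ b ∈ B, ∃ n ∈ N, b * n = x := fun {x} hx =>
    Subgroup.mem_sup_of_normal_right.mp hx
  have hXV : X ≤ V := fun x hx => ⟨Subgroup.mem_sup_left hx.1, hx.2⟩
  have hYV : Y ≤ V := fun x hx => ⟨hx.2, Subgroup.mem_sup_left hx.1⟩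
  have hNV : N ≤ V := le_inf le_sup_right le_sup_right
  have hVX : ∀ v ∈ V, ∃ x ∈ X, ∃ n ∈ N, x * n = v := fun v hv => by
    obtain ⟨a, ha, n, hn, rfl⟩ := hmemAN hv.1
    exact ⟨a, ⟨ha, by simpa using (B ⊔ N).mul_mem hv.2 ((B ⊔ N).inv_mem (Subgroup.mem_sup_right hn))⟩, n, hn, rfl⟩
  have hVY : ∀ v ∈ V, ∃ y ∈ Y, ∃ n ∈ N, y * n = v := fun v hv => by
    obtain ⟨a, ha, n, hn, rfl⟩ := hmemBN hv.2
    exact ⟨a, ⟨ha, by simpa using (A ⊔ N).mul_mem hv.1 ((A ⊔ N).inv_mem (Subgroup.mem_sup_right hn))⟩, n, hn, rfl⟩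
  have hVXY : ∀ v ∈ V, ∃ x ∈ X, ∃ y ∈ Y, x * y = v := fun v hv => by
    obtain ⟨a, ha, b, hb, rfl⟩ := hAB v
    refine ⟨a, ⟨ha, ?_⟩, b, ⟨hb, ?_⟩, rfl⟩
    · simpa using (B ⊔ N).mul_mem hv.2 ((B ⊔ N).inv_mem (Subgroup.mem_sup_left hb))
    · simpa using (A ⊔ N).mul_mem ((A ⊔ N).inv_mem (Subgroup.mem_sup_left ha)) hv.1
  have hVn : V.Normal := by
    refine ⟨fun v hv g => ?_⟩
    obtain ⟨a, ha, b, hb, rfl⟩ := hAB g
    have h1 : ∀ v ∈ V, b * v * b⁻¹ ∈ V := fun v hv => by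
      obtain ⟨y, hy, n, hn, rfl⟩ := hVY v hv
      rw [show b * (y * n) * b⁻¹ = (b * y * b⁻¹) * (b * n * b⁻¹) by group,
        show b * y * b⁻¹ = y by rw [(comm_of_mulComm hb hy.1).eq, mul_inv_cancel_right]]
      exact V.mul_mem (hYV hy) (hNV (hN.1.conj_mem n hn b))
    have h2 : ∀ v ∈ V, a * v * a⁻¹ ∈ V := fun v hv => by
      obtain ⟨y, hy, n, hn, rfl⟩ := hVX v hv
      rw [show a * (y * n) * a⁻¹ = (a * y * a⁻¹) * (a * n * a⁻¹) by group,
        show a * y * a⁻¹ = y by rw [(comm_of_mulComm ha hy.1).eq, mul_inv_cancel_right]]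
      exact V.mul_mem (hXV hy) (hNV (hN.1.conj_mem n hn a))
    rw [show a * b * v * (a * b)⁻¹ = a * (b * v * b⁻¹) * a⁻¹ by group]
    exact h2 _ (h1 v hv)
  haveI := hVn
  have hsX : X ⊔ N = V := le_antisymm (sup_le hXV hNV) fun v hv => by
    obtain ⟨x, hx, n, hn, rfl⟩ := hVX v hv; exact Subgroup.mul_mem_sup hx hn
  have hcardX : Nat.card V = Nat.card X * Nat.card N := by
    rw [← Nat.card_prod]
    refine (Nat.card_congr (Equiv.ofBijective (fun z : X × N => (⟨z.1 * z.2, V.mul_mem (hXV z.1.2) (hNV z.2.2)⟩ : V)) ⟨?_, ?_⟩)).symm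
    · rintro ⟨x, n⟩ ⟨x', n'⟩ h
      have h' : (x : G) * n = x' * n' := congrArg Subtype.val h
      have e : (x' : G)⁻¹ * x = n' * (n : G)⁻¹ := by
        rw [inv_mul_eq_iff_eq_mul, ← mul_assoc, eq_mul_inv_iff_mul_eq, h']
      have e1 := hNA _ (N.mul_mem n'.2 (N.inv_mem n.2)) (e ▸ A.mul_mem (A.inv_mem x'.2.1) x.2.1)
      rw [e1, inv_mul_eq_one] at e
      rw [mul_inv_eq_one] at e1
      exact Prod.ext (Subtype.ext e.symm) (Subtype.ext e1.symm)
    · rintro ⟨v, hv⟩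
      obtain ⟨x, hx, n, hn, e⟩ := hVX v hv
      exact ⟨(⟨x, hx⟩, ⟨n, hn⟩), Subtype.ext e⟩
  have hcardY : Nat.card V = Nat.card Y * Nat.card N := by
    rw [← Nat.card_prod]
    refine (Nat.card_congr (Equiv.ofBijective (fun z : Y × N => (⟨z.1 * z.2, V.mul_mem (hYV z.1.2) (hNV z.2.2)⟩ : V)) ⟨?_, ?_⟩)).symm
    · rintro ⟨x, n⟩ ⟨x', n'⟩ h
      have h' : (x : G) * n = x' * n' := congrArg Subtype.val h
      have e : (x' : G)⁻¹ * x = n' * (n : G)⁻¹ := by
        rw [inv_mul_eq_iff_eq_mul, ← mul_assoc, eq_mul_inv_iff_mul_eq, h']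
      have e1 := hNB _ (N.mul_mem n'.2 (N.inv_mem n.2)) (e ▸ B.mul_mem (B.inv_mem x'.2.1) x.2.1)
      rw [e1, inv_mul_eq_one] at e
      rw [mul_inv_eq_one] at e1
      exact Prod.ext (Subtype.ext e.symm) (Subtype.ext e1.symm)
    · rintro ⟨v, hv⟩
      obtain ⟨x, hx, n, hn, e⟩ := hVY v hv
      exact ⟨(⟨x, hx⟩, ⟨n, hn⟩), Subtype.ext e⟩
  have hcardXY : Nat.card V = Nat.card X * Nat.card Y := by
    rw [← Nat.card_prod]
    refine (Nat.card_congr (Equiv.ofBijective (fun z : X × Y => (⟨z.1 * z.2, V.mul_mem (hXV z.1.2) (hYV z.2.2)⟩ : V)) ⟨?_, ?_⟩)).symm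
    · rintro ⟨x, n⟩ ⟨x', n'⟩ h
      have h' : (x : G) * n = x' * n' := congrArg Subtype.val h
      have e : (x' : G)⁻¹ * x = n' * (n : G)⁻¹ := by
        rw [inv_mul_eq_iff_eq_mul, ← mul_assoc, eq_mul_inv_iff_mul_eq, h']
      have e1 := hABbot _ (e ▸ A.mul_mem (A.inv_mem x'.2.1) x.2.1) (B.mul_mem n'.2.1 (B.inv_mem n.2.1))
      rw [e1, inv_mul_eq_one] at e
      rw [mul_inv_eq_one] at e1
      exact Prod.ext (Subtype.ext e.symm) (Subtype.ext e1.symm)
    · rintro ⟨v, hv⟩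
      obtain ⟨x, hx, n, hn, e⟩ := hVXY v hv
      exact ⟨(⟨x, hx⟩, ⟨n, hn⟩), Subtype.ext e⟩
  have hXN : Nat.card X = Nat.card N :=
    Nat.eq_of_mul_eq_mul_right (Nat.card_pos (α := Y)) (by rw [← hcardXY, hcardY, mul_comm])
  obtain ⟨k, hk⟩ := IsPGroup.iff_card.mp hNp
  have hVp : IsPGroup p V := IsPGroup.of_card (n := k + k) (by rw [hcardX, hXN, hk, pow_add])
  -- `N` is central in `V`
  have hNVc : ∀ v ∈ V, ∀ n ∈ N, Commute v n := by
    haveI := hVp.isNilpotent
    have hne : N ⊓ Subgroup.centralizer (V : Set G) ≠ ⊥ := by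
      intro h
      have hnt : Nontrivial (N.subgroupOf V) := by
        rw [Subgroup.nontrivial_iff_ne_bot, ne_eq, Subgroup.subgroupOf_eq_bot, disjoint_iff, inf_eq_left.mpr hNV]
        exact hN.2.1
      obtain ⟨z, hz, hz1⟩ : ∃ z ∈ N.subgroupOf V ⊓ Subgroup.center V, z ≠ 1 := by
        by_contra hno
        push Not at hno
        obtain ⟨z, h1, h2, h3⟩ := OddLocal.exists_ne_one_mem_center_of_normal (N.subgroupOf V)
          ((Subgroup.nontrivial_iff_ne_bot _).mp hnt)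
        exact h2 (hno z ⟨h1, h3⟩)
      have : (z : G) ∈ N ⊓ Subgroup.centralizer (V : Set G) := ⟨hz.1,
        Subgroup.mem_centralizer_iff.mpr fun v hv => congrArg Subtype.val (Subgroup.mem_center_iff.mp hz.2 ⟨v, hv⟩)⟩
      rw [h, Subgroup.mem_bot] at this
      exact hz1 (Subtype.ext this)
    intro v hv n hn
    have : N ≤ Subgroup.centralizer (V : Set G) :=
      (hN.inf_eq_bot_or_le inferInstance).resolve_left hne
    exact Subgroup.mem_centralizer_iff.mp (this hn) v hv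
  set K := Subgroup.centralizer (V : Set G) with hK
  -- p-elements centralize `N`
  have hpel : ∀ g : G, (∃ k, g ^ p ^ k = 1) → ∀ n ∈ N, Commute g n := by
    intro g hg
    let T : Subgroup G := N ⊓ Subgroup.centralizer ({g} : Set G)
    have hmem : ∀ n, n ∈ T ↔ n ∈ N ∧ Commute g n := fun n => by
      simp only [T, Subgroup.mem_inf, Subgroup.mem_centralizer_singleton_iff]
      exact and_congr_right fun _ => ⟨fun h => h.symm, fun h => h.symm⟩
    have hTn : T.Normal := by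
      refine ⟨fun n hn x => ?_⟩
      rw [hmem] at hn ⊢
      refine ⟨hN.1.conj_mem n hn.1 x, ?_⟩
      have hm : Commute (g⁻¹ * (x⁻¹ * g * x)) n :=
        hcM _ (by
          rw [show g⁻¹ * (x⁻¹ * g * x) = ⁅g⁻¹, x⁻¹⁆ by rw [commutatorElement_def]; group, commutator_def]
          exact Subgroup.commutator_mem_commutator (Subgroup.mem_top _) (Subgroup.mem_top _)) n hn.1
      have h2 : Commute (x⁻¹ * g * x) n := by
        have := hn.2.mul_left hm
        rwa [mul_inv_cancel_left] at this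
      calc g * (x * n * x⁻¹) = x * ((x⁻¹ * g * x) * n) * x⁻¹ := by group
        _ = x * (n * (x⁻¹ * g * x)) * x⁻¹ := by rw [h2.eq]
        _ = x * n * x⁻¹ * g := by group
    rcases hN.2.2 T hTn inf_le_left with h | h
    · exfalso
      obtain ⟨k, hk⟩ := hg
      have hgp : IsPGroup p (Subgroup.zpowers g) := by
        rintro ⟨y, hy⟩
        obtain ⟨i, rfl⟩ := Subgroup.mem_zpowers_iff.mp hy
        refine ⟨k, Subtype.ext ?_⟩
        show (g ^ i) ^ p ^ k = 1
        rw [← zpow_natCast, ← zpow_mul, mul_comm, zpow_mul, zpow_natCast, hk, one_zpow]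
      set W := N ⊔ Subgroup.zpowers g with hW
      have hWp : IsPGroup p W := hNp.to_sup_of_normal_left hgp
      haveI := hWp.isNilpotent
      obtain ⟨z, hz, hz1⟩ : ∃ z ∈ N.subgroupOf W ⊓ Subgroup.center W, z ≠ 1 := by
        by_contra hno
        push Not at hno
        obtain ⟨z, h1, h2, h3⟩ := OddLocal.exists_ne_one_mem_center_of_normal (N.subgroupOf W) (by
          rw [ne_eq, Subgroup.subgroupOf_eq_bot, disjoint_iff, inf_eq_left.mpr le_sup_left]
          exact hN.2.1)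
        exact h2 (hno z ⟨h1, h3⟩)
      have : (z : G) ∈ T := (hmem _).mpr ⟨hz.1, congrArg Subtype.val
        (Subgroup.mem_center_iff.mp hz.2 ⟨g, Subgroup.mem_sup_right (Subgroup.mem_zpowers g)⟩)⟩
      rw [h, Subgroup.mem_bot] at this
      exact hz1 (Subtype.ext this)
    · intro n hn
      exact ((hmem n).mp (h.symm ▸ hn)).2
  have hpK : ∀ g, (g ∈ A ∨ g ∈ B) → (∃ k, g ^ p ^ k = 1) → g ∈ K := by
    intro g hg hgp
    rw [hK, Subgroup.mem_centralizer_iff]
    intro v hv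
    rcases hg with hg | hg
    · obtain ⟨x, hx, n, hn, rfl⟩ := hVX v hv
      exact ((comm_of_mulComm hg hx.1).mul_right (hpel g hgp n hn)).eq.symm
    · obtain ⟨x, hx, n, hn, rfl⟩ := hVY v hv
      exact ((comm_of_mulComm hg hx.1).mul_right (hpel g hgp n hn)).eq.symm
  -- `G / C(V)` is a p'-group
  set f := QuotientGroup.mk' K with hf
  have himg : ∀ S : Subgroup G, (∀ g ∈ S, g ∈ A ∨ g ∈ B) → ¬ p ∣ Nat.card (S.map f) := by
    intro S hS hd
    obtain ⟨⟨y, hy⟩, hyo⟩ := exists_prime_orderOf_dvd_card' (G := S.map f) p hd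
    obtain ⟨g, hg, rfl⟩ := hy
    rw [← Subgroup.orderOf_coe] at hyo
    simp only at hyo
    set j := orderOf g / p ^ (orderOf g).factorization p with hj
    have hjK : g ^ j ∈ K := hpK _ (hS _ (S.pow_mem hg j)) ⟨(orderOf g).factorization p, by
      rw [← pow_mul, hj, Nat.div_mul_cancel (Nat.ordProj_dvd _ _), pow_orderOf_eq_one]⟩
    have h1 : f g ^ j = 1 := by rw [← map_pow]; exact (QuotientGroup.eq_one_iff _).mpr hjK
    have h2 := orderOf_dvd_of_pow_eq_one h1
    rw [hyo] at h2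
    exact (Nat.not_dvd_ordCompl hp (orderOf_pos g).ne') h2
  have hGK : (Nat.card (G ⧸ K)).Coprime p := by
    have hprod : ∀ z : G ⧸ K, ∃ a ∈ A.map f, ∃ b ∈ B.map f, z = a * b := fun z => by
      obtain ⟨g, rfl⟩ := QuotientGroup.mk'_surjective K z
      obtain ⟨a, ha, b, hb, rfl⟩ := hAB g
      exact ⟨f a, Subgroup.mem_map_of_mem f ha, f b, Subgroup.mem_map_of_mem f hb, map_mul f a b⟩
    refine (hp.coprime_iff_not_dvd.mpr fun hd => ?_).symm
    rw [← (A.map f).card_mul_index] at hd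
    rcases hp.dvd_mul.mp hd with h | h
    · exact himg A (fun g hg => Or.inl hg) h
    · rw [← relIndex_eq_index_of_forall hprod] at h
      exact himg B (fun g hg => Or.inr hg) (h.trans (Subgroup.relIndex_dvd_card _ _))
  have hXcent : ∀ a ∈ A, ∀ x ∈ X, Commute a x := fun a ha x hx => comm_of_mulComm ha hx.1
  have hXN' : ∀ x ∈ X, ∀ g : G, x⁻¹ * (g * x * g⁻¹) ∈ N := by
    intro x hx g
    obtain ⟨a, ha, b, hb, rfl⟩ := hAB g
    obtain ⟨b', hb', n, hn, hxb⟩ := hmemBN hx.2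
    have h1 : b * x * b⁻¹ = x * (n⁻¹ * (b * n * b⁻¹)) := by
      rw [← hxb, show b * (b' * n) * b⁻¹ = (b * b') * n * b⁻¹ by group, (comm_of_mulComm hb hb').eq]
      group
    have h2 : a * b * x * (a * b)⁻¹ = x * (a * (n⁻¹ * (b * n * b⁻¹)) * a⁻¹) := by
      calc a * b * x * (a * b)⁻¹ = (a * x) * (n⁻¹ * (b * n * b⁻¹)) * a⁻¹ := by
            rw [show a * b * x * (a * b)⁻¹ = a * (b * x * b⁻¹) * a⁻¹ by group, h1]; group
        _ = _ := by rw [(hXcent a ha x hx).eq]; group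
    rw [h2, inv_mul_cancel_left]
    exact hN.1.conj_mem _ (N.mul_mem (N.inv_mem hn) (hN.1.conj_mem n hn b)) a
  -- the derived subgroup centralizes `X`
  have hMX : ∀ m ∈ commutator G, ∀ x ∈ X, Commute m x := by
    intro m hm x hx
    set d := x⁻¹ * (m * x * m⁻¹) with hd
    have hdN : d ∈ N := hXN' x hx m
    have hmd : Commute m d := hcM m hm d hdN
    have key : ∀ i : ℕ, m ^ i * x * (m ^ i)⁻¹ = x * d ^ i := by
      intro i
      induction i with
      | zero => simp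
      | succ i ih =>
        calc m ^ (i + 1) * x * (m ^ (i + 1))⁻¹ = m * (m ^ i * x * (m ^ i)⁻¹) * m⁻¹ := by
              rw [pow_succ', mul_inv_rev]; group
          _ = (m * x * m⁻¹) * (m * d ^ i * m⁻¹) := by rw [ih]; group
          _ = x * d ^ (i + 1) := by
              rw [(hmd.pow_right i).eq, mul_inv_cancel_right, pow_succ', ← mul_assoc,
                show x * d = m * x * m⁻¹ by rw [hd, mul_inv_cancel_left]]
    have hj : m ^ orderOf (f m) ∈ K :=
      (QuotientGroup.eq_one_iff _).mp (show f (m ^ orderOf (f m)) = 1 by rw [map_pow, pow_orderOf_eq_one])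
    have h1 := key (orderOf (f m))
    rw [← Subgroup.mem_centralizer_iff.mp hj x (hXV hx), mul_inv_cancel_right, left_eq_mul] at h1
    have hd1 : d = 1 := orderOf_eq_one_iff.mp (Nat.eq_one_of_dvd_coprimes
      (hGK.coprime_dvd_left (orderOf_dvd_natCard (f m))) (orderOf_dvd_of_pow_eq_one h1)
      (orderOf_dvd_of_pow_eq_one (hNexp d hdN)))
    rw [hd, inv_mul_eq_one] at hd1
    exact mul_inv_eq_iff_eq_mul.mp hd1.symm
  have hXn : X.Normal := by
    refine ⟨fun x hx g => ?_⟩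
    have hgV : g * x * g⁻¹ ∈ V := hVn.conj_mem x (hXV hx) g
    obtain ⟨x', hx', n, hn, he⟩ := hVX _ hgV
    have hgc : ∀ a ∈ A, Commute a (g * x * g⁻¹) := by
      intro a ha
      have hm : Commute (a⁻¹ * (g⁻¹ * a * g)) x :=
        hMX _ (by
          rw [show a⁻¹ * (g⁻¹ * a * g) = ⁅a⁻¹, g⁻¹⁆ by rw [commutatorElement_def]; group, commutator_def]
          exact Subgroup.commutator_mem_commutator (Subgroup.mem_top _) (Subgroup.mem_top _)) x hx
      have h2 : Commute (g⁻¹ * a * g) x := by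
        have := (hXcent a ha x hx).mul_left hm
        rwa [mul_inv_cancel_left] at this
      calc a * (g * x * g⁻¹) = g * ((g⁻¹ * a * g) * x) * g⁻¹ := by group
        _ = g * (x * (g⁻¹ * a * g)) * g⁻¹ := by rw [h2.eq]
        _ = g * x * g⁻¹ * a := by group
    have hn1 : n = 1 := hfixA n hn fun a ha => by
      have h3 := ((hXcent a ha x' hx').inv_right).mul_right (hgc a ha)
      rwa [← he, inv_mul_cancel_left] at h3
    rw [hn1, mul_one] at he
    exact he ▸ hx'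
  have := habs X hXn (Or.inl inf_le_left)
  rw [this, Subgroup.card_bot] at hXN
  exact ((Subgroup.one_lt_card_iff_ne_bot N).mpr hN.2.1).ne hXN

end Cfsg.Agent.Core.ItoFactor
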