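/-
Core library: products of two cyclic subgroups are supersolvable.
-/
import Cfsg.Agent.Core.ItoFactor
import Cfsg.Agent.Core.SupersolvableTower

set_option autoImplicit false
set_option linter.style.haveILetI false

namespace Cfsg.Agent.Core

universe u

theorem isSupersolvable_of_cyclic_product_aux : ∀ (n : ℕ) {G : Type u} [Group G] [Finite G],
    Nat.card G ≤ n → ∀ (A B : Subgroup G), IsCyclic A → IsCyclic B →
      (∀ g : G, ∃ a ∈ A, ∃ b ∈ B, g = a * b) → Cfsg.IsSupersolvable G := by
  intro n
  induction n with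
  | zero => intro G _ _ h; exact absurd h (by simp [Nat.card_pos.ne'])
  | succ n ih =>
  intro G _ _ hcard A B hA hB hAB
  rcases subsingleton_or_nontrivial G with h | h
  · exact isSupersolvable_of_isNilpotent inferInstance
  haveI := hA
  haveI := hB
  haveI : IsMulCommutative A := ⟨⟨(IsCyclic.commGroup (α := A)).mul_comm⟩⟩
  haveI : IsMulCommutative B := ⟨⟨(IsCyclic.commGroup (α := B)).mul_comm⟩⟩
  obtain ⟨K, hKn, hKne, hK⟩ := ItoFactor.exists_normal_le_factor hAB
  haveI := hKn
  haveI : IsCyclic K := by
    rcases hK with h | h <;>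
      exact isCyclic_of_injective (Subgroup.inclusion h) (Subgroup.inclusion_injective h)
  set f := QuotientGroup.mk' K with hf
  refine isSupersolvable_of_cyclic_normal K (ih (G := G ⧸ K) ?_ (A.map f) (B.map f)
    (isCyclic_of_surjective _ (f.subgroupMap_surjective A))
    (isCyclic_of_surjective _ (f.subgroupMap_surjective B)) fun y => ?_)
  · have h2 : Nat.card (G ⧸ K) < Nat.card G := by
      rw [Subgroup.card_eq_card_quotient_mul_card_subgroup K]
      exact lt_mul_of_one_lt_right Nat.card_pos ((Subgroup.one_lt_card_iff_ne_bot K).mpr hKne)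
    omega
  · obtain ⟨g, rfl⟩ := QuotientGroup.mk'_surjective K y
    obtain ⟨a, ha, b, hb, rfl⟩ := hAB g
    exact ⟨f a, Subgroup.mem_map_of_mem f ha, f b, Subgroup.mem_map_of_mem f hb, map_mul f a b⟩

theorem isSupersolvable_of_cyclic_product {G : Type*} [Group G] [Finite G] (A B : Subgroup G)
    [IsCyclic A] [IsCyclic B] (hAB : ∀ g : G, ∃ a ∈ A, ∃ b ∈ B, g = a * b) : Cfsg.IsSupersolvable G :=
  isSupersolvable_of_cyclic_product_aux _ le_rfl A B inferInstance inferInstance hAB

end Cfsg.Agent.Core
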