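import Cfsg.Agent.GeomClasses.SUNondeg
import Cfsg.Agent.Core.SUPerp
import Cfsg.Agent.Forms.UnitarySimple

set_option autoImplicit false
set_option linter.unusedSimpArgs false
set_option linter.unusedSectionVars false

/-!
# The point stabiliser of `SU₆(2)` maps onto `SU₄(2)`
-/

namespace Cfsg.Agent.Core.SU7

open Cfsg.Agent.KnownA
open Cfsg.Agent.Forms (frobQ)

variable {F : Type*} [Field F] [Fintype F] (hF : Fintype.card F = 2 ^ 2)
include hF

theorem frob_sq (a : F) : frobQ hF a = a * a := by rw [Forms.frobQ_apply hF, pow_two]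

theorem unit_cube {a : F} (ha : a ≠ 0) : a * a * a = 1 := by
  have := FiniteField.pow_card_sub_one_eq_one a ha
  rw [hF] at this
  rw [← this]; ring

theorem finset_four {ω : F} (hω : kap hF ω = 1) (x : F) : x = 0 ∨ x = 1 ∨ x = ω ∨ x = ω + 1 := by
  classical
  have hω0 : ω ≠ 0 := fun h => zero_ne_one (α := F) (by rw [← hω, h, kap_fixed hF (map_zero _)])
  have hω1 : ω ≠ 1 := fun h => zero_ne_one (α := F) (by rw [← hω, h, kap_fixed hF (map_one _)])
  have hω2 : ω + 1 ≠ 0 := fun h => hω1 (by linear_combination h - two0 hF)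
  have hs : ({0, 1, ω, ω + 1} : Finset F) = Finset.univ := Finset.eq_univ_of_card _ (by
    rw [hF, Finset.card_insert_of_notMem, Finset.card_insert_of_notMem, Finset.card_insert_of_notMem,
      Finset.card_singleton]
    · norm_num
    · simp
    · simp only [Finset.mem_insert, Finset.mem_singleton, not_or]
      exact ⟨Ne.symm hω1, fun h => hω0 (by linear_combination -h)⟩
    · simp only [Finset.mem_insert, Finset.mem_singleton, not_or]
      exact ⟨zero_ne_one, Ne.symm hω0, Ne.symm hω2⟩)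
  simpa [← hs] using Finset.mem_univ x

/-- The elements mapping `p` to a multiple of itself. -/
noncomputable def pointStab (p : Fin 6 → F) : Subgroup (Cfsg.SU 6 F 2) where
  carrier := {g | ∃ l : F, l ≠ 0 ∧ act g p = l • p}
  mul_mem' := by
    rintro g h ⟨a, ha, ea⟩ ⟨b, hb, eb⟩
    exact ⟨a * b, mul_ne_zero ha hb, by rw [act_mul_apply, eb, map_smul, ea, smul_smul, mul_comm]⟩
  one_mem' := ⟨1, one_ne_zero, by rw [act_one, Module.End.one_apply, one_smul]⟩
  inv_mem' := by
    rintro g ⟨a, ha, ea⟩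
    refine ⟨a⁻¹, inv_ne_zero ha, ?_⟩
    have h := congrArg (act g⁻¹) ea
    rw [← act_mul_apply, inv_mul_cancel, act_one, Module.End.one_apply, map_smul] at h
    conv_rhs => rw [h]
    rw [smul_smul, inv_mul_cancel₀ ha, one_smul]

theorem mem_pointStab {p : Fin 6 → F} {g : Cfsg.SU 6 F 2} :
    g ∈ pointStab p ↔ ∃ l : F, l ≠ 0 ∧ act g p = l • p := Iff.rfl

/-- The stabiliser elements inducing a multiple of one on the perpendicular space modulo the point. -/
def Rad (p : Fin 6 → F) (g : Cfsg.SU 6 F 2) : Prop :=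
  act g p = p ∧ ∀ x, ub hF p x = 0 → ∃ a : F, act g x = x + a • p

theorem fix_perp_cases {p : Fin 6 → F} (hp0 : p ≠ 0) (hpp : ub hF p p = 0) {g : Cfsg.SU 6 F 2}
    (hw : ∀ x, ub hF p x = 0 → act g x = x) : g = 1 ∨ g = tau hF p := by
  obtain ⟨f, hff, hpf⟩ := iso_partner hF hp0 hpp
  set c := ub hF f (act g f) with hc
  have hgf : act g f = f + c • p := by
    rw [← sub_eq_zero]
    refine (Forms.hermB_nondegenerate hF).1 _ fun z => ?_
    show ub hF (act g f - (f + c • p)) z = 0
    have h1 : ub hF p (z - ub hF p z • f) = 0 := by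
      rw [ub_sub_right hF, ub_smul_right hF, hpf, mul_one, sub_self]
    have h2 : ub hF (act g f) (z - ub hF p z • f) = ub hF f (z - ub hF p z • f) := by
      conv_lhs => rw [← hw _ h1]
      rw [act_ub hF]
    rw [ub_sub_right hF, ub_sub_right hF, ub_smul_right hF, ub_smul_right hF, hff] at h2
    rw [ub_sub_left hF, ub_add_left hF, ub_smul_left hF, hc, ub_symm hF]
    linear_combination h2
  have hc1 : frobQ hF c = c := by
    have h := act_ub hF g f f
    have hfp : ub hF f p = 1 := by rw [← ub_symm hF, hpf, map_one]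
    rw [hgf, ub_add_left hF, ub_add_right hF, ub_add_right hF, ub_smul_left hF, ub_smul_right hF,
      ub_smul_left hF, ub_smul_right hF, hff, hpp, hpf, hfp] at h
    linear_combination h - c * two0 hF
  have hdec : ∀ z, z = (z - ub hF p z • f) + ub hF p z • f := fun z => by abel
  have h1 : ∀ z, ub hF p (z - ub hF p z • f) = 0 := fun z => by
    rw [ub_sub_right hF, ub_smul_right hF, hpf, mul_one, sub_self]
  rcases fixed_cases hF hc1 with h | h
  · refine Or.inl (su_ext fun z => ?_)
    conv_lhs => rw [hdec z, map_add, map_smul, hgf, h, zero_smul, add_zero, hw _ (h1 z)]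
    rw [act_one, Module.End.one_apply, sub_add_cancel]
  · refine Or.inr (su_ext fun z => ?_)
    conv_lhs => rw [hdec z, map_add, map_smul, hgf, h, one_smul, hw _ (h1 z)]
    rw [act_tau hF hpp, smul_add]; abel

theorem rad_comm {p : Fin 6 → F} (hp0 : p ≠ 0) (hpp : ub hF p p = 0) {g h : Cfsg.SU 6 F 2}
    (hg : Rad hF p g) (hh : Rad hF p h) :
    ((h * g)⁻¹ * (g * h) = 1 ∨ (h * g)⁻¹ * (g * h) = tau hF p) ∧ (g * g = 1 ∨ g * g = tau hF p) := by
  constructor
  · refine fix_perp_cases hF hp0 hpp fun x hx => ?_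
    obtain ⟨a, ha⟩ := hg.2 x hx
    obtain ⟨b, hb⟩ := hh.2 x hx
    have e1 : act (g * h) x = act (h * g) x := by
      rw [act_mul_apply, act_mul_apply, ha, hb, map_add, map_add, map_smul, map_smul, hg.1, hh.1, ha, hb]
      abel
    rw [act_mul_apply, e1, ← act_mul_apply, inv_mul_cancel, act_one, Module.End.one_apply]
  · refine fix_perp_cases hF hp0 hpp fun x hx => ?_
    obtain ⟨a, ha⟩ := hg.2 x hx
    rw [act_mul_apply, ha, map_add, map_smul, hg.1, ha, add_assoc, vadd_self hF, add_zero]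

/-- The determinant of an element with a triangular shape. -/
theorem det_triangular {p f : Fin 6 → F} (hpp : ub hF p p = 0) (hff : ub hF f f = 0) (hpf : ub hF p f = 1)
    (hfp : ub hF f p = 1) (e : ↥(perpPair hF ⊤ p f) ≃ₗ[F] (Fin 4 → F)) (g : Cfsg.SU 6 F 2) {l k ν a : F}
    (hgp : act g p = l • p)
    (hLk : ∀ x : ↥(perpPair hF ⊤ p f), ∃ b : F, act g (x : Fin 6 → F) = k • (x : Fin 6 → F) + b • p)
    {w : ↥(perpPair hF ⊤ p f)} (hwa : act g f = ν • f + (w : Fin 6 → F) + a • p) : l * ν * k ^ 4 = 1 := by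
  classical
  let π : (Fin 6 → F) →ₗ[F] ↥(perpPair hF ⊤ p f) :=
    LinearMap.codRestrict _ (LinearMap.id - (ubL hF f).smulRight p - (ubL hF p).smulRight f) fun x => by
      rw [mem_perpPair]
      refine ⟨trivial, ?_, ?_⟩ <;>
        simp [ubL_apply, ub_sub_right hF, ub_smul_right hF, hpp, hff, hpf, hfp]
  have hπ : ∀ x : Fin 6 → F, (π x : Fin 6 → F) = x - ub hF f x • p - ub hF p x • f := fun x => rfl
  let A : (Fin 6 → F) →ₗ[F] (Fin 6 → F) := LinearMap.pi
    ![ubL hF f, LinearMap.proj 0 ∘ₗ e.toLinearMap ∘ₗ π, LinearMap.proj 1 ∘ₗ e.toLinearMap ∘ₗ π,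
      LinearMap.proj 2 ∘ₗ e.toLinearMap ∘ₗ π, LinearMap.proj 3 ∘ₗ e.toLinearMap ∘ₗ π, ubL hF p]
  have hAx : ∀ x i, A x i = ![ub hF f x, e (π x) 0, e (π x) 1, e (π x) 2, e (π x) 3, ub hF p x] i := by
    intro x i; fin_cases i <;> rfl
  have hinj : Function.Injective A := (injective_iff_map_eq_zero _).2 fun x hx => by
    have h := fun i => (hAx x i).symm.trans (congrFun hx i)
    have h0 : ub hF f x = 0 := h 0
    have h5 : ub hF p x = 0 := h 5
    have h1 : e (π x) = 0 := funext fun i => by fin_cases i <;> [exact h 1; exact h 2; exact h 3; exact h 4]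
    have h2 := congrArg Subtype.val (e.injective (h1.trans (map_zero e).symm))
    rw [hπ, h0, h5] at h2
    simpa using h2
  let T := LinearEquiv.ofInjectiveEndo A hinj
  have hT : ∀ x i, T x i = ![ub hF f x, e (π x) 0, e (π x) 1, e (π x) 2, e (π x) 3, ub hF p x] i := hAx
  have hTp : T p = Pi.single 0 1 := by
    have : π p = 0 := Subtype.ext (by rw [hπ, hfp, hpp]; simp)
    funext i; rw [hT]; fin_cases i <;> simp [hfp, hpp, this]
  have hTx : ∀ x : ↥(perpPair hF ⊤ p f), T (x : Fin 6 → F) = ![0, e x 0, e x 1, e x 2, e x 3, 0] := fun x => by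
    have hw := (mem_perpPair hF).1 x.2
    have : π (x : Fin 6 → F) = x := Subtype.ext (by rw [hπ, hw.2.1, hw.2.2]; simp)
    funext i; rw [hT, hw.2.1, hw.2.2, this]
  have hTf : T f = Pi.single 5 1 := by
    have : π f = 0 := Subtype.ext (by rw [hπ, hff, hpf]; simp)
    funext i; rw [hT]; fin_cases i <;> simp [hff, hpf, this]
  set M := LinearMap.toMatrix' (T.toLinearMap ∘ₗ act g ∘ₗ T.symm.toLinearMap) with hM
  have hdetA : M.det = 1 := by rw [hM, LinearMap.det_toMatrix', LinearMap.det_conj, det_act g]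
  have hc : ∀ i x j, T x = Pi.single j 1 → M i j = T (act g x) i := fun i x j h => by
    rw [hM, LinearMap.toMatrix'_apply]
    simp only [LinearMap.comp_apply, LinearEquiv.coe_coe]
    have hs : (fun j' : Fin 6 => if j' = j then (1 : F) else 0) = T x := by
      rw [h]; funext j'; simp [Pi.single_apply]
    first
      | rw [hs, LinearEquiv.symm_apply_apply]
      | rw [← h, LinearEquiv.symm_apply_apply]
  have m0 : ∀ i, M i 0 = ![l, 0, 0, 0, 0, 0] i := fun i => by
    rw [hc i p 0 hTp, hgp, map_smul, hTp]; fin_cases i <;> simp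
  have m5 : M 5 5 = ν := by
    rw [hc 5 f 5 hTf, hwa, map_add, map_add, map_smul, map_smul, hTf, hTp, hTx]
    show ν * (Pi.single 5 1 : Fin 6 → F) 5 + 0 + a * (Pi.single 0 1 : Fin 6 → F) 5 = ν
    rw [Pi.single_eq_same, Pi.single_eq_of_ne (show (5 : Fin 6) ≠ 0 by decide), mul_one, mul_zero, add_zero,
      add_zero]
  have colW : ∀ (j : Fin 4) (j' : Fin 6), T (e.symm (Pi.single j 1) : Fin 6 → F) = Pi.single j' 1 →
      ∃ b : F, ∀ i, M i j' = (k • (Pi.single j' (1 : F) : Fin 6 → F) + b • (Pi.single 0 (1 : F) : Fin 6 → F)) i := by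
    intro j j' h
    obtain ⟨b, hb⟩ := hLk (e.symm (Pi.single j 1))
    exact ⟨b, fun i => by rw [hc i _ j' h, hb, map_add, map_smul, map_smul, hTp, h]⟩
  obtain ⟨a1, e1⟩ := colW 0 1 (by rw [hTx, e.apply_symm_apply]; funext i; fin_cases i <;> simp)
  obtain ⟨a2, e2⟩ := colW 1 2 (by rw [hTx, e.apply_symm_apply]; funext i; fin_cases i <;> simp)
  obtain ⟨a3, e3⟩ := colW 2 3 (by rw [hTx, e.apply_symm_apply]; funext i; fin_cases i <;> simp)
  obtain ⟨a4, e4⟩ := colW 3 4 (by rw [hTx, e.apply_symm_apply]; funext i; fin_cases i <;> simp)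
  have htri : M.BlockTriangular id := by
    intro i j hij
    change j < i at hij
    fin_cases j <;> fin_cases i <;>
      first
      | exact absurd hij (by decide)
      | (simp [m0, e1, e2, e3, e4]; done)
  rw [Matrix.det_of_isUpperTriangular htri, Fin.prod_univ_six, m0, e1, e2, e3, e4, m5] at hdetA
  simp at hdetA
  linear_combination hdetA

set_option maxHeartbeats 1000000 in
/-- The action on the perpendicular space modulo the point, with determinant one. -/
theorem exists_psi {p : Fin 6 → F} (hp0 : p ≠ 0) (hpp : ub hF p p = 0) :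
    ∃ Ψ : ↥(pointStab p) →* Cfsg.SU 4 F 2,
      (∀ z : ↥(pointStab p), (z : Cfsg.SU 6 F 2) ∈ Subgroup.center (Cfsg.SU 6 F 2) → Ψ z = 1) ∧
      (∀ g : ↥(pointStab p), Ψ g = 1 →
        ∃ c : Cfsg.SU 6 F 2, c ∈ Subgroup.center (Cfsg.SU 6 F 2) ∧ Rad hF p (c * g)) ∧
      (∀ g : ↥(pointStab p), Rad hF p g.1 → Ψ g = 1) ∧
      (∀ v, v ≠ 0 → ub hF v v = 0 → ∃ (u : Fin 6 → F) (hu : tau hF u ∈ pointStab p),
        u ≠ 0 ∧ ub hF u u = 0 ∧ ub hF p u = 0 ∧ (∀ k : F, u ≠ k • p) ∧ Ψ ⟨tau hF u, hu⟩ = tau hF v) := by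
  classical
  obtain ⟨f, hff, hpf⟩ := iso_partner hF hp0 hpp
  have hfp : ub hF f p = 1 := by rw [← ub_symm hF, hpf, map_one]
  have hpair : IsPair hF ⊤ p f := ⟨trivial, trivial, hpp, hff, hpf⟩
  have hPnd := perpPair_nondeg hF (top_nondeg hF) hpair
  have hdim := finrank_perpPair hF hpair
  rw [top_finrank hF] at hdim
  set W := perpPair hF ⊤ p f with hW
  have hW4 : Module.finrank F W = 4 := by omega
  obtain ⟨e, he⟩ := GeomClasses.SUNondeg.exists_isometry hF (X := W) (m := 4) (by
    rw [GeomClasses.SUNondeg.nd_iff]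
    intro u hu hu0
    by_contra hc
    push Not at hc
    refine hu0 (hPnd u hu fun y hy => ub_eq_zero_symm hF ?_)
    exact hc y hy) hW4
  have he' : ∀ x y, ub hF (e x) (e y) = ub hF (x : Fin 6 → F) (y : Fin 6 → F) := he
  let π : (Fin 6 → F) →ₗ[F] W :=
    LinearMap.codRestrict W (LinearMap.id - (ubL hF f).smulRight p - (ubL hF p).smulRight f) fun x => by
      rw [hW, mem_perpPair]
      refine ⟨trivial, ?_, ?_⟩ <;>
        simp [ubL_apply, ub_sub_right hF, ub_smul_right hF, hpp, hff, hpf, hfp]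
  have hπ : ∀ x : Fin 6 → F, (π x : Fin 6 → F) = x - ub hF f x • p - ub hF p x • f := fun x => rfl
  have hπp : ∀ x, ub hF p x = 0 → x = (π x : Fin 6 → F) + ub hF f x • p := fun x hx => by
    rw [hπ, hx, zero_smul, sub_zero, sub_add_cancel]
  let L : Cfsg.SU 6 F 2 → ((Fin 4 → F) →ₗ[F] (Fin 4 → F)) := fun g =>
    e.toLinearMap ∘ₗ π ∘ₗ (act g) ∘ₗ W.subtype ∘ₗ e.symm.toLinearMap
  have hL : ∀ g v, L g v = e (π (act g (e.symm v : Fin 6 → F))) := fun g v => rfl
  have hperp : ∀ g ∈ pointStab p, ∀ x, ub hF p x = 0 → ub hF p (act g x) = 0 := by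
    rintro g ⟨l, hl, hg⟩ x hx
    have h := act_ub hF g p x
    rw [hg, ub_smul_left hF, hx] at h
    exact (mul_eq_zero.1 h).resolve_left fun h0 => hl ((map_eq_zero _).1 h0)
  have hWp : ∀ x : W, ub hF p (x : Fin 6 → F) = 0 := fun x => ((mem_perpPair hF).1 x.2).2.1
  have hLub : ∀ g ∈ pointStab p, ∀ v w, ub hF (L g v) (L g w) = ub hF v w := by
    intro g hg v w
    rw [hL, hL, he']
    have h1 := hπp _ (hperp g hg _ (hWp (e.symm v)))
    have h2 := hπp _ (hperp g hg _ (hWp (e.symm w)))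
    calc ub hF (π (act g (e.symm v : Fin 6 → F)) : Fin 6 → F) (π (act g (e.symm w : Fin 6 → F)))
        = ub hF (act g (e.symm v : Fin 6 → F)) (act g (e.symm w : Fin 6 → F)) := by
          conv_rhs => rw [h1, h2]
          simp only [ub_add_left hF, ub_add_right hF, ub_smul_left hF, ub_smul_right hF, hpp, hWp,
            ub_eq_zero_symm hF (hWp _)]
          ring
      _ = ub hF v w := by rw [act_ub hF, ← he', LinearEquiv.apply_symm_apply, LinearEquiv.apply_symm_apply]
  have hLmul : ∀ g ∈ pointStab p, ∀ h ∈ pointStab p, L (g * h) = L g ∘ₗ L h := by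
    intro g hg h hh
    refine LinearMap.ext fun v => ?_
    rw [hL (g * h) v]
    show _ = L g (L h v)
    rw [hL g (L h v), hL h v, LinearEquiv.symm_apply_apply, act_mul_apply]
    congr 1
    have hy := hπp _ (hperp h hh _ (hWp (e.symm v)))
    generalize act h (e.symm v : Fin 6 → F) = y at hy ⊢
    obtain ⟨l, -, hgl⟩ := hg
    have h2 : act g y = act g (π y : Fin 6 → F) + (ub hF f y * l) • p := by
      conv_lhs => rw [hy]
      rw [map_add, map_smul, hgl, smul_smul]
    refine Subtype.ext ?_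
    rw [hπ (act g y), hπ (act g (π y : Fin 6 → F)), h2]
    simp only [ub_add_right hF, ub_smul_right hF, hpp, hfp, mul_zero, add_zero, mul_one]
    module
  have hdet0 : ∀ g ∈ pointStab p, LinearMap.det (L g) ≠ 0 := by
    intro g hg h0
    have hinj : Function.Injective (L g) := (injective_iff_map_eq_zero _).2 fun v hv => by
      refine (Forms.hermB_nondegenerate hF).1 v fun w => ?_
      show ub hF v w = 0
      rw [← hLub g hg, hv, ub_zero_left hF]
    exact (LinearMap.isUnit_iff_ker_eq_bot _).2 (LinearMap.ker_eq_bot.2 hinj) |>.map LinearMap.det |>.ne_zero h0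
  let μ : Cfsg.SU 6 F 2 → F := fun g => (LinearMap.det (L g))⁻¹
  have hex : ∀ g ∈ pointStab p, ∃ m : Cfsg.SU 4 F 2, ∀ v, act m v = μ g • L g v := by
    intro g hg
    have hm : μ g ≠ 0 := inv_ne_zero (hdet0 g hg)
    obtain ⟨m, hm'⟩ := exists_su_of_linearMap hF (μ g • L g) (fun v w => by
      simp only [LinearMap.smul_apply, ub_smul_left hF, ub_smul_right hF, hLub g hg]
      rw [← mul_assoc, frob_sq hF, unit_cube hF hm, one_mul]) (by
      rw [LinearMap.det_smul, Module.finrank_fin_fun,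
        show μ g ^ 4 = μ g * (μ g * μ g * μ g) by ring, unit_cube hF hm, mul_one]
      exact inv_mul_cancel₀ (hdet0 g hg))
    exact ⟨m, hm'⟩
  choose! m hm using hex
  let Ψ : ↥(pointStab p) →* Cfsg.SU 4 F 2 := MonoidHom.mk' (fun g => m g.1) fun g h => su_ext fun v => by
    rw [act_mul_apply, hm _ h.2, map_smul, hm _ g.2]
    show act (m (g.1 * h.1)) v = _
    rw [hm _ (mul_mem g.2 h.2), hLmul _ g.2 _ h.2, LinearMap.comp_apply, smul_smul]
    congr 1
    simp only [μ, hLmul _ g.2 _ h.2, LinearMap.det_comp, mul_inv]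
    ring
  have hΨ : ∀ g v, act (Ψ g) v = μ g.1 • L g.1 v := fun g v => hm _ g.2 v
  have hscal : ∀ (g : ↥(pointStab p)) (k : F), (∀ v, L g.1 v = k • v) → Ψ g = 1 := by
    intro g k hk
    refine su_ext fun v => ?_
    have h1 : L g.1 = k • LinearMap.id := LinearMap.ext hk
    have h2 : LinearMap.det (L g.1) = k ^ 4 := by
      rw [h1, LinearMap.det_smul, LinearMap.det_id, mul_one, Module.finrank_fin_fun]
    have hk0 : k ≠ 0 := fun h => hdet0 _ g.2 (by rw [h2, h, zero_pow (by norm_num : 4 ≠ 0)])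
    rw [hΨ, hk, smul_smul, act_one, Module.End.one_apply]
    simp only [μ, h2]
    rw [show k ^ 4 = k * (k * k * k) by ring, unit_cube hF hk0, mul_one, inv_mul_cancel₀ hk0, one_smul]
  have hrad : ∀ g : ↥(pointStab p), Rad hF p g.1 → Ψ g = 1 := by
    intro g hg
    refine hscal g 1 fun v => ?_
    obtain ⟨a, ha⟩ := hg.2 _ (hWp (e.symm v))
    rw [hL, ha, one_smul]
    refine e.symm.injective (Subtype.ext ?_)
    rw [LinearEquiv.symm_apply_apply, hπ]
    have hw := (mem_perpPair hF).1 (e.symm v).2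
    simp only [ub_add_right hF, ub_smul_right hF, hw.2.1, hw.2.2, hpp, hfp]
    module
  refine ⟨Ψ, fun z hz => ?_, fun g hg => ?_, hrad, fun v hv hvv => ?_⟩
  · obtain ⟨k, hk⟩ := (Forms.su_mem_center_iff hF (by omega) z.1).1 hz
    refine hscal z k fun v => e.symm.injective (Subtype.ext ?_)
    have hw := (mem_perpPair hF).1 (e.symm v).2
    rw [hL, hk, LinearEquiv.symm_apply_apply, map_smul e.symm, hπ, Submodule.coe_smul]
    simp only [ub_smul_right hF, hw.2.1, hw.2.2, mul_zero, zero_smul, sub_zero]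
  · obtain ⟨l, hl, hgp⟩ := g.2
    set k := LinearMap.det (L g.1) with hk
    have hk0 : k ≠ 0 := hdet0 _ g.2
    have hLk : ∀ x : W, ∃ a : F, act g.1 (x : Fin 6 → F) = k • (x : Fin 6 → F) + a • p := by
      intro x
      have h := hΨ g (e x)
      rw [hg, act_one, Module.End.one_apply, hL, LinearEquiv.symm_apply_apply] at h
      have h1 : k • e x = e (π (act g.1 (x : Fin 6 → F))) := by
        conv_lhs => rw [h]
        simp only [μ, ← hk, smul_smul, mul_inv_cancel₀ hk0, one_smul]
      rw [← map_smul] at h1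
      refine ⟨ub hF f (act g.1 (x : Fin 6 → F)), ?_⟩
      conv_lhs => rw [hπp _ (hperp g.1 g.2 _ (hWp x)), ← e.injective h1]
      rfl
    obtain ⟨ν, hν⟩ : ∃ ν : F, frobQ hF l * ν = 1 := ⟨(frobQ hF l)⁻¹, mul_inv_cancel₀ (fun h => hl ((map_eq_zero _).1 h))⟩
    have hgf : ∃ w : W, ∃ a : F, act g.1 f = ν • f + (w : Fin 6 → F) + a • p := by
      have h := act_ub hF g.1 p f
      rw [hgp, ub_smul_left hF, hpf] at h
      refine ⟨π (act g.1 f), ub hF f (act g.1 f), ?_⟩
      rw [hπ, show ub hF p (act g.1 f) = ν by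
        linear_combination ν * h - ub hF p (act g.1 f) * hν]
      abel
    -- the determinant forces `l = k`
    have hlk : l = k := by
      obtain ⟨w, a, hwa⟩ := hgf
      have hdetA' : (1 : F) = l * ν * k ^ 4 :=
        (det_triangular hF hpp hff hpf hfp e g.1 hgp hLk hwa).symm
      have hν' : ν = l := by
        have h := unit_cube hF hl
        rw [frob_sq hF] at hν
        linear_combination l * hν - ν * h
      rw [hν', show k ^ 4 = k * (k * k * k) by ring, unit_cube hF hk0, mul_one] at hdetA'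
      have h := unit_cube hF hl
      linear_combination l * hdetA' + k * h
    obtain ⟨c, hc⟩ : ∃ c : Cfsg.SU 6 F 2, ∀ x, act c x = k⁻¹ • x := by
      have hli := inv_ne_zero hk0
      obtain ⟨c, hc⟩ := exists_su_of_linearMap hF (k⁻¹ • (LinearMap.id : (Fin 6 → F) →ₗ[F] _)) (fun v w => by
        simp only [LinearMap.smul_apply, LinearMap.id_apply, ub_smul_left hF, ub_smul_right hF]
        rw [← mul_assoc, frob_sq hF, unit_cube hF hli, one_mul]) (by
        rw [LinearMap.det_smul, LinearMap.det_id, mul_one, Module.finrank_fin_fun,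
          show k⁻¹ ^ 6 = (k⁻¹ * k⁻¹ * k⁻¹) ^ 2 by ring, unit_cube hF hli, one_pow])
      exact ⟨c, hc⟩
    refine ⟨c, (Forms.su_mem_center_iff hF (by omega) c).2 ⟨_, hc⟩, ?_, fun x hx => ?_⟩
    · rw [act_mul_apply, hgp, hc, smul_smul, hlk, inv_mul_cancel₀ hk0, one_smul]
    · obtain ⟨a, ha⟩ := hLk (π x)
      refine ⟨k⁻¹ * (a + ub hF f x * k) - ub hF f x, ?_⟩
      rw [act_mul_apply, hc]
      have h1 : act g.1 x = k • (π x : Fin 6 → F) + (a + ub hF f x * k) • p := by
        conv_lhs => rw [hπp x hx, map_add, map_smul, ha, hgp, hlk, smul_smul]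
        rw [add_smul, add_assoc]
      rw [h1, smul_add, smul_smul, smul_smul, inv_mul_cancel₀ hk0, one_smul, sub_smul]
      nth_rw 3 [hπp x hx]
      abel
  · set u := (e.symm v : Fin 6 → F) with hu
    have hue : ub hF u u = 0 := by rw [hu, ← he', LinearEquiv.apply_symm_apply, hvv]
    have hu0 : u ≠ 0 := fun h => hv (by
      have : e.symm v = 0 := Subtype.ext h
      simpa using congrArg e this)
    have hw := (mem_perpPair hF).1 (e.symm v).2
    have hpu : ub hF p u = 0 := hw.2.1
    have hmem : tau hF u ∈ pointStab p := by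
      refine ⟨1, one_ne_zero, ?_⟩
      rw [act_tau hF hue, ub_eq_zero_symm hF hpu, zero_smul, add_zero, one_smul]
    refine ⟨u, hmem, hu0, hue, hpu, fun k hk => ?_, ?_⟩
    · have h2 := congrArg (ub hF f) hk
      rw [ub_smul_right hF, hfp, mul_one, hw.2.2] at h2
      exact hu0 (by rw [hk, ← h2, zero_smul])
    · have hLu : L (tau hF u) = act (tau hF v) := LinearMap.ext fun w => by
        rw [act_tau hF hvv]
        refine e.symm.injective (Subtype.ext ?_)
        have hw' := (mem_perpPair hF).1 (e.symm w).2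
        rw [hL, LinearEquiv.symm_apply_apply, act_tau hF hue, hπ, map_add, map_smul, Submodule.coe_add,
          Submodule.coe_smul]
        have hfu : ub hF f u = 0 := hw.2.2
        simp only [ub_add_right hF, ub_smul_right hF, hw'.2.1, hw'.2.2, hfu, hpu, ← hu,
          show ub hF v w = ub hF u (e.symm w : Fin 6 → F) by
            rw [hu, ← he', LinearEquiv.apply_symm_apply, LinearEquiv.apply_symm_apply]]
        module
      refine su_ext fun w => ?_
      rw [hΨ, hLu]
      simp only [μ, hLu, det_act, inv_one, one_smul]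

end Cfsg.Agent.Core.SU7
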