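import Cfsg.Agent.Core.M22Thompson
import Cfsg.Agent.Core.M22Orbits
import Cfsg.Agent.Core.M22Psi

set_option autoImplicit false
set_option linter.unusedSimpArgs false
set_option linter.unusedSectionVars false

/-!
# Type M(22): the hexads through two commuting members and their permutation
-/

namespace Cfsg.Agent.Core.M22

open Cfsg
open Cfsg.Agent.KnownA
open Cfsg.Agent.Forms (frobQ)
open Cfsg.Agent.FGS3
open Cfsg.Agent.Core
open Cfsg.Agent.Core.SU7 (Par)

variable {F : Type*} [Field F] [Fintype F] {hF : Fintype.card F = 2 ^ 2}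
variable {G : Type*} [Group G] [Finite G] {D : Set G}

/-- The members commuting with everything that commutes with three given ones. -/
def Lin (D : Set G) (a b x : G) : Set G :=
  {z | z ∈ D ∧ Commute z a ∧ Commute z b ∧ Commute z x ∧
    ∀ u ∈ D, Commute u a → Commute u b → Commute u x → Commute u z}

theorem lin_rot (a b x : G) : Lin D a b x = Lin D b x a := by
  ext z
  exact ⟨fun h => ⟨h.1, h.2.2.1, h.2.2.2.1, h.2.1, fun u hu h1 h2 h3 => h.2.2.2.2 u hu h3 h1 h2⟩,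
    fun h => ⟨h.1, h.2.2.2.1, h.2.1, h.2.2.1, fun u hu h1 h2 h3 => h.2.2.2.2 u hu h2 h3 h1⟩⟩

theorem lin_swap (a b x : G) : Lin D a b x = Lin D b a x := by
  ext z
  exact ⟨fun h => ⟨h.1, h.2.2.1, h.2.1, h.2.2.2.1, fun u hu h1 h2 h3 => h.2.2.2.2 u hu h2 h1 h3⟩,
    fun h => ⟨h.1, h.2.2.1, h.2.1, h.2.2.2.1, fun u hu h1 h2 h3 => h.2.2.2.2 u hu h2 h1 h3⟩⟩

theorem lin_left {a b x : G} (ha : a ∈ D) (hab : Commute a b) (hax : Commute a x) : a ∈ Lin D a b x :=
  ⟨ha, Commute.refl a, hab, hax, fun _ _ h _ _ => h⟩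

theorem lin_commute {a b x z w : G} (hz : z ∈ Lin D a b x) (hw : w ∈ Lin D a b x) : Commute z w :=
  hw.2.2.2.2 z hz.1 hz.2.1 hz.2.2.1 hz.2.2.2.1

/-- Members of a hexad lie on a line in the coordinates of one of them. -/
theorem lin_span {a b x z : G} (fr : Frame hF D a) (hb : b ∈ TT.Nb D a) (hx : x ∈ TT.Nb D a) (hxb : x ≠ b)
    (hz : z ∈ Lin D a b x) (hza : z ≠ a) : ∃ i j : F, fr.pt z = i • fr.pt b + j • fr.pt x := by
  have hzN : z ∈ TT.Nb D a := ⟨hz.1, hza, hz.2.1.symm⟩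
  by_contra hne
  have hind : SU7.Indep3 (fr.pt z) (fr.pt b) (fr.pt x) := by
    intro r s t h
    have hr : r = 0 := by
      by_contra hr
      refine hne ⟨-(r⁻¹ * s), -(r⁻¹ * t), ?_⟩
      have h1 : r • fr.pt z = -(s • fr.pt b) + -(t • fr.pt x) := by linear_combination (norm := module) h
      calc fr.pt z = r⁻¹ • (r • fr.pt z) := by rw [smul_smul, inv_mul_cancel₀ hr, one_smul]
        _ = _ := by rw [h1]; module
    rw [hr, zero_smul, zero_add] at h
    have ht : t = 0 := by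
      by_contra ht
      refine hxb (fr.inj b hb x hx ⟨-(t⁻¹ * s), ?_⟩)
      have h1 : t • fr.pt x = -(s • fr.pt b) := by linear_combination (norm := module) h
      calc fr.pt x = t⁻¹ • (t • fr.pt x) := by rw [smul_smul, inv_mul_cancel₀ ht, one_smul]
        _ = _ := by rw [h1]; module
    rw [ht, zero_smul, add_zero] at h
    exact ⟨hr, (smul_eq_zero.1 h).resolve_right (fr.pt_ne b hb), ht⟩
  obtain ⟨y, hy1, hy2, hy3⟩ := SU7.exists_dual3 hF hind
  obtain ⟨t, ht⟩ := exists_trace_one hF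
  have hzz := fr.pt_iso z hzN
  have hzb : ub hF (fr.pt b) (fr.pt z) = 0 := (fr.commute_iff b hb z hzN).1 hz.2.2.1.symm
  have hzx : ub hF (fr.pt x) (fr.pt z) = 0 := (fr.commute_iff x hx z hzN).1 hz.2.2.2.1.symm
  set y' := y + (-(t * ub hF y y)) • fr.pt z with hy'
  have hy'z : ub hF (fr.pt z) y' = 1 := by
    rw [hy', ub_add_right hF, ub_smul_right hF, hy1, hzz, mul_zero, add_zero]
  have hy'y : ub hF y' y' = 0 := by
    have hyz : ub hF y (fr.pt z) = 1 := by rw [← ub_symm hF, hy1, map_one]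
    simp only [hy', ub_add_left hF, ub_add_right hF, ub_smul_left hF, ub_smul_right hF, hzz, hy1, hyz,
      map_neg, map_mul, ub_self_fixed hF]
    linear_combination -(ub hF y y) * ht
  have hy'0 : y' ≠ 0 := fun h => by rw [h, ub_zero_right hF] at hy'z; exact zero_ne_one hy'z
  obtain ⟨u, hu, k, hk, huk⟩ := fr.onto y' hy'0 hy'y
  have hub : Commute u b := ((fr.commute_iff b hb u hu).2 (by
    rw [huk, ub_smul_right hF, hy', ub_add_right hF, ub_smul_right hF, hy2, hzb]; ring)).symm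
  have hux : Commute u x := ((fr.commute_iff x hx u hu).2 (by
    rw [huk, ub_smul_right hF, hy', ub_add_right hF, ub_smul_right hF, hy3, hzx]; ring)).symm
  have h0 := (fr.commute_iff z hzN u hu).1 (hz.2.2.2.2 u hu.1 hu.2.2.symm hub hux).symm
  rw [huk, ub_smul_right hF, hy'z, mul_one] at h0
  exact hk h0

/-- A member on the line through two others in the coordinates of a third lies in their hexad. -/
theorem mem_lin_of_span {a b x z : G} (fr : Frame hF D a) (hb : b ∈ TT.Nb D a) (hx : x ∈ TT.Nb D a)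
    (hbx : Commute b x) (hz : z ∈ TT.Nb D a) {i j : F} (h : fr.pt z = i • fr.pt b + j • fr.pt x) :
    z ∈ Lin D a b x := by
  have hbx' := (fr.commute_iff b hb x hx).1 hbx
  have key : ∀ u ∈ TT.Nb D a, Commute u b → Commute u x → Commute u z := fun u hu h1 h2 =>
    (fr.commute_iff u hu z hz).2 (by
      rw [h, ub_add_right hF, ub_smul_right hF, ub_smul_right hF, (fr.commute_iff u hu b hb).1 h1,
        (fr.commute_iff u hu x hx).1 h2]; ring)
  refine ⟨hz.1, hz.2.2.symm, (key b hb (Commute.refl b) hbx).symm, (key x hx hbx.symm (Commute.refl x)).symm,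
    fun u hu h1 h2 h3 => ?_⟩
  by_cases e : u = a
  · rw [e]; exact hz.2.2
  · exact key u ⟨hu, e, h1.symm⟩ h2 h3

/-- A hexad is determined by any further member. -/
theorem lin_eq (c : Ctx hF D) {a b x z : G} (ha : a ∈ D) (hb : b ∈ D) (hx : x ∈ D) (hab : Commute a b)
    (hax : Commute a x) (hba : b ≠ a) (hxa : x ≠ a) (hxb : x ≠ b) (hz : z ∈ Lin D a b x) (hza : z ≠ a)
    (hzb : z ≠ b) : Lin D a b z = Lin D a b x := by
  obtain ⟨fr⟩ := c.frame a ha
  have hbN : b ∈ TT.Nb D a := ⟨hb, hba, hab⟩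
  have hxN : x ∈ TT.Nb D a := ⟨hx, hxa, hax⟩
  have hzN : z ∈ TT.Nb D a := ⟨hz.1, hza, hz.2.1.symm⟩
  obtain ⟨i, j, hij⟩ := lin_span fr hbN hxN hxb hz hza
  have hj : j ≠ 0 := fun h => hzb (fr.inj b hbN z hzN ⟨i, by rw [hij, h, zero_smul, add_zero]⟩)
  have hx' : fr.pt x = (j⁻¹ * -i) • fr.pt b + j⁻¹ • fr.pt z := by
    rw [hij, smul_add, smul_smul, smul_smul, inv_mul_cancel₀ hj]; module
  have hiff : ∀ u ∈ D, Commute u a → Commute u b → (Commute u z ↔ Commute u x) := by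
    intro u hu h1 h2
    refine ⟨fun h3 => ?_, fun h3 => hz.2.2.2.2 u hu h1 h2 h3⟩
    by_cases e : u = a
    · rw [e]; exact hax
    · have huN : u ∈ TT.Nb D a := ⟨hu, e, h1.symm⟩
      refine (fr.commute_iff u huN x hxN).2 ?_
      rw [hx', ub_add_right hF, ub_smul_right hF, ub_smul_right hF, (fr.commute_iff u huN b hbN).1 h2,
        (fr.commute_iff u huN z hzN).1 h3]
      ring
  ext w
  refine ⟨fun h => ⟨h.1, h.2.1, h.2.2.1, (hiff w h.1 h.2.1 h.2.2.1).1 h.2.2.2.1,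
      fun u hu h1 h2 h3 => h.2.2.2.2 u hu h1 h2 ((hiff u hu h1 h2).2 h3)⟩,
    fun h => ⟨h.1, h.2.1, h.2.2.1, (hiff w h.1 h.2.1 h.2.2.1).2 h.2.2.2.1,
      fun u hu h1 h2 h3 => h.2.2.2.2 u hu h1 h2 ((hiff u hu h1 h2).1 h3)⟩⟩

/-- Three members of a hexad determine it. -/
theorem lin_triple (c : Ctx hF D) {a b x r s t : G} (ha : a ∈ D) (hb : b ∈ D) (hx : x ∈ D) (hab : Commute a b)
    (hax : Commute a x) (hbx : Commute b x) (hba : b ≠ a) (hxa : x ≠ a) (hxb : x ≠ b)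
    (hr : r ∈ Lin D a b x) (hs : s ∈ Lin D a b x) (ht : t ∈ Lin D a b x) (hsr : s ≠ r) (htr : t ≠ r)
    (hts : t ≠ s) : Lin D r s t = Lin D a b x := by
  obtain ⟨b', x', hb', hx', h1, h2, h3, e1⟩ :
      ∃ b' x', b' ∈ Lin D a b x ∧ x' ∈ Lin D a b x ∧ b' ≠ r ∧ x' ≠ r ∧ x' ≠ b' ∧ Lin D r b' x' = Lin D a b x := by
    have am := lin_left ha hab hax
    have bm : b ∈ Lin D a b x := by rw [lin_rot]; exact lin_left hb hbx hab.symm
    have xm : x ∈ Lin D a b x := by rw [lin_rot, lin_rot]; exact lin_left hx hax.symm hbx.symm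
    by_cases e : r = a
    · subst e; exact ⟨b, x, bm, xm, hba, hxa, hxb, rfl⟩
    by_cases e' : r = b
    · subst e'; exact ⟨a, x, am, xm, hba.symm, hxb, hxa, lin_swap _ _ _⟩
    exact ⟨a, b, am, bm, Ne.symm e, Ne.symm e', hba, by
      rw [lin_rot, lin_eq c ha hb hx hab hax hba hxa hxb hr e e']⟩
  obtain ⟨x'', hx'', h4, h5, e2⟩ :
      ∃ x'', x'' ∈ Lin D a b x ∧ x'' ≠ r ∧ x'' ≠ s ∧ Lin D r s x'' = Lin D a b x := by
    by_cases e : s = b'
    · subst e; exact ⟨x', hx', h2, h3, e1⟩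
    by_cases e' : s = x'
    · subst e'; exact ⟨b', hb', h1, h3.symm, by rw [← e1, lin_rot r s b', lin_rot s b' r, lin_swap]⟩
    refine ⟨b', hb', h1, Ne.symm e, ?_⟩
    rw [lin_rot r s b', lin_rot s b' r, lin_swap, ← e1]
    rw [← e1] at hs
    exact lin_eq c hr.1 hb'.1 hx'.1 (lin_commute hr hb') (lin_commute hr hx') h1 h2 h3 hs hsr e
  rw [← e2]
  exact lin_eq c hr.1 hs.1 hx''.1 (lin_commute hr hs) (lin_commute hr hx'') hsr h4 h5 (by rw [e2]; exact ht) htr hts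

/-- No element fixing `l` and interchanging `d₁`, `d₂` fixes all their hexads. -/
theorem no_swap (c : Ctx hF D) {l d₁ d₂ g : G} (hl : l ∈ D) (h₁ : d₁ ∈ TT.Nb D l) (h₂ : d₂ ∈ TT.Nb D l)
    (hne : d₁ ≠ d₂) (hc : Commute d₁ d₂) (hgl : Commute g l) (hg₁ : g * d₁ * g⁻¹ = d₂) (hg₂ : g * d₂ * g⁻¹ = d₁)
    (hfix : ∀ w ∈ D, w ≠ d₁ → w ≠ d₂ → Commute w d₁ → Commute w d₂ → g * w * g⁻¹ ∈ Lin D d₁ d₂ w) : False := by
  classical
  obtain ⟨fr⟩ := c.frame l hl
  obtain ⟨φ, hφs, hφ⟩ := fr.img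
  obtain ⟨s, hs⟩ := QuotientGroup.mk_surjective (φ ⟨g, c.centraliser_member hl hgl⟩)
  have hact : ∀ y ∈ TT.Nb D l, Par (F := F) (act s (fr.pt y)) (fr.pt (g * y * g⁻¹)) := fun y hy =>
    act_of_img c fr φ hφ ⟨g, c.centraliser_member hl hgl⟩ hs.symm hy
  set q1 := fr.pt d₁ with hq1
  set q2 := fr.pt d₂ with hq2
  have h11 : ub hF q1 q1 = 0 := fr.pt_iso _ h₁
  have h22 : ub hF q2 q2 = 0 := fr.pt_iso _ h₂
  have h12 : ub hF q1 q2 = 0 := (fr.commute_iff _ h₁ _ h₂).1 hc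
  have h21 : ub hF q2 q1 = 0 := ub_eq_zero_symm hF h12
  obtain ⟨t, ht⟩ := exists_trace_one hF
  -- a third point
  obtain ⟨y, hy1, hy2⟩ := SU7.exists_dual2 hF (fr.apart h₂ h₁ hne)
  rw [← hq1] at hy1
  rw [← hq2] at hy2
  set f1 := y + (-(t * ub hF y y)) • q1 with hf1
  have hq1f : ub hF q1 f1 = 1 := by rw [hf1, ub_add_right hF, ub_smul_right hF, hy1, h11, mul_zero, add_zero]
  have hq2f : ub hF q2 f1 = 0 := by rw [hf1, ub_add_right hF, ub_smul_right hF, hy2, h21, mul_zero, add_zero]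
  have hff : ub hF f1 f1 = 0 := by
    have hyq : ub hF y q1 = 1 := by rw [← ub_symm hF, hy1, map_one]
    simp only [hf1, ub_add_left hF, ub_add_right hF, ub_smul_left hF, ub_smul_right hF, h11, hy1, hyq,
      map_neg, map_mul, ub_self_fixed hF]
    linear_combination -(ub hF y y) * ht
  have hp : IsPair hF ⊤ q1 f1 := ⟨trivial, trivial, h11, hff, hq1f⟩
  have hnd := perpPair_nondeg hF (SU7.top_nondeg hF) hp
  have hdim := finrank_perpPair hF hp
  rw [SU7.top_finrank hF] at hdim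
  have hq2W : q2 ∈ perpPair hF ⊤ q1 f1 := (mem_perpPair hF).2 ⟨trivial, h12, ub_eq_zero_symm hF hq2f⟩
  obtain ⟨f2, hf2W, hf22, hq2f2⟩ := exists_partner hF _ hnd hq2W (fr.pt_ne _ h₂) h22
  have hp2 : IsPair hF (perpPair hF ⊤ q1 f1) q2 f2 := ⟨hq2W, hf2W, h22, hf22, hq2f2⟩
  have hdim2 := finrank_perpPair hF hp2
  obtain ⟨e3, he3, he0, he33⟩ := exists_isotropic hF (perpPair hF (perpPair hF ⊤ q1 f1) q2 f2) (by omega)
  obtain ⟨he3W, h23, hf2e⟩ := (mem_perpPair hF).1 he3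
  obtain ⟨-, h13, hf1e⟩ := (mem_perpPair hF).1 he3W
  have hf1q1 : ub hF f1 q1 = 1 := by rw [← ub_symm hF, hq1f, map_one]
  have hf1q2 : ub hF f1 q2 = 0 := ub_eq_zero_symm hF hq2f
  have hf2q1 : ub hF f2 q1 = 0 := ub_eq_zero_symm hF ((mem_perpPair hF).1 hf2W).2.1
  have hf2q2 : ub hF f2 q2 = 1 := by rw [← ub_symm hF, hq2f2, map_one]
  have huniq : ∀ i j γ : F, i • q1 + j • q2 + γ • e3 = 0 → i = 0 ∧ j = 0 ∧ γ = 0 := by
    intro i j γ h
    have a1 := congrArg (ub hF f1) h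
    have a2 := congrArg (ub hF f2) h
    simp only [ub_add_right hF, ub_smul_right hF, hf1q1, hf1q2, hf1e, hf2q1, hf2q2, hf2e, ub_zero_right hF,
      mul_one, mul_zero, add_zero, zero_add] at a1 a2
    rw [a1, a2, zero_smul, zero_smul, zero_add, zero_add] at h
    exact ⟨a1, a2, (smul_eq_zero.1 h).resolve_right he0⟩
  let pv : F → F → (Fin 6 → F) := fun u v => u • q1 + v • q2 + e3
  have hpv0 : ∀ u v, pv u v ≠ 0 := fun u v h => one_ne_zero (huniq u v 1 (by rw [one_smul]; exact h)).2.2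
  have e31 := ub_eq_zero_symm hF h13
  have e32 := ub_eq_zero_symm hF h23
  have hpvi : ∀ u v, ub hF (pv u v) (pv u v) = 0 := fun u v => by
    simp [pv, ub_add_left hF, ub_add_right hF, ub_smul_left hF, ub_smul_right hF, h11, h22, h12, h21, h13,
      h23, e31, e32, he33]
  choose w0 hw0N γ0 hγ0 hw0 using fun k : F => fr.onto (pv 0 k) (hpv0 0 k) (hpvi 0 k)
  have hw0c : ∀ k, Commute (w0 k) d₁ ∧ Commute (w0 k) d₂ := fun k => by
    refine ⟨((fr.commute_iff _ h₁ _ (hw0N k)).2 ?_).symm, ((fr.commute_iff _ h₂ _ (hw0N k)).2 ?_).symm⟩ <;>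
      rw [hw0, ub_smul_right hF] <;>
      simp [pv, ← hq1, ← hq2, ub_add_right hF, ub_smul_right hF, h11, h22, h12, h21, h13, h23]
  have hw01 : ∀ k, w0 k ≠ d₁ := fun k e => by
    have h := hw0 k
    rw [e, ← hq1] at h
    have := (huniq (1 - γ0 k * 0) (-(γ0 k * k)) (-γ0 k) (by
      linear_combination (norm := (simp only [pv]; module)) h)).2.2
    exact hγ0 k (neg_eq_zero.1 this)
  have hw02 : ∀ k, w0 k ≠ d₂ := fun k e => by
    have h := hw0 k
    rw [e, ← hq2] at h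
    have := (huniq (-(γ0 k * 0)) (1 - γ0 k * k) (-γ0 k) (by
      linear_combination (norm := (simp only [pv]; module)) h)).2.2
    exact hγ0 k (neg_eq_zero.1 this)
  let Lk : F → Set G := fun k => Lin D d₁ d₂ (w0 k)
  have htri : ∀ k {r s t : G}, r ∈ Lk k → s ∈ Lk k → t ∈ Lk k → s ≠ r → t ≠ r → t ≠ s → Lin D r s t = Lk k :=
    fun k {r s t} hr hs ht => lin_triple c h₁.1 h₂.1 (hw0N k).1 hc (hw0c k).1.symm (hw0c k).2.symm hne.symm
      (hw01 k) (hw02 k) hr hs ht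
  have hd1L : ∀ k, d₁ ∈ Lk k := fun k => lin_left h₁.1 hc (hw0c k).1.symm
  have hd2L : ∀ k, d₂ ∈ Lk k := fun k => by
    show _ ∈ Lin D d₁ d₂ (w0 k)
    rw [lin_rot]; exact lin_left h₂.1 (hw0c k).2.symm hc.symm
  have hwL : ∀ k, w0 k ∈ Lk k := fun k => by
    show _ ∈ Lin D d₁ d₂ (w0 k)
    rw [lin_rot, lin_rot]; exact lin_left (hw0N k).1 (hw0c k).1 (hw0c k).2
  have hlL : ∀ k, l ∉ Lk k := by
    intro k h
    have h' : w0 k ∈ Lin D l d₁ d₂ := by rw [htri k h (hd1L k) (hd2L k) h₁.2.1 h₂.2.1 hne.symm]; exact hwL k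
    obtain ⟨i, j, e⟩ := lin_span fr h₁ h₂ hne.symm h' (hw0N k).2.1
    have h := hw0 k
    rw [e, ← hq1, ← hq2] at h
    have := (huniq (i - γ0 k * 0) (j - γ0 k * k) (-γ0 k) (by
      linear_combination (norm := (simp only [pv]; module)) h)).2.2
    exact hγ0 k (neg_eq_zero.1 this)
  -- three members of a hexad are not on a line
  have hncol : ∀ k {r s t : G}, r ∈ Lk k → s ∈ Lk k → t ∈ Lk k → s ≠ r → t ≠ r → t ≠ s → r ∈ TT.Nb D l →
      s ∈ TT.Nb D l → t ∈ TT.Nb D l → ∀ i j : F, fr.pt t ≠ i • fr.pt r + j • fr.pt s := by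
    intro k r s t hr hs ht hsr htr hts hrN hsN htN i j e
    have h1 : t ∈ Lin D r s l := by
      rw [← lin_rot l r s]; exact mem_lin_of_span fr hrN hsN (lin_commute hr hs) htN e
    refine hlL k ?_
    rw [← htri k hr hs ht hsr htr hts,
      lin_eq c hr.1 hs.1 hl (lin_commute hr hs) hrN.2.2.symm hsr hrN.2.1.symm hsN.2.1.symm h1 htr hts,
      lin_rot, lin_rot]
    exact lin_left hl hrN.2.2 hsN.2.2
  have hLN : ∀ k z, z ∈ Lk k → z ∈ TT.Nb D l := by
    intro k z hz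
    refine ⟨hz.1, fun e => hlL k (e ▸ hz), hz.2.2.2.2 l hl h₁.2.2 h₂.2.2 (hw0N k).2.2⟩
  have hcoord : ∀ k z, z ∈ Lk k → z ≠ d₁ → z ≠ d₂ →
      ∃ γ u v : F, γ ≠ 0 ∧ fr.pt z = γ • pv u v := by
    intro k z hz hz1 hz2
    have hzN := hLN k z hz
    have hperp : ∀ x ∈ [q1, q2, pv 0 k], ∀ x' ∈ [q1, q2, pv 0 k], ub hF x x' = 0 := by
      intro x hx x' hx'
      simp only [List.mem_cons, List.not_mem_nil, or_false] at hx hx'
      rcases hx with rfl | rfl | rfl <;> rcases hx' with rfl | rfl | rfl <;>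
        simp [pv, ub_add_left hF, ub_add_right hF, ub_smul_left hF, ub_smul_right hF, h11, h22, h12, h21,
          h13, h23, e31, e32, he33]
    have hi : SU7.Indep3 q1 q2 (pv 0 k) := fun i j γ h => by
      obtain ⟨a1, a2, a3⟩ := huniq i (j + γ * k) γ (by linear_combination (norm := (simp only [pv]; module)) h)
      exact ⟨a1, by rw [a3, zero_mul, add_zero] at a2; exact a2, a3⟩
    obtain ⟨i, j, γ, e⟩ := mem_span_three hF hi hperp (v := fr.pt z) fun x hx => by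
      simp only [List.mem_cons, List.not_mem_nil, or_false] at hx
      rcases hx with rfl | rfl | rfl
      · exact (fr.commute_iff _ h₁ _ hzN).1 hz.2.1.symm
      · exact (fr.commute_iff _ h₂ _ hzN).1 hz.2.2.1.symm
      · have h := (fr.commute_iff _ (hw0N k) _ hzN).1 hz.2.2.2.1.symm
        rw [hw0, ub_smul_left hF] at h
        exact (mul_eq_zero.1 h).resolve_left fun h0 => hγ0 k ((map_eq_zero _).1 h0)
    have hγ : γ ≠ 0 := fun h0 => hncol k (hd1L k) (hd2L k) hz hne.symm hz1 hz2 h₁ h₂ hzN i j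
      (by rw [e, h0, zero_smul, add_zero])
    refine ⟨γ, γ⁻¹ * i, γ⁻¹ * j + k, hγ, ?_⟩
    rw [e]; simp only [pv]
    match_scalars <;> field_simp <;> ring
  choose! Γ U V hΓ hcd using hcoord
  have hinj : ∀ k z z', z ∈ Lk k → z ≠ d₁ → z ≠ d₂ → z' ∈ Lk k → z' ≠ d₁ → z' ≠ d₂ →
      (U k z = U k z' ∨ V k z = V k z') → z = z' := by
    intro k z z' hz a1 a2 hz' b1 b2 he
    by_contra hzz
    have h := hΓ k z hz a1 a2
    have e := hcd k z hz a1 a2
    have e' := hcd k z' hz' b1 b2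
    rcases he with he | he
    · refine hncol k (hd2L k) hz hz' a2 b2 (Ne.symm hzz) h₂ (hLN k z hz) (hLN k z' hz')
        (Γ k z' * (V k z' - V k z)) (Γ k z' * (Γ k z)⁻¹) ?_
      rw [e, e', he, ← hq2]; simp only [pv]
      match_scalars <;> field_simp <;> ring
    · refine hncol k (hd1L k) hz hz' a1 b1 (Ne.symm hzz) h₁ (hLN k z hz) (hLN k z' hz')
        (Γ k z' * (U k z' - U k z)) (Γ k z' * (Γ k z)⁻¹) ?_
      rw [e, e', he, ← hq1]; simp only [pv]
      match_scalars <;> field_simp <;> ring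
  have hsurj : ∀ k u, ∃ z, (z ∈ Lk k ∧ z ≠ d₁ ∧ z ≠ d₂) ∧ U k z = u := by
    intro k
    obtain ⟨f'⟩ := c.frame d₁ h₁.1
    have h2N : d₂ ∈ TT.Nb D d₁ := ⟨h₂.1, hne.symm, hc⟩
    have hwN : w0 k ∈ TT.Nb D d₁ := ⟨(hw0N k).1, hw01 k, (hw0c k).1.symm⟩
    have hpp := f'.pt_iso _ h2N
    have hww := f'.pt_iso _ hwN
    have hpw : ub hF (f'.pt d₂) (f'.pt (w0 k)) = 0 := (f'.commute_iff _ h2N _ hwN).1 (hw0c k).2.symm
    have hwp := ub_eq_zero_symm hF hpw
    have hvec : ∀ s : F, f'.pt (w0 k) + s • f'.pt d₂ ≠ 0 := fun s h => hw02 k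
      (f'.inj d₂ h2N _ hwN ⟨-s, by rw [neg_smul]; exact eq_neg_of_add_eq_zero_left h⟩)
    choose m hm κ hκ hmk using fun s : F => f'.onto (f'.pt (w0 k) + s • f'.pt d₂) (hvec s) (by
      simp [ub_add_left hF, ub_add_right hF, ub_smul_left hF, ub_smul_right hF, hpp, hww, hpw, hwp])
    have hmL : ∀ s, m s ∈ Lk k ∧ m s ≠ d₁ ∧ m s ≠ d₂ := fun s => by
      refine ⟨mem_lin_of_span f' h2N hwN (hw0c k).2.symm (hm s) (i := κ s * s) (j := κ s)
        (by rw [hmk]; module), (hm s).2.1, fun e => ?_⟩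
      have h := hmk s
      rw [e] at h
      refine hw02 k (f'.inj d₂ h2N _ hwN ⟨(κ s)⁻¹ - s, ?_⟩)
      have h1 : (κ s)⁻¹ • f'.pt d₂ = f'.pt (w0 k) + s • f'.pt d₂ := by
        conv_lhs => rw [h]
        rw [smul_smul, inv_mul_cancel₀ (hκ s), one_smul]
      rw [sub_smul, h1, add_sub_cancel_right]
    have hbij : Function.Bijective fun s => U k (m s) := Finite.injective_iff_bijective.1 fun s s' h => by
      have e := hinj k _ _ (hmL s).1 (hmL s).2.1 (hmL s).2.2 (hmL s').1 (hmL s').2.1 (hmL s').2.2 (Or.inl h)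
      have h1 := hmk s
      rw [e, hmk s'] at h1
      have h2 : (κ s' - κ s) • f'.pt (w0 k) + (κ s' * s' - κ s * s) • f'.pt d₂ = 0 := by
        linear_combination (norm := module) h1
      by_cases hκe : κ s' - κ s = 0
      · rw [hκe, zero_smul, zero_add] at h2
        have h3 := (smul_eq_zero.1 h2).resolve_right (f'.pt_ne _ h2N)
        rw [sub_eq_zero.1 hκe, ← mul_sub] at h3
        exact (sub_eq_zero.1 ((mul_eq_zero.1 h3).resolve_left (hκ s))).symm
      · refine absurd (f'.inj d₂ h2N _ hwN ⟨-((κ s' - κ s)⁻¹ * (κ s' * s' - κ s * s)), ?_⟩) (hw02 k)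
        calc f'.pt (w0 k) = (κ s' - κ s)⁻¹ • ((κ s' - κ s) • f'.pt (w0 k)) := by
              rw [smul_smul, inv_mul_cancel₀ hκe, one_smul]
          _ = _ := by
              rw [show (κ s' - κ s) • f'.pt (w0 k) = -((κ s' * s' - κ s * s) • f'.pt d₂) from
                eq_neg_of_add_eq_zero_left h2]
              module
    intro u
    obtain ⟨s, hsu⟩ := hbij.2 u
    exact ⟨m s, hmL s, hsu⟩
  choose Z hZ hZU using hsurj
  have hUV0 : ∀ k, U k (w0 k) = 0 ∧ V k (w0 k) = k := fun k => by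
    have e := hcd k _ (hwL k) (hw01 k) (hw02 k)
    rw [hw0] at e
    set γ := Γ k (w0 k)
    obtain ⟨a1, a2, a3⟩ := huniq (γ0 k * 0 - γ * U k (w0 k)) (γ0 k * k - γ * V k (w0 k)) (γ0 k - γ)
      (by linear_combination (norm := (simp only [pv]; module)) e)
    have hγ : γ = γ0 k := (sub_eq_zero.1 a3).symm
    rw [hγ, mul_zero, zero_sub, neg_eq_zero] at a1
    rw [hγ, ← mul_sub] at a2
    exact ⟨(mul_eq_zero.1 a1).resolve_left (hγ0 k), (sub_eq_zero.1 ((mul_eq_zero.1 a2).resolve_left (hγ0 k))).symm⟩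
  let f : F → F → F := fun k u => V k (Z k u)
  have hf0 : ∀ k, f k 0 = k := fun k => by
    have := hinj k _ _ (hZ k 0).1 (hZ k 0).2.1 (hZ k 0).2.2 (hwL k) (hw01 k) (hw02 k)
      (Or.inl (by rw [hZU, (hUV0 k).1]))
    show V k (Z k 0) = k
    rw [this, (hUV0 k).2]
  have hfinj : ∀ k, Function.Injective (f k) := fun k u u' h => by
    have := hinj k _ _ (hZ k u).1 (hZ k u).2.1 (hZ k u).2.2 (hZ k u').1 (hZ k u').2.1 (hZ k u').2.2 (Or.inr h)
    rw [← hZU k u, this, hZU]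
  obtain ⟨ω, hω⟩ := SU7.exists_omega hF
  have htwo := SU7.two0 hF
  have hω2 : ω * ω = ω + 1 := by
    rw [kap, SU7.frob_sq hF] at hω
    linear_combination -hω - htwo
  have hω0 : ω ≠ 0 := fun h => one_ne_zero (α := F) (by linear_combination -hω2 + (ω - 1) * h)
  have hω1 : ω ≠ 1 := fun h => one_ne_zero (α := F) (by linear_combination -hω2 + ω * h)
  have hω1' : ω + 1 ≠ 0 := fun h => hω1 (by linear_combination h - htwo)
  let μ : F → F := fun k => f k 1 + k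
  have hμ : ∀ k, μ k ≠ 0 := fun k h => one_ne_zero (α := F) (hfinj k (a₁ := 1) (a₂ := 0) (by
    rw [hf0]; linear_combination h - k * htwo))
  have hcol : ∀ k, f k ω ≠ k + μ k * ω := by
    intro k e
    have n1 : Z k 1 ≠ Z k 0 := fun h => one_ne_zero (α := F) (by rw [← hZU k 1, h, hZU])
    have n2 : Z k ω ≠ Z k 0 := fun h => hω0 (by rw [← hZU k ω, h, hZU])
    have n3 : Z k ω ≠ Z k 1 := fun h => hω1 (by rw [← hZU k ω, h, hZU])
    have p : ∀ u, fr.pt (Z k u) = Γ k (Z k u) • pv u (f k u) := fun u => by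
      have := hcd k _ (hZ k u).1 (hZ k u).2.1 (hZ k u).2.2
      rwa [hZU] at this
    have g0 := hΓ k _ (hZ k 0).1 (hZ k 0).2.1 (hZ k 0).2.2
    have g1 := hΓ k _ (hZ k 1).1 (hZ k 1).2.1 (hZ k 1).2.2
    refine hncol k (hZ k 0).1 (hZ k 1).1 (hZ k ω).1 n1 n2 n3 (hLN k _ (hZ k 0).1) (hLN k _ (hZ k 1).1)
      (hLN k _ (hZ k ω).1) (Γ k (Z k ω) * (1 + ω) * (Γ k (Z k 0))⁻¹) (Γ k (Z k ω) * ω * (Γ k (Z k 1))⁻¹) ?_
    rw [p, p, p, smul_smul, smul_smul, mul_assoc _ _ (Γ k (Z k 0)), inv_mul_cancel₀ g0, mul_one,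
      mul_assoc _ _ (Γ k (Z k 1)), inv_mul_cancel₀ g1, mul_one, e, hf0]
    simp only [pv, μ]
    match_scalars
    all_goals
      first
      | ring1
      | linear_combination -(Γ k (Z k ω) * ω * k) * htwo
      | linear_combination (Γ k (Z k ω) * ω * k) * htwo
      | linear_combination -(Γ k (Z k ω) * ω) * htwo
      | linear_combination (Γ k (Z k ω) * ω) * htwo
  have hcases : ∀ k u, f k u = k ∨ f k u = k + μ k ∨ f k u = k + μ k * ω ∨ f k u = k + μ k * (ω + 1) := by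
    intro k u
    have e : f k u = k + μ k * ((μ k)⁻¹ * (f k u + k)) := by
      rw [← mul_assoc, mul_inv_cancel₀ (hμ k), one_mul]; linear_combination -k * htwo
    rcases SU7.finset_four hF hω ((μ k)⁻¹ * (f k u + k)) with h | h | h | h <;> rw [h] at e
    · exact Or.inl (by rw [e, mul_zero, add_zero])
    · exact Or.inr (Or.inl (by rw [e, mul_one]))
    · exact Or.inr (Or.inr (Or.inl e))
    · exact Or.inr (Or.inr (Or.inr e))
  have hf1' : ∀ k, f k 1 = k + μ k := fun k => by simp only [μ]; linear_combination -k * htwo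
  have hfω : ∀ k, f k ω = k + μ k * (ω + 1) := fun k => by
    rcases hcases k ω with h | h | h | h
    · exact absurd (hfinj k (h.trans (hf0 k).symm)) hω0
    · exact absurd (hfinj k (h.trans (hf1' k).symm)) hω1
    · exact absurd h (hcol k)
    · exact h
  have hfω' : ∀ k, f k (ω + 1) = k + μ k * ω := fun k => by
    rcases hcases k (ω + 1) with h | h | h | h
    · exact absurd (hfinj k (h.trans (hf0 k).symm)) hω1'
    · exact absurd (hfinj k (h.trans (hf1' k).symm)) fun h' => hω0 (by linear_combination h')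
    · exact h
    · exact absurd (hfinj k (h.trans (hfω k).symm)) fun h' => one_ne_zero (α := F) (by linear_combination h')
  have hform : ∀ k u, f k u = k + μ k * (u * u) := fun k u => by
    rcases SU7.finset_four hF hω u with rfl | rfl | rfl | rfl
    · rw [hf0]; ring
    · rw [hf1']; ring
    · rw [hfω, hω2]
    · rw [hfω']; linear_combination -(μ k) * hω2 - μ k * (ω + 1) * htwo
  have hμeq : ∀ k k', k ≠ k' → μ k = μ k' := by
    intro k k' hk
    by_contra hm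
    have hm' : μ k + μ k' ≠ 0 := fun h => hm (by linear_combination h - μ k' * htwo)
    set x := (μ k + μ k')⁻¹ * (k + k') with hx
    have hxe : (μ k + μ k') * x = k + k' := by rw [hx, ← mul_assoc, mul_inv_cancel₀ hm', one_mul]
    have hx0 : x ≠ 0 := fun h => hk (by rw [h, mul_zero] at hxe; linear_combination -hxe - k' * htwo)
    have e : f k (x * x) = f k' (x * x) := by
      have hx4 : x * x * (x * x) = x := by linear_combination x * SU7.unit_cube hF hx0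
      rw [hform, hform, hx4]
      linear_combination hxe - μ k' * x * htwo + k * htwo
    have p : ∀ k₀, fr.pt (Z k₀ (x * x)) = Γ k₀ (Z k₀ (x * x)) • pv (x * x) (f k₀ (x * x)) := fun k₀ => by
      have := hcd k₀ _ (hZ k₀ (x * x)).1 (hZ k₀ (x * x)).2.1 (hZ k₀ (x * x)).2.2
      rwa [hZU] at this
    have hz : Z k' (x * x) = Z k (x * x) := fr.inj _ (hLN k _ (hZ k (x * x)).1) _ (hLN k' _ (hZ k' (x * x)).1)
      ⟨Γ k' (Z k' (x * x)) * (Γ k (Z k (x * x)))⁻¹, by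
        rw [p k, p k', smul_smul, inv_mul_cancel_right₀
          (hΓ k _ (hZ k _).1 (hZ k _).2.1 (hZ k _).2.2), e]⟩
    have hLL : Lk k' = Lk k := by
      rw [← htri k' (hd1L k') (hd2L k') (hZ k' (x * x)).1 hne.symm (hZ k' _).2.1 (hZ k' _).2.2, hz,
        htri k (hd1L k) (hd2L k) (hZ k (x * x)).1 hne.symm (hZ k _).2.1 (hZ k _).2.2]
    have hww : w0 k' = w0 k := by
      have hm : w0 k' ∈ Lk k := hLL ▸ hwL k'
      refine hinj k _ _ hm (hw01 k') (hw02 k') (hwL k) (hw01 k) (hw02 k) (Or.inl ?_)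
      rw [(hUV0 k).1]
      have e' := hcd k _ hm (hw01 k') (hw02 k')
      rw [hw0] at e'
      obtain ⟨a1, -, a3⟩ := huniq (γ0 k' * 0 - Γ k (w0 k') * U k (w0 k'))
        (γ0 k' * k' - Γ k (w0 k') * V k (w0 k')) (γ0 k' - Γ k (w0 k'))
        (by linear_combination (norm := (simp only [pv]; module)) e')
      rw [mul_zero, zero_sub, neg_eq_zero] at a1
      exact (mul_eq_zero.1 a1).resolve_left (hΓ k _ hm (hw01 k') (hw02 k'))
    have h := hw0 k'
    rw [hww, hw0] at h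
    obtain ⟨-, a2, a3⟩ := huniq (γ0 k * 0 - γ0 k' * 0) (γ0 k * k - γ0 k' * k') (γ0 k - γ0 k')
      (by linear_combination (norm := (simp only [pv]; module)) h)
    rw [sub_eq_zero.1 a3, ← mul_sub] at a2
    exact hk (sub_eq_zero.1 ((mul_eq_zero.1 a2).resolve_left (hγ0 k')))
  -- the element
  obtain ⟨a, ha, ea⟩ := hact d₁ h₁
  obtain ⟨b, hb, eb⟩ := hact d₂ h₂
  rw [hg₁, ← hq2, ← hq1] at ea
  rw [hg₂, ← hq1, ← hq2] at eb
  have hsq2 : act s q2 = b⁻¹ • q1 := by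
    conv_rhs => rw [eb]
    rw [smul_smul, inv_mul_cancel₀ hb, one_smul]
  have himg : ∀ k, ∃ γ u : F, γ ≠ 0 ∧ act s (pv 0 k) = γ • pv u (k + μ k * (u * u)) := by
    intro k
    have hm : g * w0 k * g⁻¹ ∈ Lk k := hfix _ (hw0N k).1 (hw01 k) (hw02 k) (hw0c k).1 (hw0c k).2
    have n1 : g * w0 k * g⁻¹ ≠ d₁ := fun e => hw02 k (mul_left_cancel (mul_right_cancel (e.trans hg₂.symm)))
    have n2 : g * w0 k * g⁻¹ ≠ d₂ := fun e => hw01 k (mul_left_cancel (mul_right_cancel (e.trans hg₁.symm)))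
    set u := U k (g * w0 k * g⁻¹) with hu
    have hzZ : g * w0 k * g⁻¹ = Z k u :=
      hinj k _ _ hm n1 n2 (hZ k u).1 (hZ k u).2.1 (hZ k u).2.2 (Or.inl (by rw [hZU]))
    obtain ⟨δ, hδ, e⟩ := hact _ (hw0N k)
    have e2 := hcd k _ hm n1 n2
    rw [e, hw0, map_smul, ← hu, show V k (g * w0 k * g⁻¹) = k + μ k * (u * u) by
      rw [hzZ]; exact hform k u] at e2
    refine ⟨(δ * γ0 k)⁻¹ * Γ k (g * w0 k * g⁻¹), u,
      mul_ne_zero (inv_ne_zero (mul_ne_zero hδ (hγ0 k))) (hΓ k _ hm n1 n2), ?_⟩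
    rw [mul_smul, ← e2, smul_smul, smul_smul, mul_assoc, inv_mul_cancel₀ (mul_ne_zero hδ (hγ0 k)), one_smul]
  obtain ⟨γ, u, hγ, e0⟩ := himg 0
  have hk : ∀ k, k + μ k * ((u + b⁻¹ * γ⁻¹ * k) * (u + b⁻¹ * γ⁻¹ * k)) = μ 0 * (u * u) := by
    intro k
    obtain ⟨γ', u', -, e⟩ := himg k
    have e1 : act s (pv 0 k) = act s (pv 0 0) + (k * b⁻¹) • q1 := by
      rw [mul_smul, ← hsq2, ← map_smul, ← map_add]
      congr 1
      simp only [pv]; module
    rw [e1, e0] at e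
    obtain ⟨a1, a2, a3⟩ := huniq (γ * u + k * b⁻¹ - γ' * u') (γ * (μ 0 * (u * u)) - γ' * (k + μ k * (u' * u')))
      (γ - γ') (by linear_combination (norm := (simp only [pv]; module)) e)
    rw [← sub_eq_zero.1 a3] at a1 a2
    have hu' : u' = u + b⁻¹ * γ⁻¹ * k := by
      refine mul_left_cancel₀ hγ ?_
      rw [mul_add, ← sub_eq_zero.1 a1]
      field_simp
    rw [← hu']
    rw [← mul_sub] at a2
    exact (sub_eq_zero.1 ((mul_eq_zero.1 a2).resolve_left hγ)).symm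
  set β := b⁻¹ * γ⁻¹
  have h1 := hk 1
  have h2 := hk ω
  rw [hμeq 1 0 one_ne_zero] at h1
  rw [hμeq ω 0 hω0] at h2
  exact one_ne_zero (α := F) (by
    linear_combination -(h2 - ω * ω * h1) + (μ 0 * u * β * (ω - ω * ω)) * htwo - hω2)

end Cfsg.Agent.Core.M22
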