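import Cfsg.Agent.Core.M22Member
import Cfsg.Agent.Core.M22Pair

set_option autoImplicit false
set_option linter.unusedSimpArgs false

/-!
# Type M(22): members commuting with two commuting pairs of noncommuting members
-/

namespace Cfsg.Agent.Core.M22

open Cfsg
open Cfsg.Agent.KnownA
open Cfsg.Agent.Forms (frobQ)
open Cfsg.Agent.FGS3
open Cfsg.Agent.Core
open Cfsg.Agent.Core.SU7 (Par HBasis dot3)

variable {F : Type*} [Field F] [Fintype F] {hF : Fintype.card F = 2 ^ 2}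
variable {G : Type*} [Group G] [Finite G] {D : Set G}

/-- Orbit and stabiliser, as an inequality. -/
theorem orbit_bound (H : Subgroup G) (x : G) (T : Set G) (h : ∀ g ∈ H, g * x * g⁻¹ ∈ T) :
    Nat.card ↥H ≤ T.ncard * Nat.card ↥(H ⊓ Subgroup.centralizer ({x} : Set G)) := by
  classical
  have hc := card_eq_range_mul (fun g : ↥H => (g : G) * x * (g : G)⁻¹)
    ((H ⊓ Subgroup.centralizer ({x} : Set G)).subgroupOf H) fun g g' => by
      rw [Subgroup.mem_subgroupOf, Subgroup.mem_inf, and_iff_right (g⁻¹ * g').2,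
        Subgroup.mem_centralizer_singleton_iff, Subgroup.coe_mul, Subgroup.coe_inv]
      constructor <;> intro h
      · calc (g : G)⁻¹ * g' * x = (g : G)⁻¹ * ((g' : G) * x * (g' : G)⁻¹) * g' := by group
          _ = x * ((g : G)⁻¹ * g') := by rw [← h]; group
      · calc (g : G) * x * (g : G)⁻¹ = g * (x * ((g : G)⁻¹ * g')) * (g' : G)⁻¹ := by group
          _ = g' * x * (g' : G)⁻¹ := by rw [← h]; group
  rw [Nat.card_congr (Subgroup.subgroupOfEquivOfLe inf_le_left).toEquiv] at hc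
  rw [hc]
  refine Nat.mul_le_mul_right _ ?_
  rw [Nat.card_coe_set_eq]
  exact Set.ncard_le_ncard (by rintro _ ⟨g, rfl⟩; exact h g g.2) (Set.toFinite _)

/-- An element of `SU(6,2)` diagonal in a hyperbolic basis. -/
theorem diag_prod (B : HBasis hF) {s : Cfsg.SU 6 F 2} {t : Fin 3 → F} (he : ∀ i, act s (B.e i) = t i • B.e i)
    (hf : ∀ i, act s (B.f i) = t i • B.f i) (ht : ∀ i, t i ≠ 0) : t 0 * t 1 * t 2 = 1 := by
  classical
  let col : Fin 6 → Fin 6 → F := ![B.e 0, B.e 1, B.e 2, B.f 0, B.f 1, B.f 2]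
  let τ : Fin 6 → F := ![t 0, t 1, t 2, t 0, t 1, t 2]
  let P : Matrix (Fin 6) (Fin 6) F := fun i j => col j i
  set A : Matrix (Fin 6) (Fin 6) F := ((s : Matrix.SpecialLinearGroup (Fin 6) F) : Matrix (Fin 6) (Fin 6) F) with hA
  have hcol : ∀ j, act s (col j) = τ j • col j := by
    intro j
    fin_cases j <;> simp [col, τ, he, hf]
  have hAP : A * P = P * Matrix.diagonal τ := by
    ext i j
    rw [Matrix.mul_diagonal]
    have h : act s (col j) i = (τ j • col j) i := congrFun (hcol j) i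
    rw [Pi.smul_apply, smul_eq_mul] at h
    rw [show P i j * τ j = τ j * col j i from mul_comm _ _, ← h]
    rfl
  have hP : P.det ≠ 0 := by
    intro h0
    obtain ⟨x, hx, hPx⟩ := Matrix.exists_mulVec_eq_zero_iff.2 h0
    have e : B.vec ![x 0, x 1, x 2] ![x 3, x 4, x 5] = P.mulVec x := by
      funext i
      simp [HBasis.vec, P, col, Matrix.mulVec, dotProduct, Fin.sum_univ_six]
      ring
    rw [hPx] at e
    have h1 := congrArg B.cx e
    have h2 := congrArg B.cy e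
    rw [B.cx_vec] at h1
    rw [B.cy_vec] at h2
    have z : ∀ v w : Fin 6 → F, w = 0 → ub hF v w = 0 := fun v w e => e ▸ ub_zero_right hF v
    refine hx (funext fun i => ?_)
    have a0 := congrFun h1 0
    have a1 := congrFun h1 1
    have a2 := congrFun h1 2
    have b0 := congrFun h2 0
    have b1 := congrFun h2 1
    have b2 := congrFun h2 2
    simp [HBasis.cx, HBasis.cy, ub_zero_right hF] at a0 a1 a2 b0 b1 b2
    fin_cases i <;> assumption
  have hdA : A.det = 1 := (s : Matrix.SpecialLinearGroup (Fin 6) F).2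
  have h := congrArg Matrix.det hAP
  rw [Matrix.det_mul, Matrix.det_mul, hdA, one_mul, Matrix.det_diagonal, eq_comm, mul_eq_left₀ hP] at h
  simp [τ, Fin.prod_univ_six] at h
  have hq0 : t 0 * t 1 * t 2 ≠ 0 := mul_ne_zero (mul_ne_zero (ht 0) (ht 1)) (ht 2)
  have hq := Linear.ThreeTransp.cube hF hq0
  linear_combination hq - (t 0 * t 1 * t 2) * h

/-- The elements fixing a member and six of its neighbours forming a basis. -/
theorem six_fixed_card (c : Ctx hF D) {p : G} (hp : p ∈ D) (fr : Frame hF D p) (B : HBasis hF)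
    (H : Subgroup G) (hH : ∀ g ∈ H, Commute g p)
    (he : ∀ i, ∃ y ∈ TT.Nb D p, (∀ g ∈ H, Commute g y) ∧ ∃ k : F, k ≠ 0 ∧ fr.pt y = k • B.e i)
    (hf : ∀ i, ∃ y ∈ TT.Nb D p, (∀ g ∈ H, Commute g y) ∧ ∃ k : F, k ≠ 0 ∧ fr.pt y = k • B.f i) :
    Nat.card ↥H ≤ 6 := by
  classical
  obtain ⟨φ, -, hφ⟩ := fr.img
  have hσ : ∀ {a : F}, a ≠ 0 → frobQ hF a * a = 1 := fun ha => SU7.sigma_mul hF ha
  have key : ∀ g : ↥H, ∃ (s : Cfsg.SU 6 F 2) (t : Fin 3 → F), (∀ i, t i ≠ 0) ∧ t 0 * t 1 * t 2 = 1 ∧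
      (∀ v, act s v = B.vec (fun i => t i * B.cx v i) fun i => t i * B.cy v i) ∧
      ∀ y ∈ TT.Nb D p, Par (F := F) (act s (fr.pt y)) (fr.pt ((g : G) * y * (g : G)⁻¹)) := by
    intro g
    have hmem := c.centraliser_member hp (hH g g.2)
    obtain ⟨s, hs⟩ := QuotientGroup.mk_surjective (φ ⟨g, hmem⟩)
    have hpar : ∀ y ∈ TT.Nb D p, Par (F := F) (act s (fr.pt y)) (fr.pt ((g : G) * y * (g : G)⁻¹)) :=
      fun y hy => act_of_img c fr φ hφ ⟨g, hmem⟩ hs.symm hy
    have heig : ∀ u : Fin 6 → F, (∃ y ∈ TT.Nb D p, (∀ g ∈ H, Commute g y) ∧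
        ∃ k : F, k ≠ 0 ∧ fr.pt y = k • u) → ∃ r : F, r ≠ 0 ∧ act s u = r • u := by
      rintro u ⟨y, hy, hgy, k, hk, e⟩
      obtain ⟨l, hl, el⟩ := hpar y hy
      rw [(hgy g g.2).eq, mul_inv_cancel_right, e, _root_.map_smul, smul_smul] at el
      refine ⟨(l * k)⁻¹ * k, mul_ne_zero (inv_ne_zero (mul_ne_zero hl hk)) hk, ?_⟩
      rw [mul_smul, el, smul_smul, inv_mul_cancel₀ (mul_ne_zero hl hk), one_smul]
    choose t ht hte using fun i => heig (B.e i) (he i)
    choose r hr hrf using fun i => heig (B.f i) (hf i)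
    have hrt : ∀ i, r i = t i := fun i => by
      have h : ub hF (act s (B.e i)) (act s (B.f i)) = 1 := by rw [act_ub hF, B.ef, if_pos rfl]
      rw [hte, hrf, ub_smul_left hF, ub_smul_right hF, B.ef, if_pos rfl, mul_one] at h
      linear_combination t i * h - r i * hσ (ht i)
    have hte' : ∀ i, act s (B.f i) = t i • B.f i := fun i => hrt i ▸ hrf i
    refine ⟨s, t, ht, diag_prod B hte hte' ht, fun v => ?_, hpar⟩
    conv_lhs => rw [← B.vec_cx_cy v]
    simp only [HBasis.vec, _root_.map_add, _root_.map_smul, hte, hte', smul_smul, mul_comm (t _)]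
  choose s t ht hdet hvec hpar using key
  haveI := Fintype.ofFinite ↥H
  haveI := Fintype.ofFinite {k : F // k ≠ 0}
  let X : ↥H → {k : F // k ≠ 0} := fun g => ⟨t g 0 * t g 2 ^ 2, mul_ne_zero (ht g 0) (pow_ne_zero _ (ht g 2))⟩
  have hfib : ∀ g g' : ↥H, X g = X g' → (g : G) = g' ∨ (g' : G) = g * p := by
    intro g g' hX
    have hX' : t g 0 * t g 2 ^ 2 = t g' 0 * t g' 2 ^ 2 := congrArg Subtype.val hX
    set μ := t g' 2 * t g 2 ^ 2 with hμ
    have hμ0 : μ ≠ 0 := mul_ne_zero (ht g' 2) (pow_ne_zero _ (ht g 2))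
    have c2 := Linear.ThreeTransp.cube hF (ht g 2)
    have c2' := Linear.ThreeTransp.cube hF (ht g' 2)
    have e2 : t g' 2 = μ * t g 2 := by rw [hμ]; linear_combination -(t g' 2) * c2
    have e0 : t g' 0 = μ * t g 0 := by
      rw [hμ]; linear_combination -(t g' 2) * hX' - t g' 0 * c2'
    have e1 : t g' 1 = μ * t g 1 := by
      have h1 := hdet g
      have h2 := hdet g'
      rw [e0, e2] at h2
      have c := Linear.ThreeTransp.cube hF hμ0
      have hne : μ ^ 2 * (t g 0 * t g 2) ≠ 0 :=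
        mul_ne_zero (pow_ne_zero _ hμ0) (mul_ne_zero (ht g 0) (ht g 2))
      exact mul_left_cancel₀ hne (by linear_combination h2 - h1 - (t g 0 * t g 1 * t g 2) * c)
    have et : ∀ i, t g' i = μ * t g i := by intro i; fin_cases i <;> assumption
    have hact : ∀ v, act (s g') v = μ • act (s g) v := fun v => by
      rw [hvec, hvec, ← B.vec_smul]
      congr 1 <;> funext i <;> simp [et i, mul_assoc]
    set z := (g : G)⁻¹ * g' with hz
    have hzp : Commute z p := (hH g g.2).inv_left.mul_left (hH g' g'.2)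
    have hzy : ∀ y ∈ TT.Nb D p, Commute z y := by
      intro y hy
      obtain ⟨l, hl, el⟩ := hpar g y hy
      obtain ⟨l', -, el'⟩ := hpar g' y hy
      have e : (g' : G) * y * (g' : G)⁻¹ = (g : G) * y * (g : G)⁻¹ :=
        fr.inj _ (nb_of_commute c.prim.cls (hH g g.2) hy) _ (nb_of_commute c.prim.cls (hH g' g'.2) hy)
          ⟨l' * μ * l⁻¹, by rw [el', hact, el, smul_smul, smul_smul]; congr 1; field_simp⟩
      show z * y = y * z
      rw [hz]
      calc (g : G)⁻¹ * g' * y = (g : G)⁻¹ * ((g' : G) * y * (g' : G)⁻¹) * g' := by group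
        _ = y * ((g : G)⁻¹ * g') := by rw [e]; group
    rcases c.centraliser_nb hp hzp hzy with e | e
    · exact Or.inl (inv_mul_eq_one.1 e)
    · exact Or.inr (inv_mul_eq_iff_eq_mul.1 e)
  have h := Finset.card_le_mul_card_image (f := X) (Finset.univ : Finset ↥H) 2 fun k hk => by
    obtain ⟨g₀, -, rfl⟩ := Finset.mem_image.1 hk
    calc _ ≤ ({(g₀ : G), g₀ * p} : Finset G).card :=
          Finset.card_le_card_of_injOn (fun g : ↥H => (g : G)) (fun g hg => by
            simp only [Finset.coe_filter, Set.mem_setOf_eq, Finset.mem_univ, true_and] at hg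
            rcases hfib g₀ g hg.symm with e | e <;> simp [e]) Subtype.val_injective.injOn
      _ ≤ 2 := Finset.card_le_two
  have hu : ((Finset.univ : Finset ↥H).image X).card ≤ 3 := by
    have h3 := card_units_field hF
    rw [Nat.card_eq_fintype_card] at h3
    exact h3 ▸ Finset.card_le_univ _
  rw [Nat.card_eq_fintype_card, ← Finset.card_univ]
  omega

/-- The members commuting with the four of a double pair and with a further member `x`. -/
theorem quad_common (c : Ctx hF D) {x d b e a : G} (hx : x ∈ D) (nd : d ∈ TT.Nb D x) (nb : b ∈ TT.Nb D x)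
    (ne : e ∈ TT.Nb D x) (na : a ∈ TT.Nb D x) (hdb : ¬ Commute d b) (hea : ¬ Commute e a) (cde : Commute d e)
    (cda : Commute d a) (cbe : Commute b e) (cba : Commute b a) :
    let N := {y | y ∈ TT.Nb D x ∧ Commute d y ∧ Commute b y ∧ Commute e y ∧ Commute a y}
    N.ncard ≤ 3 ∧ (∀ y ∈ N, ∀ y' ∈ N, y ≠ y' → ¬ Commute y y') ∧
      ∃ (m₁ m₂ : G), m₁ ∈ N ∧ m₂ ∈ N ∧ ∀ H : Subgroup G,
        (∀ g ∈ H, Commute g x ∧ Commute g d ∧ Commute g b ∧ Commute g e ∧ Commute g a ∧ Commute g m₁ ∧ Commute g m₂) →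
          Nat.card ↥H ≤ 6 := by
  classical
  intro N
  obtain ⟨fr⟩ := c.frame x hx
  obtain ⟨B₀⟩ := exists_hbasis hF
  have z := fun {u v : G} (hu : u ∈ TT.Nb D x) (hv : v ∈ TT.Nb D x) (h : Commute u v) =>
    (fr.commute_iff u hu v hv).1 h
  have n1 : ub hF (fr.pt d) (fr.pt b) ≠ 0 := fun h => hdb ((fr.commute_iff d nd b nb).2 h)
  have n2 : ub hF (fr.pt e) (fr.pt a) ≠ 0 := fun h => hea ((fr.commute_iff e ne a na).2 h)
  have s1 : ub hF (fr.pt b) (fr.pt d) = frobQ hF (ub hF (fr.pt d) (fr.pt b)) := (ub_symm hF _ _).symm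
  have s2 : ub hF (fr.pt a) (fr.pt e) = frobQ hF (ub hF (fr.pt e) (fr.pt a)) := (ub_symm hF _ _).symm
  have hv : ∀ i j, ub hF (![fr.pt d, (ub hF (fr.pt d) (fr.pt b))⁻¹ • fr.pt b, fr.pt e,
        (ub hF (fr.pt e) (fr.pt a))⁻¹ • fr.pt a] i) (![fr.pt d, (ub hF (fr.pt d) (fr.pt b))⁻¹ • fr.pt b, fr.pt e,
        (ub hF (fr.pt e) (fr.pt a))⁻¹ • fr.pt a] j) = quadGram F i j := by
    intro i j
    fin_cases i <;> fin_cases j <;>
      simp [quadGram, ub_smul_left hF, ub_smul_right hF, fr.pt_iso, nd, nb, ne, na, z nd ne cde, z nd na cda,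
        z nb ne cbe, z nb na cba, z ne nd cde.symm, z na nd cda.symm, z ne nb cbe.symm, z na nb cba.symm, n1, n2,
        s1, s2, map_inv₀]
  have hv0 : ∀ i j, ub hF (![B₀.e 0, B₀.f 0, B₀.e 1, B₀.f 1] i) (![B₀.e 0, B₀.f 0, B₀.e 1, B₀.f 1] j) =
      quadGram F i j := by
    intro i j
    fin_cases i <;> fin_cases j <;> simp [quadGram, B₀.ee, B₀.ff, B₀.ef, B₀.fe]
  obtain ⟨g, t, ht, hg⟩ := exists_su_quad hv0 hv
  let B : HBasis hF := {
    e := fun i => act g (B₀.e i)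
    f := fun i => act g (B₀.f i)
    ee := fun i j => by rw [act_ub hF, B₀.ee]
    ff := fun i j => by rw [act_ub hF, B₀.ff]
    ef := fun i j => by rw [act_ub hF, B₀.ef] }
  have pd : ∃ k : F, k ≠ 0 ∧ fr.pt d = k • B.e 0 := ⟨(t 0)⁻¹, inv_ne_zero (ht 0), by
    show _ = _ • act g (B₀.e 0)
    rw [show act g (B₀.e 0) = t 0 • fr.pt d from hg 0, smul_smul, inv_mul_cancel₀ (ht 0), one_smul]⟩
  have pe : ∃ k : F, k ≠ 0 ∧ fr.pt e = k • B.e 1 := ⟨(t 2)⁻¹, inv_ne_zero (ht 2), by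
    show _ = _ • act g (B₀.e 1)
    rw [show act g (B₀.e 1) = t 2 • fr.pt e from hg 2, smul_smul, inv_mul_cancel₀ (ht 2), one_smul]⟩
  have pb : ∃ k : F, k ≠ 0 ∧ fr.pt b = k • B.f 0 :=
    ⟨(t 1 * (ub hF (fr.pt d) (fr.pt b))⁻¹)⁻¹, inv_ne_zero (mul_ne_zero (ht 1) (inv_ne_zero n1)), by
      show _ = _ • act g (B₀.f 0)
      rw [show act g (B₀.f 0) = t 1 • (ub hF (fr.pt d) (fr.pt b))⁻¹ • fr.pt b from hg 1, smul_smul (t 1), smul_smul,
        inv_mul_cancel₀ (mul_ne_zero (ht 1) (inv_ne_zero n1)), one_smul]⟩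
  have pa : ∃ k : F, k ≠ 0 ∧ fr.pt a = k • B.f 1 :=
    ⟨(t 3 * (ub hF (fr.pt e) (fr.pt a))⁻¹)⁻¹, inv_ne_zero (mul_ne_zero (ht 3) (inv_ne_zero n2)), by
      show _ = _ • act g (B₀.f 1)
      rw [show act g (B₀.f 1) = t 3 • (ub hF (fr.pt e) (fr.pt a))⁻¹ • fr.pt a from hg 3, smul_smul (t 3), smul_smul,
        inv_mul_cancel₀ (mul_ne_zero (ht 3) (inv_ne_zero n2)), one_smul]⟩
  obtain ⟨kd, hkd, ed⟩ := pd
  obtain ⟨ke, hke, ee⟩ := pe
  obtain ⟨kb, hkb, eb⟩ := pb
  obtain ⟨ka, hka, ea⟩ := pa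
  have u0 : ub hF (B.e 2) (B.e 2) = 0 := B.ee 2 2
  have u1 : ub hF (B.f 2) (B.f 2) = 0 := B.ff 2 2
  have u01 : ub hF (B.e 2) (B.f 2) = 1 := by rw [B.ef, if_pos rfl]
  have u10 : ub hF (B.f 2) (B.e 2) = 1 := by rw [B.fe, if_pos rfl]
  set P : Fin 3 → Fin 6 → F := ![B.e 2, B.f 2, B.e 2 + B.f 2] with hPdef
  have hiso : ∀ i, ub hF (P i) (P i) = 0 := by
    intro i
    fin_cases i <;> simp [hPdef, ub_add_left hF, ub_add_right hF, u0, u1, u01, u10, SU7.add_self hF]
  have hPne : ∀ i j, i ≠ j → ub hF (P i) (P j) ≠ 0 := by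
    intro i j hij
    fin_cases i <;> fin_cases j <;> simp at hij <;>
      simp [hPdef, ub_add_left hF, ub_add_right hF, u0, u1, u01, u10]
  have hP0 : ∀ i, P i ≠ 0 := fun i h => by
    obtain ⟨j, hj⟩ : ∃ j, i ≠ j := ⟨i + 1, by fin_cases i <;> decide⟩
    exact hPne i j hj (by rw [h, ub_zero_left hF])
  choose m hm km hkm emk using fun i => fr.onto (P i) (hP0 i) (hiso i)
  have hperp : ∀ i, ub hF (B.e 0) (P i) = 0 ∧ ub hF (B.f 0) (P i) = 0 ∧ ub hF (B.e 1) (P i) = 0 ∧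
      ub hF (B.f 1) (P i) = 0 := by
    intro i
    fin_cases i <;> simp [hPdef, ub_add_right hF, B.ee, B.ff, B.ef, B.fe]
  have hmN : ∀ i, m i ∈ N := fun i => by
    refine ⟨hm i, ?_, ?_, ?_, ?_⟩
    · exact (fr.commute_iff d nd _ (hm i)).2 (by rw [ed, emk, ub_smul_left hF, ub_smul_right hF, (hperp i).1]; simp)
    · exact (fr.commute_iff b nb _ (hm i)).2 (by rw [eb, emk, ub_smul_left hF, ub_smul_right hF, (hperp i).2.1]; simp)
    · exact (fr.commute_iff e ne _ (hm i)).2 (by rw [ee, emk, ub_smul_left hF, ub_smul_right hF, (hperp i).2.2.1]; simp)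
    · exact (fr.commute_iff a na _ (hm i)).2 (by rw [ea, emk, ub_smul_left hF, ub_smul_right hF, (hperp i).2.2.2]; simp)
  have hN : ∀ y ∈ N, ∃ i, y = m i := by
    rintro y ⟨hy, c1, c2, c3, c4⟩
    have q : ∀ {u : G} {k : F} {v : Fin 6 → F}, u ∈ TT.Nb D x → k ≠ 0 → fr.pt u = k • v → Commute u y →
        ub hF v (fr.pt y) = 0 := by
      intro u k v hu hk e h
      have h' := (fr.commute_iff u hu y hy).1 h
      rw [e, ub_smul_left hF, mul_eq_zero] at h'
      exact h'.resolve_left fun h0 => hk ((map_eq_zero _).mp h0)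
    have y0 : B.cy (fr.pt y) 0 = 0 := q nd hkd ed c1
    have x0 : B.cx (fr.pt y) 0 = 0 := q nb hkb eb c2
    have y1 : B.cy (fr.pt y) 1 = 0 := q ne hke ee c3
    have x1 : B.cx (fr.pt y) 1 = 0 := q na hka ea c4
    set α := B.cx (fr.pt y) 2
    set β := B.cy (fr.pt y) 2
    have hy2 : fr.pt y = α • B.e 2 + β • B.f 2 := by
      conv_lhs => rw [← B.vec_cx_cy (fr.pt y)]
      simp only [HBasis.vec, x0, x1, y0, y1, zero_smul, zero_add, add_zero, α, β]
    suffices h : ∃ i k, fr.pt y = k • P i by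
      obtain ⟨i, k, hk⟩ := h
      exact ⟨i, fr.inj _ (hm i) y hy ⟨k * (km i)⁻¹, by
        rw [hk, emk, smul_smul, inv_mul_cancel_right₀ (hkm i)]⟩⟩
    by_cases hα : α = 0
    · exact ⟨1, β, by rw [hy2, hα]; simp [hPdef]⟩
    by_cases hβ : β = 0
    · exact ⟨0, α, by rw [hy2, hβ]; simp [hPdef]⟩
    have hi := fr.pt_iso y hy
    rw [hy2] at hi
    simp only [ub_add_left hF, ub_add_right hF, ub_smul_left hF, ub_smul_right hF, u0, u1, u01, u10, mul_zero,
      mul_one, zero_add, add_zero] at hi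
    have hfix : frobQ hF (frobQ hF α * β) = frobQ hF α * β := by
      rw [map_mul, sig_sig hF]
      linear_combination hi - (frobQ hF α * β) * SU7.two0 hF
    have hα' : frobQ hF α ≠ 0 := fun h => hα ((map_eq_zero _).mp h)
    have h1 := (SU7.fixed_cases hF hfix).resolve_left (mul_ne_zero hα' hβ)
    have hαβ : β = α := mul_left_cancel₀ hα' (h1.trans (SU7.sigma_mul hF hα).symm)
    exact ⟨2, α, by rw [hy2, hαβ]; simp [hPdef]⟩
  refine ⟨?_, ?_, m 0, m 1, hmN 0, hmN 1, fun H hH => ?_⟩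
  · refine le_trans (Set.ncard_le_ncard (t := Set.range m) (fun y hy => (hN y hy).imp fun i h => h.symm)
      (Set.toFinite _)) ?_
    rw [← Nat.card_coe_set_eq]
    exact le_trans (Finite.card_range_le m) (by simp)
  · intro y hy y' hy' hne hc
    obtain ⟨i, rfl⟩ := hN y hy
    obtain ⟨j, rfl⟩ := hN y' hy'
    have h := (fr.commute_iff _ (hm i) _ (hm j)).1 hc
    rw [emk, emk, ub_smul_left hF, ub_smul_right hF] at h
    simp [hkm, hPne i j fun e => hne (e ▸ rfl)] at h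
  · refine six_fixed_card c hx fr B H (fun g hg => (hH g hg).1) ?_ ?_ <;> intro i <;> fin_cases i
    · exact ⟨d, nd, fun g hg => (hH g hg).2.1, kd, hkd, ed⟩
    · exact ⟨e, ne, fun g hg => (hH g hg).2.2.2.1, ke, hke, ee⟩
    · exact ⟨m 0, hm 0, fun g hg => (hH g hg).2.2.2.2.2.1, km 0, hkm 0, by rw [emk]; rfl⟩
    · exact ⟨b, nb, fun g hg => (hH g hg).2.2.1, kb, hkb, eb⟩
    · exact ⟨a, na, fun g hg => (hH g hg).2.2.2.2.1, ka, hka, ea⟩
    · exact ⟨m 1, hm 1, fun g hg => (hH g hg).2.2.2.2.2.2, km 1, hkm 1, by rw [emk]; rfl⟩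

/-- The numbers for two noncommuting members, from the number of members. -/
theorem Ctx.far_counts (c : Ctx hF D) (hD : D.ncard = 3510) {d x : G} (hd : d ∈ D) (hx : x ∈ Far D d) :
    Nat.card ↥(Mutual D d x) = 126 ∧
      Nat.card ↥(Subgroup.centralizer ({d} : Set G) ⊓ Subgroup.centralizer ({x} : Set G)) = 6531840 := by
  classical
  have h0 : D = insert d (TT.Nb D d ∪ Far D d) := by
    ext y
    constructor
    · intro hy
      by_cases e : y = d
      · exact Or.inl e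
      by_cases hc : Commute d y
      · exact Or.inr (Or.inl ⟨hy, e, hc⟩)
      · exact Or.inr (Or.inr ⟨hy, hc⟩)
    · rintro (rfl | h | h)
      · exact hd
      · exact h.1
      · exact h.1
  rw [h0, Set.ncard_insert_of_notMem (by rintro (h | h); exacts [h.2.1 rfl, h.2 (Commute.refl d)])
    (Set.toFinite _), Set.ncard_union_eq (Set.disjoint_left.2 fun y hy hy' => hy'.2 hy.2.2) (Set.toFinite _)
    (Set.toFinite _), ← Nat.card_coe_set_eq, ← Nat.card_coe_set_eq, c.nb_card hd] at hD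
  have hN : Nat.card ↥(Far D d) = 2816 := by omega
  have h1 := c.far_mul_mutual hd hx
  have h2 := c.far_mul_stab hd hx
  rw [hN] at h1 h2
  exact ⟨by omega, by omega⟩

end Cfsg.Agent.Core.M22
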