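import Cfsg.Agent.Core.M22Order
import Cfsg.Agent.Core.M22Member
import Cfsg.Agent.Core.SUInvLift

set_option autoImplicit false
set_option linter.unusedSimpArgs false
set_option linter.unusedSectionVars false

/-!
# Type M(22): the members in a Sylow 2-subgroup
-/

namespace Cfsg.Agent.Core.M22

open Cfsg
open Cfsg.Agent.KnownA
open Cfsg.Agent.Forms (frobQ)
open Cfsg.Agent.FGS3
open Cfsg.Agent.Core
open Cfsg.Agent.Core.SU7 (Par HBasis)

variable {F : Type*} [Field F] [Fintype F] {hF : Fintype.card F = 2 ^ 2}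
variable {G : Type*} [Group G] [Finite G] {D : Set G}

theorem su_center_three (hF : Fintype.card F = 2 ^ 2) :
    ∀ z ∈ Subgroup.center (Cfsg.SU 6 F 2), z ^ 3 = 1 := by
  intro z hz
  have h := Forms.card_center_SU hF (n := 6) (by omega)
  have h1 : (⟨z, hz⟩ : ↥(Subgroup.center (Cfsg.SU 6 F 2))) ^
      Nat.card ↥(Subgroup.center (Cfsg.SU 6 F 2)) = 1 := pow_card_eq_one'
  rw [h] at h1
  exact congrArg Subtype.val h1

/-- An involution commuting with a member acts on its neighbours as a unitary involution. -/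
theorem Ctx.involution_lift (c : Ctx hF D) {d z : G} (hd : d ∈ D) (fr : Frame hF D d)
    (φ : ↥(Subgroup.closure (TT.Nb D d)) →* Cfsg.PSU 6 F 2)
    (hφ : ∀ w (hw : w ∈ TT.Nb D d), φ ⟨w, Subgroup.subset_closure hw⟩ = QuotientGroup.mk (SU7.tau hF (fr.pt w)))
    (hzd : Commute z d) (hz : z * z = 1) :
    ∃ g : Cfsg.SU 6 F 2, g * g = 1 ∧ φ ⟨z, c.centraliser_member hd hzd⟩ = QuotientGroup.mk g ∧
      ∀ w ∈ TT.Nb D d, (Commute z w ↔ act g (fr.pt w) = fr.pt w) := by
  set Z : ↥(Subgroup.closure (TT.Nb D d)) := ⟨z, c.centraliser_member hd hzd⟩ with hZ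
  have h2 : φ Z * φ Z = 1 := by
    rw [← map_mul, show Z * Z = 1 from Subtype.ext hz, map_one]
  obtain ⟨s, hs⟩ := QuotientGroup.mk_surjective (φ Z)
  have hc : s * s ∈ Subgroup.center (Cfsg.SU 6 F 2) := by
    rw [← QuotientGroup.eq_one_iff, QuotientGroup.mk_mul, hs, h2]
  have hs2 : s ^ 3 * s ^ 3 = 1 := by
    rw [← su_center_three hF _ hc, ← pow_two s, ← pow_mul, ← pow_add]
  have hsq : φ Z = QuotientGroup.mk (s ^ 3) := by
    rw [QuotientGroup.mk_pow, hs, pow_succ, pow_two, h2, one_mul]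
  refine ⟨s ^ 3, hs2, hsq, fun w hw => ⟨fun hc => ?_, fun he => ?_⟩⟩
  · obtain ⟨l, hl, e⟩ := act_of_img c fr φ hφ Z hsq hw
    rw [hc.eq, mul_inv_cancel_right] at e
    have hgw : act (s ^ 3) (fr.pt w) = l⁻¹ • fr.pt w := by
      conv_rhs => rw [e]
      rw [smul_smul, inv_mul_cancel₀ hl, one_smul]
    have h := congrArg (act (s ^ 3)) hgw
    rw [← act_mul_apply, hs2, act_one, Module.End.one_apply, map_smul, hgw, smul_smul] at h
    have hl2 : l⁻¹ * l⁻¹ = 1 := by
      have h0 : (l⁻¹ * l⁻¹ - 1) • fr.pt w = 0 := by rw [sub_smul, one_smul, ← h, sub_self]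
      exact sub_eq_zero.1 ((smul_eq_zero.1 h0).resolve_right (fr.pt_ne w hw))
    have hl1 : l⁻¹ = 1 := by
      have h0 : (l⁻¹ + 1) * (l⁻¹ + 1) = 0 := by linear_combination hl2 + (l⁻¹ + 1) * SU7.two0 hF
      linear_combination mul_self_eq_zero.1 h0 - SU7.two0 hF
    rw [hgw, hl1, one_smul]
  · obtain ⟨l, -, e⟩ := act_of_img c fr φ hφ Z hsq hw
    rw [he] at e
    exact mul_inv_eq_iff_eq_mul.1
      (fr.inj w hw _ (nb_of_commute c.prim.cls (commute_of_mem_nbGroup Z.2) hw) ⟨l, e⟩)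

/-- An involution centralising the members of a plane lies in the group they generate. -/
theorem Ctx.centralizer_plane (c : Ctx hF D) {d z : G} (hd : d ∈ D) (fr : Frame hF D d) (B : HBasis hF)
    (hzd : Commute z d) (hz : z * z = 1) (hzP : ∀ p ∈ Plane fr B, Commute z p) :
    z ∈ Subgroup.closure (insert d (Plane fr B)) := by
  classical
  obtain ⟨φ, -, hφ⟩ := fr.img
  obtain ⟨g, hg, hφz, hiff⟩ := c.involution_lift hd fr φ hφ hzd hz
  have he : ∀ i, act g (B.e i) = B.e i := by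
    intro i
    have he0 : B.e i ≠ 0 := fun h => by
      have := B.ef i i; rw [if_pos rfl, h, ub_zero_left hF] at this; exact zero_ne_one this
    obtain ⟨w, hw, k, hk, hwk⟩ := fr.onto _ he0 (B.ee i i)
    have hP : w ∈ Plane fr B := ⟨hw, by rw [hwk, B.cy_smul]; funext j; simp [HBasis.cy, B.ee]⟩
    have h := (hiff w hw).1 (hzP w hP)
    rw [hwk, map_smul] at h
    exact smul_right_injective _ hk h
  obtain ⟨l, hl, -, hgl⟩ := SU7.involution_prod hF _ g hg le_rfl
  have hex : ∀ u ∈ l, ∃ w ∈ Plane fr B, SU7.tau hF (fr.pt w) = SU7.tau hF u := by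
    intro u hu
    obtain ⟨hu0, huu, hperp⟩ := hl u hu
    obtain ⟨w, hw, k, hk, hwk⟩ := fr.onto u hu0 huu
    refine ⟨w, ⟨hw, ?_⟩, by rw [hwk, SU7.tau_smul hF huu hk]⟩
    rw [hwk, B.cy_smul, show B.cy u = 0 from funext fun i => ub_eq_zero_symm hF (hperp _ (he i)), smul_zero]
  choose! w hw hwt using hex
  let W : ↥(Subgroup.closure (TT.Nb D d)) := (l.attach.map fun u =>
    (⟨w u.1, Subgroup.subset_closure (hw u.1 u.2).1⟩ : ↥(Subgroup.closure (TT.Nb D d)))).prod
  have hφW : φ W = QuotientGroup.mk g := by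
    rw [map_list_prod, List.map_map, hgl, ← QuotientGroup.mk'_apply, map_list_prod, List.map_map]
    conv_rhs => rw [← List.attach_map_subtype_val l, List.map_map]
    refine congrArg List.prod (List.map_congr_left fun u _ => ?_)
    show φ ⟨w u.1, _⟩ = QuotientGroup.mk (SU7.tau hF u.1)
    rw [hφ _ (hw u.1 u.2).1, hwt u.1 u.2]
  have hWmem : (W : G) ∈ Subgroup.closure (insert d (Plane fr B)) := by
    rw [Subgroup.val_list_prod]
    refine list_prod_mem fun v hv => ?_
    simp only [List.map_map, List.mem_map] at hv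
    obtain ⟨u, -, rfl⟩ := hv
    exact Subgroup.subset_closure (Or.inr (hw u.1 u.2))
  have hker : ∀ h : ↥(Subgroup.closure (TT.Nb D d)), φ h = 1 → (h : G) = 1 ∨ (h : G) = d := by
    intro h hh
    refine c.centraliser_nb hd (commute_of_mem_nbGroup h.2) fun v hv => ?_
    have hp := act_of_img c fr φ hφ h (g := 1) (by rw [hh]; rfl) hv
    rw [act_one, Module.End.one_apply] at hp
    obtain ⟨k, -, e⟩ := hp
    exact mul_inv_eq_iff_eq_mul.1
      (fr.inj v hv _ (nb_of_commute c.prim.cls (commute_of_mem_nbGroup h.2) hv) ⟨k, e⟩)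
  rcases hker (W⁻¹ * ⟨z, c.centraliser_member hd hzd⟩) (by rw [map_mul, map_inv, hφW, hφz, inv_mul_cancel])
    with h | h <;> simp only [Subgroup.coe_mul, Subgroup.coe_inv] at h
  · rw [← inv_mul_eq_one.1 h]; exact hWmem
  · rw [show z = (W : G) * d from inv_mul_eq_iff_eq_mul.1 h]
    exact mul_mem hWmem (Subgroup.subset_closure (Or.inl rfl))

/-- Commuting neighbours without an independent triple number at most five. -/
theorem nb_dependent_le {d : G} (fr : Frame hF D d) {T : Set G} (hT : T ⊆ TT.Nb D d)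
    (hdep : ¬ ∃ a ∈ T, ∃ b ∈ T, ∃ e ∈ T, SU7.Indep3 (fr.pt a) (fr.pt b) (fr.pt e)) : T.ncard ≤ 5 := by
  classical
  by_cases h2 : ∃ a ∈ T, ∃ b ∈ T, b ≠ a
  · obtain ⟨a, ha, b, hb, hba⟩ := h2
    have hex : ∀ t ∈ T, ∃ i j : F, fr.pt t = i • fr.pt a + j • fr.pt b := by
      intro t ht
      have hn : ¬ SU7.Indep3 (fr.pt a) (fr.pt b) (fr.pt t) := fun h => hdep ⟨a, ha, b, hb, t, ht, h⟩
      unfold SU7.Indep3 at hn
      push Not at hn
      obtain ⟨x, y, z, hxyz, hne⟩ := hn
      by_cases hz : z = 0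
      · exfalso
        rw [hz, zero_smul, add_zero] at hxyz
        by_cases hy : y = 0
        · rw [hy, zero_smul, add_zero] at hxyz
          exact hne ((smul_eq_zero.1 hxyz).resolve_right (fr.pt_ne a (hT ha))) hy hz
        · refine hba (fr.inj a (hT ha) b (hT hb) ⟨-(y⁻¹ * x), ?_⟩)
          have hs : y • fr.pt b = -x • fr.pt a := by linear_combination (norm := module) hxyz
          have hb' : fr.pt b = y⁻¹ • (y • fr.pt b) := by rw [smul_smul, inv_mul_cancel₀ hy, one_smul]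
          rw [hb', hs]
          module
      · refine ⟨-(z⁻¹ * x), -(z⁻¹ * y), ?_⟩
        have hs : z • fr.pt t = -x • fr.pt a + -y • fr.pt b := by linear_combination (norm := module) hxyz
        have : fr.pt t = z⁻¹ • (z • fr.pt t) := by rw [smul_smul, inv_mul_cancel₀ hz, one_smul]
        rw [this, hs]
        module
    choose! i j hij using hex
    have hinj : Nat.card (↥T × {m : F // m ≠ 0}) ≤ Nat.card (F × F) := by
      refine Nat.card_le_card_of_injective (fun s => (s.2.1 * i s.1, s.2.1 * j s.1)) ?_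
      rintro ⟨⟨p, hp⟩, ⟨m, hm⟩⟩ ⟨⟨q, hq⟩, ⟨m', hm'⟩⟩ e
      simp only [Prod.mk.injEq] at e
      have hmm : m • fr.pt p = m' • fr.pt q := by
        rw [hij p hp, hij q hq, smul_add, smul_add, smul_smul, smul_smul, smul_smul, smul_smul, e.1, e.2]
      have hpq : q = p := fr.inj p (hT hp) q (hT hq) ⟨m'⁻¹ * m, by
        rw [mul_smul, hmm, smul_smul, inv_mul_cancel₀ hm', one_smul]⟩
      subst hpq
      have hmm' : m = m' := smul_left_injective F (fr.pt_ne q (hT hq)) hmm
      subst hmm'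
      rfl
    rw [Nat.card_prod, card_units_field hF, Nat.card_prod, card_field hF, Nat.card_coe_set_eq] at hinj
    omega
  push Not at h2
  rcases T.eq_empty_or_nonempty with rfl | ⟨a, ha⟩
  · simp
  · rw [show T = {a} from Set.eq_singleton_iff_unique_mem.2 ⟨ha, fun b hb => h2 a ha b hb⟩,
      Set.ncard_singleton]
    norm_num

/-- An involution moving a member of a commuting set fixes at most six of them. -/
theorem Ctx.fixed_le_six (c : Ctx hF D) {S : Set G} (hS : S ⊆ D) (hc : ∀ a ∈ S, ∀ b ∈ S, Commute a b)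
    {z : G} (hz : z * z = 1) (hmove : ∃ b ∈ S, ¬ Commute z b) : {x | x ∈ S ∧ Commute z x}.ncard ≤ 6 := by
  classical
  set T0 := {x | x ∈ S ∧ Commute z x} with hT0
  rcases T0.eq_empty_or_nonempty with h | ⟨a, ha⟩
  · rw [h]; simp
  obtain ⟨fr⟩ := c.frame a (hS ha.1)
  obtain ⟨φ, -, hφ⟩ := fr.img
  obtain ⟨g, -, -, hiff⟩ := c.involution_lift (hS ha.1) fr φ hφ ha.2 hz
  have hsub : T0 \ {a} ⊆ TT.Nb D a := fun x hx => ⟨hS hx.1.1, hx.2, hc a ha.1 x hx.1.1⟩
  have h5 : (T0 \ {a}).ncard ≤ 5 := by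
    refine nb_dependent_le fr hsub ?_
    rintro ⟨p, hp, q, hq, r, hr, hi⟩
    obtain ⟨b, hb, hbz⟩ := hmove
    have hbn : b ∈ TT.Nb D a := ⟨hS hb, fun e => hbz (e ▸ ha.2), hc a ha.1 b hb⟩
    have hperp : ∀ u ∈ [p, q, r, b], ∀ v ∈ [p, q, r, b], ub hF (fr.pt u) (fr.pt v) = 0 := by
      have hall : ∀ u ∈ [p, q, r, b], u ∈ S ∧ u ∈ TT.Nb D a := by
        intro u hu
        simp only [List.mem_cons, List.not_mem_nil, or_false] at hu
        rcases hu with rfl | rfl | rfl | rfl
        exacts [⟨hp.1.1, hsub hp⟩, ⟨hq.1.1, hsub hq⟩, ⟨hr.1.1, hsub hr⟩, ⟨hb, hbn⟩]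
      exact fun u hu v hv => (fr.commute_iff u (hall u hu).2 v (hall v hv).2).1 (hc u (hall u hu).1 v (hall v hv).1)
    obtain ⟨i, j, k, hb'⟩ := mem_span_three hF hi (v := fr.pt b)
      (fun x hx y hy => by
        simp only [List.mem_cons, List.not_mem_nil, or_false] at hx hy
        rcases hx with rfl | rfl | rfl <;> rcases hy with rfl | rfl | rfl <;> apply hperp <;> simp)
      (fun x hx => by
        simp only [List.mem_cons, List.not_mem_nil, or_false] at hx
        rcases hx with rfl | rfl | rfl <;> apply hperp <;> simp)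
    refine hbz ((hiff b hbn).2 ?_)
    rw [hb', map_add, map_add, map_smul, map_smul, map_smul, (hiff p (hsub hp)).1 hp.1.2,
      (hiff q (hsub hq)).1 hq.1.2, (hiff r (hsub hr)).1 hr.1.2]
  rw [Set.ncard_sdiff_singleton_of_mem ha] at h5
  omega

end Cfsg.Agent.Core.M22
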