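import Cfsg.Agent.Forms.OrthBridge
import Cfsg.Agent.Forms.OrthGen

/-!
# First cohomology on natural modules of orthogonal groups over two elements

A basis of non-singular vectors with a tree as Gram graph gives reflections that generate the isometry
group.  A crossed homomorphism on the products of adjacent pairs is normalised edge by edge: the relation
`t³ = 1` and one relation `(t' t)² = 1` leave just a principal change, as certified by three matrices.
-/

set_option autoImplicit false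
set_option linter.style.haveILetI false

namespace Cfsg.Agent.Core.OrthCohomology

open Matrix Cfsg.Agent.Forms
open scoped commutatorElement

/-- A vector from its bits. -/
def vec {ι : Type} {n : ℕ} (e : ι ≃ Fin n) (c : ℕ) : ι → ZMod 2 :=
  fun i => if c.testBit (e i).val then 1 else 0

/-- A matrix from the bits of its rows. -/
def mat {ι : Type} {n : ℕ} (e : ι ≃ Fin n) (rows : List ℕ) : Matrix ι ι (ZMod 2) :=
  Matrix.of fun i j => if (rows.getD (e i).val 0).testBit (e j).val then 1 else 0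

/-- The bits of a vector. -/
def code {ι : Type} [Fintype ι] {n : ℕ} (e : ι ≃ Fin n) (u : ι → ZMod 2) : ℕ :=
  ∑ i, (u i).val * 2 ^ (e i).val

variable {ι : Type} [Fintype ι] [DecidableEq ι]

/-- The data of the normalisation. -/
structure Cert (Q : QuadraticForm (ZMod 2) (ι → ZMod 2)) (n : ℕ) where
  a : Fin (n + 1) → ι → ZMod 2
  R : Fin (n + 1) → Matrix ι ι (ZMod 2)
  p : Fin n → Fin (n + 1)
  j : Fin n → Fin n
  T : Fin n → Matrix ι ι (ZMod 2)
  L1 : Fin n → Matrix ι ι (ZMod 2)
  L2 : Fin n → Matrix ι ι (ZMod 2)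
  K : Fin n → Matrix ι ι (ZMod 2)
  hp : ∀ k, (p k).val ≤ k.val
  ha : ∀ i, Q (a i) = 1
  hR : ∀ i, Cfsg.reflectionMatrix (⇑Q) (a i) = R i
  hT : ∀ k, R (p k) * R k.succ = T k
  cube : ∀ k, T k * T k * T k = 1
  rel : ∀ k, L2 k = 0 ∨ (j k < k ∧ (T (j k) * T k) * (T (j k) * T k) = 1)
  cert : ∀ k, L1 k * (1 + T k + T k * T k) + L2 k * ((1 + T (j k) * T k) * T (j k)) + (1 + T k) * K k = 1
  kill : ∀ k i, i < k → (1 + T i) * K k = 0
  cover : ∀ u, Q u ≠ 0 → ∀ S : Set (ι → ZMod 2), a 0 ∈ S → (∀ g, ∀ v ∈ S, R g *ᵥ v ∈ S) → u ∈ S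

variable {Q : QuadraticForm (ZMod 2) (ι → ZMod 2)} {n : ℕ}

/-- The matrix of an isometry. -/
def mtx (g : Cfsg.isometryGroup (ZMod 2) ⇑Q) : Matrix ι ι (ZMod 2) :=
  ((g : Matrix.GeneralLinearGroup ι (ZMod 2)) : Matrix ι ι (ZMod 2))

theorem mtx_mul (g h : Cfsg.isometryGroup (ZMod 2) ⇑Q) : mtx (g * h) = mtx g * mtx h := rfl

theorem mtx_one : mtx (1 : Cfsg.isometryGroup (ZMod 2) ⇑Q) = 1 := rfl

theorem mtx_inj {g h : Cfsg.isometryGroup (ZMod 2) ⇑Q} (e : mtx g = mtx h) : g = h :=
  Subtype.ext (Units.ext e)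

/-- A reflection as an element of the matrix group. -/
noncomputable def refl (v : ι → ZMod 2) : Cfsg.isometryGroup (ZMod 2) ⇑Q :=
  (isometryEquiv Q).symm (reflection Q v)

theorem mtx_refl (v : ι → ZMod 2) : mtx (refl (Q := Q) v) = Cfsg.reflectionMatrix (⇑Q) v :=
  (eq_reflection_iff Q _ v).2 ((isometryEquiv Q).apply_symm_apply _)

theorem refl_mul_self (v : ι → ZMod 2) : refl (Q := Q) v * refl v = 1 := by
  rw [refl, ← map_mul, reflection_mul_self, map_one]

theorem refl_inv (v : ι → ZMod 2) : (refl (Q := Q) v)⁻¹ = refl v :=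
  inv_eq_of_mul_eq_one_left (refl_mul_self v)

theorem refl_conj (g : Cfsg.isometryGroup (ZMod 2) ⇑Q) (v : ι → ZMod 2) :
    g * refl v * g⁻¹ = refl (mtx g *ᵥ v) := by
  apply (isometryEquiv Q).injective
  rw [map_mul, map_mul, map_inv, refl, refl, MulEquiv.apply_symm_apply, MulEquiv.apply_symm_apply,
    conj_reflection, isometryEquiv_apply]
  rfl

theorem refl_mul_cancel (v : ι → ZMod 2) (x : Cfsg.isometryGroup (ZMod 2) ⇑Q) :
    refl v * (refl v * x) = x := by rw [← mul_assoc, refl_mul_self, one_mul]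

variable (C : Cert Q n)

/-- The simple reflections. -/
noncomputable def Cert.s (i : Fin (n + 1)) : Cfsg.isometryGroup (ZMod 2) ⇑Q := refl (C.a i)

/-- The products over the edges. -/
noncomputable def Cert.t (k : Fin n) : Cfsg.isometryGroup (ZMod 2) ⇑Q := C.s (C.p k) * C.s k.succ

theorem Cert.mtx_s (i : Fin (n + 1)) : mtx (C.s i) = C.R i := (mtx_refl _).trans (C.hR i)

theorem Cert.mtx_t (k : Fin n) : mtx (C.t k) = C.T k := by
  rw [Cert.t, mtx_mul, C.mtx_s, C.mtx_s, C.hT]

theorem Cert.t_mem_omega (k : Fin n) : C.t k ∈ Cfsg.Omega (ZMod 2) ⇑Q := by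
  have h3 : C.t k * C.t k * C.t k = 1 := mtx_inj (by rw [mtx_mul, mtx_mul, C.mtx_t, mtx_one, C.cube])
  have h2 : C.t k * C.t k = ⁅C.s (C.p k), C.s k.succ⁆ := by
    rw [commutatorElement_def, Cert.s, Cert.s, refl_inv, refl_inv]
    simp only [Cert.t, Cert.s, mul_assoc]
  have h4 : C.t k = (C.t k * C.t k) * (C.t k * C.t k) := by
    rw [← mul_assoc (C.t k * C.t k), h3, one_mul]
  rw [h4, h2, Cfsg.Omega, commutator_def]
  exact mul_mem (Subgroup.commutator_mem_commutator (Subgroup.mem_top _) (Subgroup.mem_top _))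
    (Subgroup.commutator_mem_commutator (Subgroup.mem_top _) (Subgroup.mem_top _))

/-- The group of the edge products. -/
noncomputable def Cert.E : Subgroup (Cfsg.isometryGroup (ZMod 2) ⇑Q) := Subgroup.closure (Set.range C.t)

theorem Cert.pair_zero : ∀ i : Fin (n + 1), C.s 0 * C.s i ∈ C.E := by
  intro i
  induction hm : i.val using Nat.strong_induction_on generalizing i with
  | _ m ih =>
    rcases Fin.eq_zero_or_eq_succ i with rfl | ⟨k, rfl⟩
    · rw [Cert.s, refl_mul_self]; exact one_mem _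
    · have h1 := ih (C.p k).val (by have := C.hp k; simp at hm; omega) (C.p k) rfl
      have h2 : C.t k ∈ C.E := Subgroup.subset_closure ⟨k, rfl⟩
      have := mul_mem h1 h2
      rw [Cert.t] at this
      simpa [mul_assoc, Cert.s, refl_mul_cancel] using this

theorem Cert.pair (i j : Fin (n + 1)) : C.s i * C.s j ∈ C.E := by
  have := mul_mem (inv_mem (C.pair_zero i)) (C.pair_zero j)
  simpa [mul_assoc, _root_.mul_inv_rev, Cert.s, refl_inv, ← mul_assoc (refl (C.a 0)) (refl (C.a 0)),
    refl_mul_self] using this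

theorem Cert.closure_s (hgen : Subgroup.closure (reflectionSet Q) = ⊤) :
    Subgroup.closure (Set.range C.s) = ⊤ := by
  have hrefl : ∀ v, Q v ≠ 0 → refl v ∈ Subgroup.closure (Set.range C.s) := fun v hv =>
    C.cover v hv {u | refl u ∈ Subgroup.closure (Set.range C.s)} (Subgroup.subset_closure ⟨0, rfl⟩)
      fun g u hu => by
        show refl (Q := Q) (C.R g *ᵥ u) ∈ Subgroup.closure (Set.range C.s)
        rw [← C.mtx_s, ← refl_conj]
        have hs : C.s g ∈ Subgroup.closure (Set.range C.s) := Subgroup.subset_closure ⟨g, rfl⟩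
        exact mul_mem (mul_mem hs hu) (inv_mem hs)
  rw [eq_top_iff]
  intro g _
  have hle : Subgroup.closure (reflectionSet Q) ≤
      (Subgroup.closure (Set.range C.s)).map (isometryEquiv Q).toMonoidHom := by
    rw [Subgroup.closure_le]
    rintro _ ⟨v, hv, rfl⟩
    exact ⟨refl v, hrefl v hv, (isometryEquiv Q).apply_symm_apply _⟩
  rw [hgen] at hle
  obtain ⟨x, hx, e⟩ := hle (Subgroup.mem_top (isometryEquiv Q g))
  rwa [(isometryEquiv Q).injective e] at hx

theorem Cert.omega_le (hgen : Subgroup.closure (reflectionSet Q) = ⊤) :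
    Cfsg.Omega (ZMod 2) ⇑Q ≤ C.E := by
  have hnorm : ∀ g : Cfsg.isometryGroup (ZMod 2) ⇑Q, ∀ x ∈ C.E, g * x * g⁻¹ ∈ C.E := by
    intro g
    have hg : g ∈ Subgroup.closure (Set.range C.s) := by rw [C.closure_s hgen]; trivial
    induction hg using Subgroup.closure_induction with
    | mem r hr =>
      obtain ⟨i, rfl⟩ := hr
      intro x hx
      induction hx using Subgroup.closure_induction with
      | mem y hy =>
        obtain ⟨k, rfl⟩ := hy
        have := mul_mem (C.pair i (C.p k)) (C.pair k.succ i)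
        simpa [Cert.t, mul_assoc, Cert.s, refl_inv] using this
      | one => simp
      | mul y z _ _ hy hz => simpa [conj_mul] using mul_mem hy hz
      | inv y _ hy => simpa [conj_inv, mul_assoc] using inv_mem hy
    | one => intro x hx; simpa using hx
    | mul a b _ _ ha hb =>
      intro x hx
      simpa [mul_assoc, _root_.mul_inv_rev] using ha _ (hb x hx)
    | inv a _ ha =>
      intro x hx
      -- a finite group: the conjugation by `a` permutes `C.E`
      have hfin : Finite C.E := inferInstance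
      let φ : C.E → C.E := fun y => ⟨a * y * a⁻¹, ha y y.2⟩
      have hφ : Function.Injective φ := fun y z e => Subtype.ext (by
        simpa [φ] using congrArg Subtype.val e)
      obtain ⟨y, hy⟩ := (Finite.injective_iff_surjective.1 hφ) ⟨x, hx⟩
      have hyx : a * y * a⁻¹ = x := congrArg Subtype.val hy
      rw [← hyx]
      simp [mul_assoc]
  haveI hN : C.E.Normal := ⟨fun x hx g => hnorm g x hx⟩
  have hcases : ∀ g : Cfsg.isometryGroup (ZMod 2) ⇑Q, QuotientGroup.mk' C.E g = 1 ∨
      QuotientGroup.mk' C.E g = QuotientGroup.mk' C.E (C.s 0) := by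
    intro g
    have hg : g ∈ Subgroup.closure (Set.range C.s) := by rw [C.closure_s hgen]; trivial
    have h00 : QuotientGroup.mk' C.E (C.s 0) * QuotientGroup.mk' C.E (C.s 0) = 1 := by
      rw [← map_mul, Cert.s, refl_mul_self, map_one]
    have h00' := inv_eq_of_mul_eq_one_left h00
    induction hg using Subgroup.closure_induction with
    | mem r hr =>
      obtain ⟨i, rfl⟩ := hr
      right
      have h1 : QuotientGroup.mk' C.E (C.s 0 * C.s i) = 1 :=
        (QuotientGroup.eq_one_iff _).2 (C.pair_zero i)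
      rw [map_mul] at h1
      rw [eq_inv_of_mul_eq_one_right h1, h00']
    | one => exact Or.inl (map_one _)
    | mul a b _ _ ha hb =>
      rw [map_mul]
      rcases ha with h | h <;> rcases hb with h' | h' <;> rw [h, h']
      · exact Or.inl (one_mul 1)
      · exact Or.inr (one_mul _)
      · exact Or.inr (mul_one _)
      · exact Or.inl h00
    | inv a _ ha =>
      rw [map_inv]
      rcases ha with h | h <;> rw [h]
      · exact Or.inl inv_one
      · exact Or.inr h00'
  rw [Cfsg.Omega, commutator_def, Subgroup.commutator_le]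
  intro g _ h _
  rw [← QuotientGroup.eq_one_iff, ← QuotientGroup.mk'_apply, map_commutatorElement,
    commutatorElement_eq_one_iff_mul_comm]
  rcases hcases g with e | e <;> rcases hcases h with e' | e' <;> rw [e, e'] <;> simp

omit [Fintype ι] [DecidableEq ι] C in
theorem add_self_zero (v : ι → ZMod 2) : v + v = 0 := funext fun i => CharTwo.add_self_eq_zero (v i)

/-- The first cohomology vanishes. -/
theorem Cert.principal (C : Cert Q n) (hgen : Subgroup.closure (reflectionSet Q) = ⊤)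
    (f : ↥(Cfsg.Omega (ZMod 2) ⇑Q) → ι → ZMod 2)
    (hf : ∀ g h : ↥(Cfsg.Omega (ZMod 2) ⇑Q), f (g * h) = f g + mtx g.1 *ᵥ f h) :
    ∃ v : ι → ZMod 2, ∀ g : ↥(Cfsg.Omega (ZMod 2) ⇑Q), f g = mtx g.1 *ᵥ v - v := by
  let τ : Fin n → ↥(Cfsg.Omega (ZMod 2) ⇑Q) := fun k => ⟨C.t k, C.t_mem_omega k⟩
  have hτ : ∀ k, mtx (τ k).1 = C.T k := C.mtx_t
  have f1 : f 1 = 0 := by
    have h := hf 1 1
    rw [one_mul, Subgroup.coe_one, mtx_one, one_mulVec] at h
    simpa using h
  have step : ∀ m : ℕ, ∃ v : ι → ZMod 2, ∀ k : Fin n, k.val < m → f (τ k) = C.T k *ᵥ v - v := by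
    intro m
    induction m with
    | zero => exact ⟨0, fun k hk => absurd hk (Nat.not_lt_zero _)⟩
    | succ m ih =>
      obtain ⟨v, hv⟩ := ih
      by_cases hm : m < n
      swap
      · exact ⟨v, fun k _ => hv k (by omega)⟩
      obtain ⟨k, rfl⟩ : ∃ k : Fin n, k.val = m := ⟨⟨m, hm⟩, rfl⟩
      set u := f (τ k) + (C.T k *ᵥ v + v) with hu
      have hfg : f (τ k) = u + (C.T k *ᵥ v + v) := by rw [hu, add_assoc, add_self_zero, add_zero]
      have e1 : (1 + C.T k + C.T k * C.T k) *ᵥ u = 0 := by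
        have h3 : τ k * τ k * τ k = 1 := Subtype.ext (mtx_inj (by
          rw [Subgroup.coe_mul, Subgroup.coe_mul, mtx_mul, mtx_mul, hτ, Subgroup.coe_one, mtx_one, C.cube]))
        have h := congrArg f h3
        rw [hf, hf, f1, Subgroup.coe_mul, mtx_mul, hτ] at h
        have hc : C.T k *ᵥ (C.T k *ᵥ (C.T k *ᵥ v)) = v := by
          rw [mulVec_mulVec, mulVec_mulVec, C.cube, one_mulVec]
        rw [hu, add_mulVec, add_mulVec, one_mulVec, ← mulVec_mulVec]
        rw [← mulVec_mulVec] at h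
        simp only [mulVec_add, hc]
        calc _ = (f (τ k) + C.T k *ᵥ f (τ k) + C.T k *ᵥ (C.T k *ᵥ f (τ k))) + ((C.T k *ᵥ v + C.T k *ᵥ v) +
              (C.T k *ᵥ (C.T k *ᵥ v) + C.T k *ᵥ (C.T k *ᵥ v)) + (v + v)) := by abel
          _ = 0 := by rw [h]; simp [add_self_zero]
      have e2 : C.L2 k *ᵥ (((1 + C.T (C.j k) * C.T k) * C.T (C.j k)) *ᵥ u) = 0 := by
        rcases C.rel k with h0 | ⟨hlt, hrel⟩
        · rw [h0, zero_mulVec]
        have hj := hv (C.j k) hlt
        set x := τ (C.j k) * τ k with hx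
        have hxm : mtx x.1 = C.T (C.j k) * C.T k := by rw [hx, Subgroup.coe_mul, mtx_mul, hτ, hτ]
        have hx2 : x * x = 1 := Subtype.ext (mtx_inj (by
          rw [Subgroup.coe_mul, mtx_mul, hxm, Subgroup.coe_one, mtx_one, hrel]))
        have h := congrArg f hx2
        rw [hf, hxm, f1] at h
        set X := C.T (C.j k) * C.T k with hX
        have hxx : X *ᵥ (X *ᵥ v) = v := by rw [mulVec_mulVec, hrel, one_mulVec]
        have hfx : f x = C.T (C.j k) *ᵥ u + (X *ᵥ v + v) := by
          rw [hx, hf, hτ, hj, hfg, hX, ← mulVec_mulVec]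
          simp only [mulVec_add, sub_eq_add_neg, show -v = v from neg_eq_of_add_eq_zero_left (add_self_zero v)]
          calc _ = C.T (C.j k) *ᵥ u + (C.T (C.j k) *ᵥ (C.T k *ᵥ v) + v) +
                (C.T (C.j k) *ᵥ v + C.T (C.j k) *ᵥ v) := by abel
            _ = _ := by rw [add_self_zero, add_zero]
        rw [hfx] at h
        simp only [mulVec_add, hxx] at h
        have : ((1 + X) * C.T (C.j k)) *ᵥ u = 0 := by
          rw [← mulVec_mulVec, add_mulVec, one_mulVec]
          calc C.T (C.j k) *ᵥ u + X *ᵥ (C.T (C.j k) *ᵥ u) =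
                (C.T (C.j k) *ᵥ u + X *ᵥ (C.T (C.j k) *ᵥ u)) + ((X *ᵥ v + X *ᵥ v) + (v + v)) := by
                simp [add_self_zero]
            _ = C.T (C.j k) *ᵥ u + (X *ᵥ v + v) + (X *ᵥ (C.T (C.j k) *ᵥ u) + (v + X *ᵥ v)) := by abel
            _ = 0 := h
        rw [this, mulVec_zero]
      have e3 : (1 + C.T k) *ᵥ (C.K k *ᵥ u) = u := by
        have h := congrArg (fun M : Matrix ι ι (ZMod 2) => M *ᵥ u) (C.cert k)
        simp only [one_mulVec] at h
        rw [add_mulVec, add_mulVec, ← mulVec_mulVec, ← mulVec_mulVec u (C.L2 k), e1, e2, mulVec_zero,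
          zero_add, zero_add, ← mulVec_mulVec] at h
        exact h
      refine ⟨v + C.K k *ᵥ u, fun i hi => ?_⟩
      rcases Nat.lt_succ_iff_lt_or_eq.1 hi with h | h
      · have hz : (1 + C.T i) *ᵥ (C.K k *ᵥ u) = 0 := by
          rw [mulVec_mulVec, C.kill k i (Fin.lt_def.2 h), zero_mulVec]
        rw [add_mulVec, one_mulVec] at hz
        rw [hv i h, mulVec_add, show C.T i *ᵥ (C.K k *ᵥ u) = C.K k *ᵥ u from ?_]
        · abel
        · calc _ = (C.K k *ᵥ u + C.T i *ᵥ (C.K k *ᵥ u)) + C.K k *ᵥ u := by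
                rw [add_comm (C.K k *ᵥ u), add_assoc, add_self_zero, add_zero]
            _ = _ := by rw [hz, zero_add]
      · obtain rfl : i = k := Fin.ext h
        rw [add_mulVec, one_mulVec] at e3
        have hn : ∀ w : ι → ZMod 2, -w = w := fun w => neg_eq_of_add_eq_zero_left (add_self_zero w)
        rw [hfg, mulVec_add, sub_eq_add_neg, hn]
        revert e3
        generalize C.K i *ᵥ u = w
        intro e3
        rw [← e3]
        abel
  obtain ⟨v, hv⟩ := step n
  refine ⟨v, fun g => ?_⟩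
  let Z : Subgroup ↥(Cfsg.Omega (ZMod 2) ⇑Q) :=
    { carrier := {g | f g = mtx g.1 *ᵥ v - v}
      one_mem' := by
        show f 1 = _
        rw [f1, Subgroup.coe_one, mtx_one, one_mulVec, sub_self]
      mul_mem' := fun {a b} ha hb => by
        show f (a * b) = _
        rw [hf, show f a = _ from ha, show f b = _ from hb, Subgroup.coe_mul, mtx_mul, ← mulVec_mulVec,
          mulVec_sub]
        abel
      inv_mem' := fun {a} ha => by
        show f a⁻¹ = _
        have h := hf a⁻¹ a
        have hone : mtx (a⁻¹).1 * mtx a.1 = 1 := by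
          rw [← mtx_mul, ← Subgroup.coe_mul, inv_mul_cancel, Subgroup.coe_one, mtx_one]
        rw [inv_mul_cancel, f1, show f a = _ from ha, mulVec_sub, mulVec_mulVec, hone, one_mulVec] at h
        rw [eq_neg_of_add_eq_zero_left h.symm, neg_sub] }
  have hE : C.E ≤ Z.map (Cfsg.Omega (ZMod 2) ⇑Q).subtype := by
    rw [Cert.E, Subgroup.closure_le]
    rintro _ ⟨k, rfl⟩
    exact ⟨τ k, (hv k k.2).trans (by rw [hτ]), rfl⟩
  obtain ⟨g', hg', e⟩ := hE (C.omega_le hgen g.2)
  obtain rfl : g' = g := Subtype.ext e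
  exact hg'

omit C in
/-- Reaching every non-singular vector along a list. -/
theorem cover_of_list {m : ℕ} (e : ι ≃ Fin m) (a0 : ι → ZMod 2) (R : Fin (n + 1) → Matrix ι ι (ZMod 2))
    (L : List (ℕ × ℕ × ℕ))
    (hL : ∀ t : Fin L.length, vec e (L.get t).1 = if t.val = 0 then a0 else
      R (Fin.ofNat (n + 1) (L.get t).2.1) *ᵥ vec e (L.getD (L.get t).2.2 (0, 0, 0)).1)
    (hP : ∀ t : Fin L.length, t.val ≠ 0 → (L.get t).2.2 < t.val)
    (hcode : ∀ u, vec e (code e u) = u)
    (q : (ι → ZMod 2) → ZMod 2) (hcov : ∀ u, q u ≠ 0 → code e u ∈ L.map Prod.fst)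
    (u : ι → ZMod 2) (hu : q u ≠ 0) (S : Set (ι → ZMod 2)) (h0 : a0 ∈ S)
    (hS : ∀ g, ∀ v ∈ S, R g *ᵥ v ∈ S) : u ∈ S := by
  have key : ∀ (t : ℕ) (ht : t < L.length), vec e (L.get ⟨t, ht⟩).1 ∈ S := by
    intro t
    induction t using Nat.strong_induction_on with
    | _ t ih =>
      intro ht
      rw [hL ⟨t, ht⟩]
      split_ifs with h
      · exact h0
      · have hlt := hP ⟨t, ht⟩ h
        have hlen : (L.get ⟨t, ht⟩).2.2 < L.length := lt_trans hlt ht
        refine hS _ _ ?_
        rw [List.getD_eq_getElem _ _ hlen]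
        exact ih _ hlt hlen
  obtain ⟨x, hx, hxu⟩ := List.mem_map.1 (hcov u hu)
  obtain ⟨t, rfl⟩ := List.get_of_mem hx
  have := key t.1 t.2
  rwa [hxu, hcode] at this

end Cfsg.Agent.Core.OrthCohomology
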