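/-
Core library: core-free maximal subgroups and primitive solvable groups.
-/
import Cfsg.Agent.Core.Frattini
import Cfsg.Agent.Core.SchurZassenhaus
import Mathlib.GroupTheory.GroupAction.Primitive

set_option linter.style.haveILetI false
set_option linter.unusedSectionVars false

namespace Cfsg.Agent.Core

open Cfsg
open scoped Pointwise

variable {G : Type*} [Group G] {U : Subgroup G}

theorem eq_bot_of_normal_le (hc : U.normalCore = ⊥) {K : Subgroup G} (hK : K.Normal)
    (h : K ≤ U) : K = ⊥ :=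
  le_bot_iff.mp (hc ▸ Subgroup.normal_le_normalCore.mpr h)

theorem normal_sup_eq_top (hU : IsCoatom U) (hc : U.normalCore = ⊥) {K : Subgroup G}
    (hK : K.Normal) (h : K ≠ ⊥) : K ⊔ U = ⊤ :=
  sup_eq_top_of_coatom hU fun hle => h (eq_bot_of_normal_le hc hK hle)

theorem centralizer_inf_eq_bot (hU : IsCoatom U) (hc : U.normalCore = ⊥) {N : Subgroup G}
    [hN : N.Normal] (h : N ≠ ⊥) : Subgroup.centralizer (N : Set G) ⊓ U = ⊥ := by
  refine eq_bot_of_normal_le hc ?_ inf_le_right
  rw [← Subgroup.normalizer_eq_top_iff, eq_top_iff, ← normal_sup_eq_top hU hc hN h]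
  refine sup_le ?_ ?_
  · refine le_trans ?_ (Subgroup.centralizer_le_normalizer _)
    exact (Subgroup.le_centralizer_iff.mp le_rfl).trans
      (Subgroup.centralizer_le fun x hx => hx.1)
  · exact (le_inf ((Subgroup.normalizer_eq_top (H := Subgroup.centralizer (N : Set G))).symm ▸ le_top)
      Subgroup.le_normalizer).trans Subgroup.inf_normalizer_le_normalizer_inf

theorem eq_centralizer_of_normal_le (hU : IsCoatom U) (hc : U.normalCore = ⊥) {N : Subgroup G}
    [N.Normal] (hN : N ≠ ⊥) {K : Subgroup G} (hK : K.Normal)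
    (hle : K ≤ Subgroup.centralizer (N : Set G)) (hne : K ≠ ⊥) :
    K = Subgroup.centralizer (N : Set G) := by
  refine le_antisymm hle fun x hx => ?_
  haveI := hK
  have hm : x ∈ K ⊔ U := by rw [normal_sup_eq_top hU hc hK hne]; exact Subgroup.mem_top x
  rw [← SetLike.mem_coe, Subgroup.normal_mul] at hm
  obtain ⟨k, hk, u, hu, rfl⟩ := hm
  have hu' : u ∈ Subgroup.centralizer (N : Set G) ⊓ U := by
    refine ⟨?_, hu⟩
    have := Subgroup.mul_mem _ (Subgroup.inv_mem _ (hle hk)) hx
    rwa [inv_mul_cancel_left] at this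
  rw [centralizer_inf_eq_bot hU hc hN, Subgroup.mem_bot] at hu'
  simpa [hu'] using hk

theorem centralizer_minimal (hU : IsCoatom U) (hc : U.normalCore = ⊥) {N : Subgroup G}
    [N.Normal] (hN : N ≠ ⊥) (K : Subgroup G) (hK : K.Normal)
    (hle : K ≤ Subgroup.centralizer (N : Set G)) :
    K = ⊥ ∨ K = Subgroup.centralizer (N : Set G) :=
  (em (K = ⊥)).imp id (eq_centralizer_of_normal_le hU hc hN hK hle)

/-- An abelian normal subgroup `≠ 1` is self-centralising and complemented by `U`. -/
theorem centralizer_eq_self_of_abelian (hU : IsCoatom U) (hc : U.normalCore = ⊥) {N : Subgroup G}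
    [hN : N.Normal] [IsMulCommutative N] (h : N ≠ ⊥) :
    Subgroup.centralizer (N : Set G) = N :=
  (eq_centralizer_of_normal_le hU hc h hN
    (Subgroup.le_centralizer_iff_isMulCommutative.mpr ‹_›) h).symm

theorem isComplement'_of_abelian (hU : IsCoatom U) (hc : U.normalCore = ⊥) {N : Subgroup G}
    [hN : N.Normal] [IsMulCommutative N] (h : N ≠ ⊥) : Subgroup.IsComplement' N U := by
  refine isComplement'_of_inf_eq_bot_of_sup_eq_top ?_ (normal_sup_eq_top hU hc hN h)
  have := centralizer_inf_eq_bot hU hc h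
  rwa [centralizer_eq_self_of_abelian hU hc h] at this

theorem eq_bot_or_eq_of_le_normalizer (hU : IsCoatom U) (hc : U.normalCore = ⊥) {N : Subgroup G}
    [hN : N.Normal] [IsMulCommutative N] (h : N ≠ ⊥) {K : Subgroup G} (hK : K ≤ N)
    (hKU : U ≤ Subgroup.normalizer (K : Set G)) : K = ⊥ ∨ K = N := by
  have hKn : K.Normal := by
    rw [← Subgroup.normalizer_eq_top_iff, eq_top_iff, ← normal_sup_eq_top hU hc hN h]
    exact sup_le (((Subgroup.le_centralizer_iff_isMulCommutative.mpr ‹_›).trans
      (Subgroup.centralizer_le (s := (K : Set G)) hK)).trans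
      (Subgroup.centralizer_le_normalizer _)) hKU
  refine (em (K = ⊥)).imp id fun hne => ?_
  rw [← centralizer_eq_self_of_abelian hU hc h]
  exact eq_centralizer_of_normal_le hU hc h hKn
    (hK.trans (Subgroup.le_centralizer_iff_isMulCommutative.mpr ‹_›)) hne

/-- In a finite solvable group two core-free maximal subgroups are conjugate. -/
theorem exists_conj_eq_of_coreFree [Finite G] [Group.IsSolvable G] {V : Subgroup G}
    (hU : IsCoatom U) (hV : IsCoatom V) (hUc : U.normalCore = ⊥) (hVc : V.normalCore = ⊥) :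
    ∃ g : G, MulAut.conj g • U = V := by
  haveI : Nontrivial G :=
    not_subsingleton_iff_nontrivial.mp fun _ => hU.1 (Subsingleton.elim _ _)
  obtain ⟨N, hN⟩ := exists_isMinNormal (G := G)
  obtain ⟨hc, p, hp, -, hpN⟩ := hN.elementaryAbelian_of_isSolvable
  haveI := Fact.mk hp
  haveI := hN.1
  haveI := hc
  have hcU := isComplement'_of_abelian hU hUc hN.2.1
  have hcV := isComplement'_of_abelian hV hVc hN.2.1
  have hCN := centralizer_eq_self_of_abelian hU hUc hN.2.1
  rcases eq_or_ne N ⊤ with rfl | hNtop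
  · have hU0 := hcU.disjoint.eq_bot
    have hV0 := hcV.disjoint.eq_bot
    rw [top_inf_eq] at hU0 hV0
    exact ⟨1, by rw [map_one, one_smul, hU0, hV0]⟩
  haveI : Nontrivial (G ⧸ N) := QuotientGroup.nontrivial_iff.mpr hNtop
  obtain ⟨M', hM'⟩ := exists_isMinNormal (G := G ⧸ N)
  obtain ⟨-, q, hq, -, hqM⟩ := hM'.elementaryAbelian_of_isSolvable
  haveI := Fact.mk hq
  let M : Subgroup G := M'.comap (QuotientGroup.mk' N)
  haveI hMn : M.Normal := hM'.1.comap _
  have hNM : N ≤ M := (QuotientGroup.ker_mk' N).ge.trans (MonoidHom.ker_le_comap _ M')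
  obtain ⟨k, hk⟩ := IsPGroup.iff_card.mp hqM
  obtain ⟨j, hj⟩ := IsPGroup.iff_card.mp hpN
  have hMcard : Nat.card M = q ^ k * p ^ j := by rw [card_comap_mk, hk, hj]
  have hpq : p ≠ q := by
    rintro rfl
    have hMp : IsPGroup p M := IsPGroup.of_card (n := k + j) (by rw [hMcard, pow_add])
    have hMF : M ≤ fittingSubgroup G := le_fittingSubgroup hMn hMp.isNilpotent
    have hMN : M ≤ N := hCN ▸ hMF.trans hN.fittingSubgroup_le_centralizer
    refine hM'.2.1 ?_
    rw [← Subgroup.map_comap_eq_self_of_surjective (QuotientGroup.mk'_surjective N) M',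
      Subgroup.map_eq_bot_iff, QuotientGroup.ker_mk']
    exact hMN
  let N' : Subgroup M := N.subgroupOf M
  have hidx : N'.index = q ^ k := by
    have h1 := N'.index_mul_card
    rw [card_subgroupOf hNM, hMcard, hj] at h1
    exact Nat.eq_of_mul_eq_mul_right (pow_pos hp.pos j) h1
  have hcop : (Nat.card N').Coprime N'.index := by
    rw [hidx, card_subgroupOf hNM, hj]
    exact Nat.coprime_pow_primes j k hp hq hpq
  have htrace : ∀ W : Subgroup G, Subgroup.IsComplement' N W →
      Nat.card ((W ⊓ M).subgroupOf M) = N'.index := by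
    intro W hW
    rw [card_subgroupOf inf_le_right, hidx, ← hk]
    rw [← card_map_of_inf_eq_bot (QuotientGroup.mk' N) (H := W ⊓ M) (by
      rw [QuotientGroup.ker_mk', ← le_bot_iff, ← hW.disjoint.eq_bot, inf_comm N W]
      exact inf_le_inf_right _ inf_le_left)]
    have : (W ⊓ M).map (QuotientGroup.mk' N) = M' := by
      refine le_antisymm (Subgroup.map_le_iff_le_comap.mpr inf_le_right) fun x hx => ?_
      obtain ⟨g, rfl⟩ := QuotientGroup.mk'_surjective N x
      obtain ⟨⟨⟨n, hn⟩, ⟨w, hw⟩⟩, rfl⟩ := hW.surjective g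
      refine ⟨w, ⟨hw, ?_⟩, ?_⟩
      · have := M.mul_mem (M.inv_mem (hNM hn)) hx
        rwa [inv_mul_cancel_left] at this
      · simp [(QuotientGroup.eq_one_iff n).mpr hn]
    rw [this]
  obtain ⟨m, -, hm⟩ := exists_conj_eq_of_coprime hcop (Or.inl inferInstance)
    (htrace U hcU) (htrace V hcV)
  have hm' := congrArg (Subgroup.map M.subtype) hm
  rw [map_conj_smul, Subgroup.subgroupOf_map_subtype, Subgroup.subgroupOf_map_subtype,
    inf_assoc, inf_idem, inf_assoc, inf_idem, Subgroup.smul_inf, conj_smul_normal _ M] at hm'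
  refine ⟨(m : G), ?_⟩
  let U' : Subgroup G := MulAut.conj (m : G) • U
  let Q : Subgroup G := V ⊓ M
  have hU'Q : U' ⊓ M = Q := hm'
  have hnorm : ∀ S : Subgroup G, S ≤ Subgroup.normalizer ((S ⊓ M : Subgroup G) : Set G) :=
    fun S => (le_inf Subgroup.le_normalizer
      ((Subgroup.normalizer_eq_top (H := M)).symm ▸ le_top)).trans
        Subgroup.inf_normalizer_le_normalizer_inf
  have hQne : Q ≠ ⊥ := by
    intro h0
    have := htrace V hcV
    rw [card_subgroupOf inf_le_right, hidx] at this
    change Nat.card Q = _ at this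
    rw [h0, Subgroup.card_bot] at this
    rw [← this] at hk
    exact hM'.2.1 (Subgroup.card_eq_one.mp hk)
  have hVQ : V ≤ Subgroup.normalizer (Q : Set G) := hnorm V
  have hU'le : U' ≤ Subgroup.normalizer (Q : Set G) := hU'Q ▸ hnorm U'
  rcases hV.le_iff.mp hVQ with h | h
  · exact absurd (eq_bot_of_normal_le hVc (Subgroup.normalizer_eq_top_iff.mp h) inf_le_left) hQne
  · refine Subgroup.eq_of_le_of_card_ge (h ▸ hU'le) ?_
    rw [card_conj_smul, card_eq_index_of_isComplement' hcU, card_eq_index_of_isComplement' hcV]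

section Action

variable {Ω : Type*} [MulAction G Ω] [FaithfulSMul G Ω]

theorem nontrivial_of_faithful_of_ne_bot {M : Subgroup G} (hM : M ≠ ⊥) : Nontrivial Ω := by
  by_contra h
  rw [not_nontrivial_iff_subsingleton] at h
  exact hM (Subgroup.eq_bot_iff_forall _ |>.mpr fun g _ =>
    FaithfulSMul.eq_of_smul_eq_smul (α := Ω) fun a => Subsingleton.elim _ _)

theorem normalCore_stabilizer_eq_bot [MulAction.IsPretransitive G Ω] (ω : Ω) :
    (MulAction.stabilizer G ω).normalCore = ⊥ := by
  rw [eq_bot_iff]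
  intro g hg
  rw [Subgroup.mem_bot]
  refine FaithfulSMul.eq_of_smul_eq_smul (α := Ω) fun x => ?_
  obtain ⟨h, rfl⟩ := MulAction.exists_smul_eq G ω x
  have h1 : h⁻¹ * g * h ∈ MulAction.stabilizer G ω := by
    have := Subgroup.normalCore_le _ ((inferInstance : (MulAction.stabilizer G ω).normalCore.Normal).conj_mem g hg h⁻¹)
    simpa using this
  rw [MulAction.mem_stabilizer_iff, mul_smul, mul_smul, inv_smul_eq_iff] at h1
  rw [one_smul, h1]

end Action

end Cfsg.Agent.Core
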