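/-
The Siegel transvection groups of a hyperbolic quadratic space form a set of root subgroups.
-/
import Cfsg.Agent.Fischer.SL2Pair
import Cfsg.Agent.Fischer.RootMember
import Cfsg.Agent.Core.SympRootGroups

set_option autoImplicit false
set_option linter.unusedSectionVars false
set_option linter.unusedSimpArgs false
set_option linter.style.haveILetI false

namespace Cfsg.Agent.Core.Siegel

open Matrix
open scoped commutatorElement

universe u

variable {n : ℕ} {F : Type u} [Field F]

local notation "V" => (Fin n ⊕ Fin n → F)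
local notation "Q" => Cfsg.quadFormPlus n F
local notation "O" => Cfsg.isometryGroup F (Cfsg.quadFormPlus n F)
local notation "SL2" => Matrix.SpecialLinearGroup (Fin 2) F

/-- The polar form. -/
def B (x y : Fin n ⊕ Fin n → F) : F := ∑ i : Fin n, (x (.inl i) * y (.inr i) + x (.inr i) * y (.inl i))

theorem B_comm (x y : V) : B x y = B y x := Finset.sum_congr rfl fun i _ => by ring

theorem B_add_left (x y z : V) : B (x + y) z = B x z + B y z := by
  simp only [B, ← Finset.sum_add_distrib, Pi.add_apply]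
  exact Finset.sum_congr rfl fun i _ => by ring

theorem B_add_right (x y z : V) : B x (y + z) = B x y + B x z := by
  rw [B_comm, B_add_left, B_comm y, B_comm z]

theorem B_smul_left (c : F) (x z : V) : B (c • x) z = c * B x z := by
  simp only [B, Finset.mul_sum, Pi.smul_apply, smul_eq_mul]
  exact Finset.sum_congr rfl fun i _ => by ring

theorem B_smul_right (c : F) (x z : V) : B x (c • z) = c * B x z := by
  rw [B_comm, B_smul_left, B_comm]

theorem B_sub_left (x y z : V) : B (x - y) z = B x z - B y z := by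
  rw [eq_sub_iff_add_eq, ← B_add_left, sub_add_cancel]

theorem B_sub_right (x y z : V) : B x (y - z) = B x y - B x z := by
  rw [B_comm, B_sub_left, B_comm y, B_comm z]

theorem Q_add (x y : V) : Q (x + y) = Q x + Q y + B x y := by
  simp only [Cfsg.quadFormPlus, B, ← Finset.sum_add_distrib, Pi.add_apply]
  exact Finset.sum_congr rfl fun i _ => by ring

theorem Q_smul (c : F) (x : V) : Q (c • x) = c ^ 2 * Q x := by
  simp only [Cfsg.quadFormPlus, Finset.mul_sum, Pi.smul_apply, smul_eq_mul]
  exact Finset.sum_congr rfl fun i _ => by ring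

theorem polar_eq (x y : V) : Q (x + y) - Q x - Q y = B x y := by rw [Q_add]; ring

theorem B_zero_left (x : V) : B 0 x = 0 := by simp [B]

theorem B_self (x : V) : B x x = 2 * Q x := by
  simp only [Cfsg.quadFormPlus, B, Finset.mul_sum]
  exact Finset.sum_congr rfl fun i _ => by ring

theorem B_self_zero {x : V} (h : Q x = 0) : B x x = 0 := by rw [B_self, h, mul_zero]

theorem B_single (j : Fin n ⊕ Fin n) (x : V) : B (Pi.single j 1) x = x j.swap := by
  rcases j with j | j <;> simp [B, Pi.single_apply]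

theorem Q_single (j : Fin n ⊕ Fin n) : Q (Pi.single j 1 : V) = 0 := by
  rcases j with j | j <;> simp [Cfsg.quadFormPlus, Pi.single_apply]

theorem eq_zero_of_B {u : V} (h : ∀ x, B u x = 0) : u = 0 := by
  funext j
  have := h (Pi.single j.swap 1)
  rwa [B_comm, B_single, Sum.swap_swap] at this

/-- The action of an isometry. -/
def ap (g : O) (x : V) : V :=
  ((g : Matrix.GeneralLinearGroup (Fin n ⊕ Fin n) F) : Matrix (Fin n ⊕ Fin n) (Fin n ⊕ Fin n) F) *ᵥ x

theorem ap_mul (g h : O) (x : V) : ap (g * h) x = ap g (ap h x) := by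
  simp [ap, Matrix.mulVec_mulVec]

theorem ap_one (x : V) : ap (1 : O) x = x := by simp [ap]

theorem ap_add (g : O) (x y : V) : ap g (x + y) = ap g x + ap g y := Matrix.mulVec_add _ _ _

theorem ap_sub (g : O) (x y : V) : ap g (x - y) = ap g x - ap g y := Matrix.mulVec_sub _ _ _

theorem ap_smul (g : O) (c : F) (x : V) : ap g (c • x) = c • ap g x := Matrix.mulVec_smul _ _ _

theorem Q_ap (g : O) (x : V) : Q (ap g x) = Q x := g.2 x x

theorem B_ap (g : O) (x y : V) : B (ap g x) (ap g y) = B x y := by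
  rw [← polar_eq, ← polar_eq, ← ap_add, Q_ap, Q_ap, Q_ap]

theorem ap_inv (g : O) (x : V) : ap g (ap g⁻¹ x) = x := by rw [← ap_mul, mul_inv_cancel, ap_one]

theorem ap_inv' (g : O) (x : V) : ap g⁻¹ (ap g x) = x := by rw [← ap_mul, inv_mul_cancel, ap_one]

theorem B_ap_left (g : O) (x y : V) : B (ap g x) y = B x (ap g⁻¹ y) := by
  rw [← B_ap g x, ap_inv]

theorem O_ext {g h : O} (e : ∀ x, ap g x = ap h x) : g = h :=
  Subtype.ext (Units.ext (Matrix.toLin'.injective (LinearMap.ext fun x => e x)))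

/-- A basis of a totally singular line. -/
structure IsLine (p r : Fin n ⊕ Fin n → F) : Prop where
  li : LinearIndependent F ![p, r]
  qp : Cfsg.quadFormPlus n F p = 0
  qr : Cfsg.quadFormPlus n F r = 0
  bpr : B p r = 0

theorem isLine_iff {p r : V} : IsLine p r ↔
    LinearIndependent F ![p, r] ∧ Q p = 0 ∧ Q r = 0 ∧ Q (p + r) = 0 := by
  constructor
  · rintro ⟨h1, h2, h3, h4⟩
    exact ⟨h1, h2, h3, by rw [Q_add, h2, h3, h4]; simp⟩
  · rintro ⟨h1, h2, h3, h4⟩
    refine ⟨h1, h2, h3, ?_⟩
    rw [Q_add, h2, h3] at h4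
    simpa using h4

theorem li_iff {p r : V} :
    LinearIndependent F ![p, r] ↔ ∀ a b : F, a • p + b • r = 0 → a = 0 ∧ b = 0 :=
  LinearIndependent.pair_iff

theorem IsLine.symm {p r : V} (h : IsLine p r) : IsLine r p :=
  ⟨li_iff.2 fun a b e => (li_iff.1 h.li b a (by rw [add_comm]; exact e)).symm, h.qr, h.qp,
    by rw [B_comm]; exact h.bpr⟩

theorem IsLine.map {p r : V} (h : IsLine p r) (g : O) : IsLine (ap g p) (ap g r) :=
  ⟨li_iff.2 fun a b e => li_iff.1 h.li a b (by
      rw [← ap_inv' g (a • p + b • r), ap_add, ap_smul, ap_smul, e]; simp [ap]),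
    by rw [Q_ap, h.qp], by rw [Q_ap, h.qr], by rw [B_ap, h.bpr]⟩

/-- A change of basis of a line. -/
theorem IsLine.change {p r : V} (h : IsLine p r) {a b c d : F} (hd : a * d - b * c ≠ 0) :
    IsLine (a • p + b • r) (c • p + d • r) := by
  refine ⟨li_iff.2 fun x y e => ?_, ?_, ?_, ?_⟩
  · obtain ⟨e1, e2⟩ := li_iff.1 h.li (x * a + y * c) (x * b + y * d) (by rw [← e]; module)
    constructor
    · exact (mul_eq_zero.1 (show x * (a * d - b * c) = 0 by linear_combination d * e1 - c * e2)).resolve_right hd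
    · exact (mul_eq_zero.1 (show y * (a * d - b * c) = 0 by linear_combination a * e2 - b * e1)).resolve_right hd
  · simp only [Q_add, Q_smul, B_smul_left, B_smul_right, h.qp, h.qr, h.bpr]; ring
  · simp only [Q_add, Q_smul, B_smul_left, B_smul_right, h.qp, h.qr, h.bpr]; ring
  · simp only [B_add_left, B_add_right, B_smul_left, B_smul_right, B_self_zero h.qp, B_self_zero h.qr,
      h.bpr, B_comm r p]
    ring

theorem exists_dual {p r : V} (h : LinearIndependent F ![p, r]) (a b : F) : ∃ x : V, B p x = a ∧ B r x = b := by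
  let φ : V →ₗ[F] F × F :=
    { toFun := fun x => (B p x, B r x)
      map_add' := fun x y => by simp [B_add_right]
      map_smul' := fun c x => by simp [B_smul_right] }
  suffices hs : LinearMap.range φ = ⊤ by
    obtain ⟨x, hx⟩ := (hs ▸ Submodule.mem_top : (a, b) ∈ LinearMap.range φ)
    exact ⟨x, congrArg Prod.fst hx, congrArg Prod.snd hx⟩
  by_contra hne
  obtain ⟨f, hf0, hf⟩ := Submodule.exists_le_ker_of_lt_top _ (lt_top_iff_ne_top.2 hne)
  have hval : ∀ x : F × F, f x = x.1 * f (1, 0) + x.2 * f (0, 1) := fun x => by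
    have : x = x.1 • ((1, 0) : F × F) + x.2 • ((0, 1) : F × F) := by
      refine Prod.ext ?_ ?_ <;> simp
    conv_lhs => rw [this]
    rw [map_add, map_smul, map_smul, smul_eq_mul, smul_eq_mul]
  have hz : f (1, 0) • p + f (0, 1) • r = 0 := eq_zero_of_B fun x => by
    have : f (φ x) = 0 := LinearMap.mem_ker.1 (hf ⟨x, rfl⟩)
    rw [hval] at this
    rw [B_add_left, B_smul_left, B_smul_left]
    linear_combination this
  obtain ⟨e1, e2⟩ := li_iff.1 h _ _ hz
  exact hf0 (LinearMap.ext fun x => by simp [hval x, e1, e2])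

/-- The fixers of the perp of a pair of vectors. -/
def X (p r : Fin n ⊕ Fin n → F) : Subgroup (Cfsg.isometryGroup F (Cfsg.quadFormPlus n F)) where
  carrier := {g | ∀ v, B p v = 0 → B r v = 0 → ap g v = v}
  one_mem' := fun v _ _ => ap_one v
  mul_mem' := fun {g h} hg hh v h1 h2 => by rw [ap_mul, hh v h1 h2, hg v h1 h2]
  inv_mem' := fun {g} hg v h1 h2 => by
    conv_lhs => rw [← hg v h1 h2]
    exact ap_inv' g v

theorem X_symm (p r : V) : X r p = X p r := by
  ext g; exact ⟨fun h v h1 h2 => h v h2 h1, fun h v h1 h2 => h v h2 h1⟩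

theorem X_change (p r : V) {a b c d : F} (hd : a * d - b * c ≠ 0) :
    X (a • p + b • r) (c • p + d • r) = X p r := by
  have key : ∀ v, (B (a • p + b • r) v = 0 ∧ B (c • p + d • r) v = 0) ↔ (B p v = 0 ∧ B r v = 0) := by
    intro v
    simp only [B_add_left, B_smul_left]
    refine ⟨fun ⟨e1, e2⟩ => ⟨?_, ?_⟩, fun ⟨e1, e2⟩ => ⟨by rw [e1, e2]; ring, by rw [e1, e2]; ring⟩⟩
    · exact (mul_eq_zero.1 (show (a * d - b * c) * B p v = 0 by linear_combination d * e1 - b * e2)).resolve_left hd
    · exact (mul_eq_zero.1 (show (a * d - b * c) * B r v = 0 by linear_combination a * e2 - c * e1)).resolve_left hd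
  ext g
  exact ⟨fun h v h1 h2 => h v ((key v).2 ⟨h1, h2⟩).1 ((key v).2 ⟨h1, h2⟩).2,
    fun h v h1 h2 => h v ((key v).1 ⟨h1, h2⟩).1 ((key v).1 ⟨h1, h2⟩).2⟩

theorem conj_X (g : O) (p r : V) : Cfsg.conjBy (X p r) g = X (ap g p) (ap g r) := by
  ext σ
  rw [Fischer.mem_cb]
  constructor
  · intro h v h1 h2
    rw [B_ap_left] at h1 h2
    have := congrArg (ap g) (h _ h1 h2)
    simp only [ap_mul, ap_inv] at this
    exact this
  · intro h v h1 h2
    rw [ap_mul, ap_mul, h (ap g v) (by rw [B_ap, h1]) (by rw [B_ap, h2]), ap_inv']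

/-- The Siegel transformation as a linear map. -/
def emap (p r : Fin n ⊕ Fin n → F) (c : F) : (Fin n ⊕ Fin n → F) →ₗ[F] (Fin n ⊕ Fin n → F) where
  toFun x := x + c • (B r x • p - B p x • r)
  map_add' x y := by simp only [B_add_right]; module
  map_smul' a x := by simp only [B_smul_right, RingHom.id_apply]; module

theorem emap_apply (p r : V) (c : F) (x : V) : emap p r c x = x + c • (B r x • p - B p x • r) := rfl

theorem emap_add {p r : V} (h : IsLine p r) (a b : F) (x : V) :
    emap p r a (emap p r b x) = emap p r (a + b) x := by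
  simp only [emap_apply, B_add_right, B_sub_right, B_smul_right, B_self_zero h.qp, B_self_zero h.qr,
    h.bpr, B_comm r p]
  module

theorem emap_zero (p r : V) (x : V) : emap p r 0 x = x := by simp [emap_apply]

theorem emap_Q {p r : V} (h : IsLine p r) (c : F) (x : V) : Q (emap p r c x) = Q x := by
  simp only [emap_apply, sub_eq_add_neg, ← neg_smul, Q_add, Q_smul, B_smul_right, B_smul_left, B_add_right,
    h.qp, h.qr, h.bpr, B_comm x p, B_comm x r]
  ring

/-- The Siegel transvection. -/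
noncomputable def E {p r : Fin n ⊕ Fin n → F} (h : IsLine p r) (c : F) :
    Cfsg.isometryGroup F (Cfsg.quadFormPlus n F) :=
  ⟨⟨LinearMap.toMatrix' (emap p r c), LinearMap.toMatrix' (emap p r (-c)),
      Matrix.toLin'.injective (LinearMap.ext fun x => by
        rw [Matrix.toLin'_mul, LinearMap.comp_apply, Matrix.toLin'_toMatrix', Matrix.toLin'_toMatrix',
          emap_add h, add_neg_cancel, emap_zero, Matrix.toLin'_one, LinearMap.id_apply]),
      Matrix.toLin'.injective (LinearMap.ext fun x => by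
        rw [Matrix.toLin'_mul, LinearMap.comp_apply, Matrix.toLin'_toMatrix', Matrix.toLin'_toMatrix',
          emap_add h, neg_add_cancel, emap_zero, Matrix.toLin'_one, LinearMap.id_apply])⟩,
    fun u v => by
      show Q ((LinearMap.toMatrix' (emap p r c)) *ᵥ u) = Q u
      rw [LinearMap.toMatrix'_mulVec, emap_Q h]⟩

theorem E_ap {p r : V} (h : IsLine p r) (c : F) (x : V) :
    ap (E h c) x = x + c • (B r x • p - B p x • r) := by
  show (LinearMap.toMatrix' (emap p r c)) *ᵥ x = _
  rw [LinearMap.toMatrix'_mulVec, emap_apply]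

theorem E_add {p r : V} (h : IsLine p r) (a b : F) : E h a * E h b = E h (a + b) := O_ext fun x => by
  rw [ap_mul, E_ap, E_ap, E_ap]; exact emap_add h a b x

theorem E_zero {p r : V} (h : IsLine p r) : E h 0 = 1 := O_ext fun x => by
  rw [E_ap, ap_one]; simp

theorem E_inv {p r : V} (h : IsLine p r) (a : F) : (E h a)⁻¹ = E h (-a) :=
  inv_eq_of_mul_eq_one_right (by rw [E_add, add_neg_cancel, E_zero])

theorem E_mem {p r : V} (h : IsLine p r) (c : F) : E h c ∈ X p r := fun v h1 h2 => by
  rw [E_ap, h1, h2]; simp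

theorem mem_X {p r : V} (h : IsLine p r) {g : O} : g ∈ X p r ↔ ∃ c, g = E h c := by
  refine ⟨fun hg => ?_, fun ⟨c, hc⟩ => hc ▸ E_mem h c⟩
  obtain ⟨p', hp1, hp2⟩ := exists_dual h.li 1 0
  obtain ⟨r', hr1, hr2⟩ := exists_dual h.li 0 1
  set u := ap g p' - p' with hu
  set w := ap g r' - r' with hw
  have hfix : ∀ v, B p v = 0 → B r v = 0 → ap g v = v := hg
  have hperp : ∀ y : V, ∀ v, B p v = 0 → B r v = 0 → B (ap g y - y) v = 0 := fun y v h1 h2 => by
    rw [B_sub_left, sub_eq_zero]
    conv_lhs => rw [← hfix v h1 h2]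
    rw [B_ap]
  have hspan : ∀ y : V, ap g y - y = B (ap g y - y) p' • p + B (ap g y - y) r' • r := by
    intro y
    rw [← sub_eq_zero]
    refine eq_zero_of_B fun x => ?_
    set v := x - B p x • p' - B r x • r' with hv
    have h1 : B p v = 0 := by rw [hv]; simp [B_sub_right, B_smul_right, hp1, hr1]
    have h2 : B r v = 0 := by rw [hv]; simp [B_sub_right, B_smul_right, hp2, hr2]
    have h0 := hperp y v h1 h2
    rw [hv, B_sub_right, B_sub_right, B_smul_right, B_smul_right] at h0
    simp only [B_sub_left, B_add_left, B_smul_left]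
    simp only [B_sub_left] at h0 ⊢
    linear_combination h0
  have hu' := hspan p'
  have hw' := hspan r'
  rw [← hu] at hu'
  rw [← hw] at hw'
  have qu : Q u = 0 := by
    rw [hu']; simp [Q_add, Q_smul, B_smul_left, B_smul_right, h.qp, h.qr, h.bpr]
  have qw : Q w = 0 := by
    rw [hw']; simp [Q_add, Q_smul, B_smul_left, B_smul_right, h.qp, h.qr, h.bpr]
  have e1 : B p' u = 0 := by
    have := Q_ap g p'
    rw [show ap g p' = p' + u by rw [hu]; abel, Q_add, qu] at this
    simpa using this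
  have e2 : B r' w = 0 := by
    have := Q_ap g r'
    rw [show ap g r' = r' + w by rw [hw]; abel, Q_add, qw] at this
    simpa using this
  have e3 : B u r' + B p' w = 0 := by
    have := B_ap g p' r'
    rw [show ap g p' = p' + u by rw [hu]; abel, show ap g r' = r' + w by rw [hw]; abel, B_add_left,
      B_add_right, B_add_right] at this
    have huw : B u w = 0 := by
      rw [hu', hw']
      simp [B_add_left, B_add_right, B_smul_left, B_smul_right, B_self_zero h.qp, B_self_zero h.qr, h.bpr,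
        B_comm r p]
    rw [huw] at this
    linear_combination this
  refine ⟨B w p', O_ext fun x => ?_⟩
  rw [E_ap]
  set v := x - B p x • p' - B r x • r' with hv
  have h1 : B p v = 0 := by rw [hv]; simp [B_sub_right, B_smul_right, hp1, hr1]
  have h2 : B r v = 0 := by rw [hv]; simp [B_sub_right, B_smul_right, hp2, hr2]
  have hx : x = v + B p x • p' + B r x • r' := by rw [hv]; abel
  have : ap g x = x + B p x • u + B r x • w := by
    conv_lhs => rw [hx]
    rw [ap_add, ap_add, ap_smul, ap_smul, hfix v h1 h2, hv, hu, hw]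
    module
  rw [B_comm u p', e1, zero_smul, zero_add] at hu'
  rw [B_comm w r', e2, zero_smul, add_zero] at hw'
  have hneg : B u r' = - B w p' := by rw [B_comm w p']; linear_combination e3
  rw [this]
  generalize B w p' = β at hw' hneg
  generalize B u r' = α at hu' hneg
  rw [hu', hw', hneg]
  module

theorem X_ne_bot {p r : V} (h : IsLine p r) : X p r ≠ ⊥ := by
  intro e
  obtain ⟨x, hx1, hx2⟩ := exists_dual h.li 0 1
  have h1 : E h 1 = 1 := Subgroup.mem_bot.1 (e ▸ E_mem h 1)
  have h2 := E_ap h 1 x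
  rw [h1, ap_one, hx1, hx2] at h2
  have h3 : p = 0 := by simpa using h2
  exact one_ne_zero (li_iff.1 h.li 1 0 (by simp [h3])).1

theorem X_comm {p r : V} (h : IsLine p r) : IsMulCommutative (X p r) := by
  refine ⟨⟨fun a b => ?_⟩⟩
  obtain ⟨c, hc⟩ := (mem_X h).1 a.2
  obtain ⟨d, hd⟩ := (mem_X h).1 b.2
  exact Subtype.ext (show (a : O) * b = b * a by rw [hc, hd, E_add, E_add, add_comm])

theorem E_conj {p r : V} (h : IsLine p r) (g : O) (c : F) :
    g * E h c * g⁻¹ = E (h.map g) c := O_ext fun x => by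
  rw [ap_mul, ap_mul, E_ap, E_ap, B_ap_left, B_ap_left, ap_add, ap_smul, ap_sub, ap_smul, ap_smul, ap_inv]

/-! ### The three cases -/

theorem case_zero {p r s t : V} (h : IsLine p r) (h' : IsLine s t) (h1 : B p s = 0) (h2 : B p t = 0)
    (h3 : B r s = 0) (h4 : B r t = 0) : ⁅X p r, X s t⁆ = ⊥ := by
  refine Fischer.bot_of_commute fun a ha b hb => ?_
  obtain ⟨c, rfl⟩ := (mem_X h).1 ha
  obtain ⟨d, rfl⟩ := (mem_X h').1 hb
  have key : E h c * E h' d * (E h c)⁻¹ = E h' d := by
    rw [E_conj]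
    refine O_ext fun x => ?_
    have e1 : ap (E h c) s = s := by rw [E_ap, h1, h3]; simp
    have e2 : ap (E h c) t = t := by rw [E_ap, h2, h4]; simp
    rw [E_ap (h'.map _), e1, e2, E_ap]
  exact mul_inv_eq_iff_eq_mul.1 key

/-- The action of SL₂ attached to two opposite lines. -/
def act (p r s t : Fin n ⊕ Fin n → F) (g : Matrix.SpecialLinearGroup (Fin 2) F) :
    (Fin n ⊕ Fin n → F) →ₗ[F] (Fin n ⊕ Fin n → F) where
  toFun x := x + ((g.1 0 0 - 1) * B s x + g.1 0 1 * B r x) • p + (g.1 1 0 * B s x + (g.1 1 1 - 1) * B r x) • t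
    + ((g.1 0 0 - 1) * B t x - g.1 0 1 * B p x) • r + (-g.1 1 0 * B t x + (g.1 1 1 - 1) * B p x) • s
  map_add' x y := by simp only [B_add_right]; module
  map_smul' a x := by simp only [B_smul_right, RingHom.id_apply]; module

structure Opp (p r s t : Fin n ⊕ Fin n → F) : Prop where
  left : IsLine p r
  right : IsLine s t
  ps : B p s = 1
  pt : B p t = 0
  rs : B r s = 0
  rt : B r t = 1

theorem act_apply (p r s t : V) (g : SL2) (x : V) : act p r s t g x =
    x + ((g.1 0 0 - 1) * B s x + g.1 0 1 * B r x) • p + (g.1 1 0 * B s x + (g.1 1 1 - 1) * B r x) • t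
    + ((g.1 0 0 - 1) * B t x - g.1 0 1 * B p x) • r + (-g.1 1 0 * B t x + (g.1 1 1 - 1) * B p x) • s := rfl

theorem act_mul {p r s t : V} (h : Opp p r s t) (g g' : SL2) (x : V) :
    act p r s t (g * g') x = act p r s t g (act p r s t g' x) := by
  simp only [act_apply, Matrix.SpecialLinearGroup.coe_mul, Matrix.mul_apply, Fin.sum_univ_two, B_add_right,
    B_smul_right, B_self_zero h.left.qp, B_self_zero h.left.qr, B_self_zero h.right.qp,
    B_self_zero h.right.qr, h.left.bpr, h.right.bpr, h.ps, h.pt, h.rs, h.rt, B_comm r p, B_comm s p,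
    B_comm t p, B_comm s r, B_comm t r, B_comm t s]
  module

theorem act_one (p r s t : V) (x : V) : act p r s t 1 x = x := by simp [act_apply]

theorem act_Q {p r s t : V} (h : Opp p r s t) (g : SL2) (x : V) : Q (act p r s t g x) = Q x := by
  have hd : g.1 0 0 * g.1 1 1 - g.1 0 1 * g.1 1 0 = 1 := by rw [← Matrix.det_fin_two]; exact g.2
  simp only [act_apply, Q_add, Q_smul, B_add_left, B_smul_left, B_smul_right, h.left.qp, h.left.qr,
    h.right.qp, h.right.qr, h.left.bpr, h.right.bpr, h.ps, h.pt, h.rs, h.rt, B_comm s r, B_comm t p,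
    B_comm t r, B_comm t s, B_comm s p, B_comm x p, B_comm x r, B_comm x s, B_comm x t]
  linear_combination (B s x * B p x + B t x * B r x) * hd

/-- The homomorphism from SL₂ attached to two opposite lines. -/
noncomputable def hom {p r s t : Fin n ⊕ Fin n → F} (h : Opp p r s t) :
    Matrix.SpecialLinearGroup (Fin 2) F →* Cfsg.isometryGroup F (Cfsg.quadFormPlus n F) where
  toFun g := ⟨⟨LinearMap.toMatrix' (act p r s t g), LinearMap.toMatrix' (act p r s t g⁻¹),
      Matrix.toLin'.injective (LinearMap.ext fun x => by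
        rw [Matrix.toLin'_mul, LinearMap.comp_apply, Matrix.toLin'_toMatrix', Matrix.toLin'_toMatrix',
          ← act_mul h, mul_inv_cancel, act_one, Matrix.toLin'_one, LinearMap.id_apply]),
      Matrix.toLin'.injective (LinearMap.ext fun x => by
        rw [Matrix.toLin'_mul, LinearMap.comp_apply, Matrix.toLin'_toMatrix', Matrix.toLin'_toMatrix',
          ← act_mul h, inv_mul_cancel, act_one, Matrix.toLin'_one, LinearMap.id_apply])⟩,
    fun u v => by
      show Q ((LinearMap.toMatrix' (act p r s t g)) *ᵥ u) = Q u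
      rw [LinearMap.toMatrix'_mulVec, act_Q h]⟩
  map_one' := O_ext fun x => by
    show (LinearMap.toMatrix' (act p r s t 1)) *ᵥ x = _
    rw [LinearMap.toMatrix'_mulVec, act_one, ap_one]
  map_mul' g g' := O_ext fun x => by
    rw [ap_mul]
    show (LinearMap.toMatrix' (act p r s t (g * g'))) *ᵥ x =
      (LinearMap.toMatrix' (act p r s t g)) *ᵥ ((LinearMap.toMatrix' (act p r s t g')) *ᵥ x)
    rw [LinearMap.toMatrix'_mulVec, LinearMap.toMatrix'_mulVec, LinearMap.toMatrix'_mulVec, act_mul h]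

theorem hom_ap {p r s t : V} (h : Opp p r s t) (g : SL2) (x : V) :
    ap (hom h g) x = act p r s t g x := LinearMap.toMatrix'_mulVec _ x

theorem hom_slU {p r s t : V} (h : Opp p r s t) (c : F) : hom h (Fischer.slU c) = E h.left c :=
  O_ext fun x => by
    rw [hom_ap, act_apply, E_ap]
    simp [Fischer.slU_coe]
    module

theorem hom_slL {p r s t : V} (h : Opp p r s t) (c : F) : hom h (Fischer.slL c) = E h.right (-c) :=
  O_ext fun x => by
    rw [hom_ap, act_apply, E_ap]
    simp [Fischer.slL_coe]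
    module

theorem hom_injective {p r s t : V} (h : Opp p r s t) : Function.Injective (hom h) := by
  refine (injective_iff_map_eq_one (hom h)).2 fun g hg => ?_
  have e1 := congrArg (B s) (hom_ap h g p)
  have e2 := congrArg (B r) (hom_ap h g p)
  have e3 := congrArg (B s) (hom_ap h g t)
  have e4 := congrArg (B r) (hom_ap h g t)
  rw [hg, ap_one] at e1 e2 e3 e4
  simp only [act_apply, B_add_right, B_smul_right, B_self_zero h.left.qp, B_self_zero h.left.qr,
    B_self_zero h.right.qp, B_self_zero h.right.qr, h.left.bpr, h.right.bpr, h.ps, h.pt, h.rs, h.rt,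
    B_comm r p, B_comm s p, B_comm t p, B_comm s r, B_comm t r, B_comm t s] at e1 e2 e3 e4
  ring_nf at e1 e2 e3 e4
  ext i j
  fin_cases i <;> fin_cases j <;> simp <;> first | exact e1.symm | exact e2.symm | exact e3.symm | exact e4.symm

theorem map_upper {p r s t : V} (h : Opp p r s t) :
    (Cfsg.upperUnipotentSL2 F).map (hom h) = X p r := by
  ext g
  constructor
  · rintro ⟨_, hg, rfl⟩
    obtain ⟨c, rfl⟩ := Fischer.mem_upper.1 hg
    rw [hom_slU]; exact E_mem _ _
  · intro hg
    obtain ⟨c, rfl⟩ := (mem_X h.left).1 hg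
    exact ⟨Fischer.slU c, Fischer.mem_upper.2 ⟨_, rfl⟩, hom_slU h c⟩

theorem map_lower {p r s t : V} (h : Opp p r s t) :
    (Cfsg.lowerUnipotentSL2 F).map (hom h) = X s t := by
  ext g
  constructor
  · rintro ⟨_, hg, rfl⟩
    obtain ⟨c, rfl⟩ := Fischer.mem_lower.1 hg
    rw [hom_slL]; exact E_mem _ _
  · intro hg
    obtain ⟨c, rfl⟩ := (mem_X h.right).1 hg
    exact ⟨Fischer.slL (-c), Fischer.mem_lower.2 ⟨_, rfl⟩, by rw [hom_slL, neg_neg]⟩

/-- An injective image of `SL₂` gives a rank one pair over the field. -/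
theorem pair_of_hom {G : Type*} [Group G] (φ : SL2 →* G) (hφ : Function.Injective φ) :
    Cfsg.IsRankOnePair ((Cfsg.upperUnipotentSL2 F).map φ) ((Cfsg.lowerUnipotentSL2 F).map φ) ∧
      Cfsg.IsPSL2PairOver F ((Cfsg.upperUnipotentSL2 F).map φ) ((Cfsg.lowerUnipotentSL2 F).map φ) := by
  refine ⟨SympRootGroups.map_rankOne φ hφ (Cfsg.RankOnePair_symm Fischer.sl2_pair), φ, ?_, ?_, rfl, rfl⟩
  · rw [← Subgroup.map_sup, sup_comm, Fischer.sl2_sup, MonoidHom.range_eq_map]
  · rw [(MonoidHom.ker_eq_bot_iff _).2 hφ]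
    exact bot_le

/-- The determinant of the pairing of two lines. -/
def det (p r s t : Fin n ⊕ Fin n → F) : F := B p s * B r t - B p t * B r s

theorem exists_opp {p r s t : V} (h : IsLine p r) (h' : IsLine s t) (hd : det p r s t ≠ 0) :
    ∃ s' t', Opp p r s' t' ∧ X s' t' = X s t := by
  set D := det p r s t with hD
  have hdet : (D⁻¹ * B r t) * (D⁻¹ * B p s) - (-(D⁻¹ * B r s)) * (-(D⁻¹ * B p t)) ≠ 0 := by
    have : (D⁻¹ * B r t) * (D⁻¹ * B p s) - (-(D⁻¹ * B r s)) * (-(D⁻¹ * B p t)) = D⁻¹ * (D⁻¹ * D) := by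
      rw [hD, det]; ring
    rw [this, inv_mul_cancel₀ hd, mul_one]
    exact inv_ne_zero hd
  refine ⟨_, _, ⟨h, h'.change hdet, ?_, ?_, ?_, ?_⟩, X_change s t hdet⟩
  all_goals simp only [B_add_right, B_smul_right]
  · rw [← inv_mul_cancel₀ hd]; simp only [hD, det]; ring
  · ring
  · ring
  · rw [← inv_mul_cancel₀ hd]; simp only [hD, det]; ring

theorem pair_of_det {p r s t : V} (h : IsLine p r) (h' : IsLine s t) (hd : det p r s t ≠ 0) :
    Cfsg.IsRankOnePair (X p r) (X s t) := by
  obtain ⟨s', t', ho, e⟩ := exists_opp h h' hd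
  rw [← e, ← map_upper ho, ← map_lower ho]
  exact (pair_of_hom _ (hom_injective ho)).1

/-- The root set. -/
def rootSet (n : ℕ) (F : Type u) [Field F] : Set (Subgroup (Cfsg.isometryGroup F (Cfsg.quadFormPlus n F))) :=
  {A | ∃ p r : Fin n ⊕ Fin n → F, IsLine p r ∧ A = X p r}

theorem conj_mem {A : Subgroup O} (hA : A ∈ rootSet n F) (g : O) : Cfsg.conjBy A g ∈ rootSet n F := by
  obtain ⟨p, r, h, rfl⟩ := hA
  exact ⟨_, _, h.map g, conj_X g p r⟩

theorem case_rank_one {p r s t : V} (h : IsLine p r) (h' : IsLine s t) (h1 : B p s = 1) (h2 : B p t = 0)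
    (h3 : B r s = 0) (h4 : B r t = 0) :
    ⁅X p r, X s t⁆ = ⊥ ∨ Cfsg.RootCommutatorCase (rootSet n F) (X p r) (X s t) := by
  have hcom : ∀ c d : F, ∀ x : V, ap (E h c * E h' d * (E h c)⁻¹ * (E h' d)⁻¹) x =
      x + (-(c * d)) • (B t x • r - B r x • t) := by
    intro c d x
    rw [E_conj, E_inv h', ap_mul, E_ap, E_ap]
    have e1 : ap (E h c) s = s - c • r := by rw [E_ap, h1, h3]; module
    have e2 : ap (E h c) t = t := by rw [E_ap, h2, h4]; simp
    rw [e1, e2]
    simp only [B_sub_left, B_smul_left, B_add_right, B_sub_right, B_smul_right, B_self_zero h.qr,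
      B_self_zero h'.qp, B_self_zero h'.qr, h'.bpr, h3, h4, B_comm t r, B_comm s r, B_comm t s]
    module
  by_cases hli : LinearIndependent F ![r, t]
  · right
    have hrt : IsLine r t := ⟨hli, h.qr, h'.qr, h4⟩
    have hE : ∀ c d : F, E h c * E h' d * (E h c)⁻¹ * (E h' d)⁻¹ = E hrt (-(c * d)) := fun c d =>
      O_ext fun x => by rw [hcom, E_ap]
    have hC : ⁅X p r, X s t⁆ = X r t := by
      refine le_antisymm (Subgroup.commutator_le.2 fun a ha b hb => ?_) fun g hg => ?_
      · obtain ⟨c, rfl⟩ := (mem_X h).1 ha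
        obtain ⟨d, rfl⟩ := (mem_X h').1 hb
        rw [commutatorElement_def, hE]; exact E_mem _ _
      · obtain ⟨e, rfl⟩ := (mem_X hrt).1 hg
        have := Subgroup.commutator_mem_commutator (E_mem h 1) (E_mem h' (-e))
        rwa [commutatorElement_def, hE, one_mul, neg_neg] at this
    refine ⟨hC ▸ ⟨r, t, hrt, rfl⟩, ?_, ?_, ?_⟩
    · rw [hC]
      intro c hc x hx
      have hle : X p r ⊔ X s t ≤ Subgroup.centralizer (X r t : Set O) := by
        refine sup_le ?_ ?_ <;> rw [← Subgroup.commutator_eq_bot_iff_le_centralizer]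
        · exact case_zero h hrt h.bpr h2 (B_self_zero h.qr) h4
        · exact case_zero h' hrt (by rw [B_comm, h3]) h'.bpr (by rw [B_comm, h4]) (B_self_zero h'.qr)
      exact Subgroup.mem_centralizer_iff.1 (hle hx) c hc
    · intro a ha ha1
      obtain ⟨c, rfl⟩ := (mem_X h).1 ha
      have hc : c ≠ 0 := fun e => ha1 (by rw [e, E_zero])
      rw [hC]
      refine le_antisymm ((Subgroup.closure_le _).2 ?_) fun g hg => ?_
      · rintro _ ⟨b, hb, rfl⟩
        obtain ⟨d, rfl⟩ := (mem_X h').1 hb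
        simp only [hE]; exact E_mem _ _
      · obtain ⟨e, rfl⟩ := (mem_X hrt).1 hg
        exact Subgroup.subset_closure ⟨E h' (-e / c), E_mem _ _, by
          simp only [hE]; rw [mul_div_cancel₀ _ hc, neg_neg]⟩
    · intro b hb hb1
      obtain ⟨d, rfl⟩ := (mem_X h').1 hb
      have hd : d ≠ 0 := fun e => hb1 (by rw [e, E_zero])
      rw [hC]
      refine le_antisymm ((Subgroup.closure_le _).2 ?_) fun g hg => ?_
      · rintro _ ⟨a, ha, rfl⟩
        obtain ⟨c, rfl⟩ := (mem_X h).1 ha
        simp only [hE]; exact E_mem _ _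
      · obtain ⟨e, rfl⟩ := (mem_X hrt).1 hg
        exact Subgroup.subset_closure ⟨E h (-e / d), E_mem _ _, by
          simp only [hE]; rw [div_mul_cancel₀ _ hd, neg_neg]⟩
  · left
    refine Fischer.bot_of_commute fun a ha b hb => ?_
    obtain ⟨c, rfl⟩ := (mem_X h).1 ha
    obtain ⟨d, rfl⟩ := (mem_X h').1 hb
    refine commutatorElement_eq_one_iff_mul_comm.1 (O_ext fun x => ?_)
    rw [commutatorElement_def, hcom, ap_one]
    rw [li_iff] at hli
    push Not at hli
    obtain ⟨a, e, hae, hne⟩ := hli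
    have hz : B t x • r - B r x • t = 0 := by
      have hB : a * B r x + e * B t x = 0 := by
        have := congrArg (fun y => B y x) hae
        simpa [B_add_left, B_smul_left, B_zero_left] using this
      by_cases ha0 : a = 0
      · have he : e ≠ 0 := hne ha0
        rw [ha0, zero_smul, zero_add] at hae
        have ht0 : t = 0 := (smul_eq_zero.1 hae).resolve_left he
        simp [ht0, B_zero_left]
      · have hr : r = -(e / a) • t := by
          have := congrArg (fun y => a⁻¹ • y) hae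
          rw [smul_add, smul_smul, smul_smul, inv_mul_cancel₀ ha0, one_smul, smul_zero] at this
          rw [eq_neg_of_add_eq_zero_left this, neg_smul, div_eq_inv_mul]
        rw [hr, B_smul_left]
        module
    rw [hz, smul_zero, add_zero]

theorem trichotomy {p r s t : V} (h : IsLine p r) (h' : IsLine s t) :
    ⁅X p r, X s t⁆ = ⊥ ∨ det p r s t ≠ 0 ∨ Cfsg.RootCommutatorCase (rootSet n F) (X p r) (X s t) := by
  by_cases hd : det p r s t ≠ 0
  · exact Or.inr (Or.inl hd)
  have aux : ∀ {p r s t : V}, IsLine p r → IsLine s t → B p s ≠ 0 → det p r s t = 0 →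
      ⁅X p r, X s t⁆ = ⊥ ∨ Cfsg.RootCommutatorCase (rootSet n F) (X p r) (X s t) := by
    intro p r s t h h' hps hd
    set a := B p s with ha
    have d1 : (a⁻¹ : F) * 1 - 0 * (-(B p t / a)) ≠ 0 := by simpa using hps
    have d2 : (1 : F) * 1 - 0 * (-(B r s / a)) ≠ 0 := by simp
    rw [← X_change s t d1, ← X_change p r d2]
    refine case_rank_one (h.change d2) (h'.change d1) ?_ ?_ ?_ ?_
    all_goals simp only [B_add_left, B_add_right, B_smul_left, B_smul_right, ← ha]
    · simp [hps]
    · field_simp; ring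
    · field_simp; ring
    · simp only [det, ← ha] at hd
      field_simp
      linear_combination hd
  push Not at hd
  by_cases h1 : B p s = 0
  swap
  · exact (aux h h' h1 hd).imp id fun x => Or.inr x
  by_cases h2 : B p t = 0
  swap
  · have := aux h h'.symm h2 (by simp only [det] at hd ⊢; linear_combination -hd)
    rw [X_symm s t] at this
    exact this.imp id fun x => Or.inr x
  by_cases h3 : B r s = 0
  swap
  · have := aux h.symm h' h3 (by simp only [det] at hd ⊢; linear_combination -hd)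
    rw [X_symm p r] at this
    exact this.imp id fun x => Or.inr x
  by_cases h4 : B r t = 0
  swap
  · have := aux h.symm h'.symm h4 (by simp only [det] at hd ⊢; linear_combination hd)
    rw [X_symm p r, X_symm s t] at this
    exact this.imp id fun x => Or.inr x
  exact Or.inl (case_zero h h' h1 h2 h3 h4)

/-! ### Inside the generated subgroup -/

theorem rootSubgroupSet (H : Subgroup O) (hH : H = ⨆ A ∈ rootSet n F, A) :
    Cfsg.IsKRootSubgroupSet F ((fun A : Subgroup O => A.subgroupOf H) '' rootSet n F) := by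
  have hle : ∀ A ∈ rootSet n F, A ≤ H := fun A hA => hH ▸ le_biSup (fun A : Subgroup O => A) hA
  have hmap : ∀ A ∈ rootSet n F, (A.subgroupOf H).map H.subtype = A := fun A hA =>
    Subgroup.map_subgroupOf_eq_of_le (hle A hA)
  have hinjm := Subgroup.map_injective H.subtype_injective
  have hcomm : ∀ A ∈ rootSet n F, ∀ B' ∈ rootSet n F,
      ⁅A.subgroupOf H, B'.subgroupOf H⁆.map H.subtype = ⁅A, B'⁆ := fun A hA B' hB => by
    rw [Subgroup.map_commutator, hmap A hA, hmap B' hB]
  have hpair : ∀ p r s t : V, IsLine p r → IsLine s t → det p r s t ≠ 0 →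
      Cfsg.IsRankOnePair ((X p r).subgroupOf H) ((X s t).subgroupOf H) ∧
      Cfsg.IsPSL2PairOver F ((X p r).subgroupOf H) ((X s t).subgroupOf H) := by
    intro p r s t h h' hd
    obtain ⟨s', t', ho, e⟩ := exists_opp h h' hd
    rw [← e]
    have hrange : ∀ g, hom ho g ∈ H := by
      intro g
      have hr : (hom ho).range ≤ H := by
        rw [MonoidHom.range_eq_map, ← Fischer.sl2_sup, Subgroup.map_sup, map_upper, map_lower]
        exact sup_le (hle _ ⟨_, _, ho.right, rfl⟩) (hle _ ⟨_, _, ho.left, rfl⟩)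
      exact hr ⟨g, rfl⟩
    have hφ : Function.Injective ((hom ho).codRestrict H hrange) := fun a b e =>
      hom_injective ho (congrArg Subtype.val e)
    have key : ∀ U : Subgroup (Matrix.SpecialLinearGroup (Fin 2) F),
        U.map ((hom ho).codRestrict H hrange) = (U.map (hom ho)).subgroupOf H := by
      intro U
      apply hinjm
      rw [Subgroup.map_map, Subgroup.map_subgroupOf_eq_of_le ?_]
      · rfl
      · rintro _ ⟨x, -, rfl⟩; exact hrange x
    rw [← map_upper ho, ← map_lower ho, ← key, ← key]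
    exact pair_of_hom _ hφ
  have hset : Cfsg.IsRootSubgroupSet ((fun A : Subgroup O => A.subgroupOf H) '' rootSet n F) := by
    refine ⟨?_, ?_, ?_, ?_, ?_⟩
    · rintro _ ⟨_, ⟨p, r, h, rfl⟩, rfl⟩
      haveI := X_comm h
      exact Subgroup.comap_injective_isMulCommutative _ H.subtype_injective
    · rintro _ ⟨A, hA, rfl⟩ e
      obtain ⟨p, r, h, rfl⟩ := hA
      refine X_ne_bot h ?_
      rw [← hmap _ ⟨p, r, h, rfl⟩, show (X p r).subgroupOf H = ⊥ from e, Subgroup.map_bot]
    · apply hinjm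
      simp only [Subgroup.map_iSup, ← MonoidHom.range_eq_map, Subgroup.range_subtype]
      rw [iSup_image]
      refine (Eq.trans ?_ hH.symm)
      exact iSup_congr fun A => iSup_congr fun hA => hmap A hA
    · rintro _ ⟨A, hA, rfl⟩ g
      refine ⟨Cfsg.conjBy A (g : O), conj_mem hA _, ?_⟩
      apply hinjm
      rw [hmap _ (conj_mem hA _)]
      simp only [Cfsg.conjBy, Subgroup.map_map]
      conv_lhs => rw [← hmap A hA, Subgroup.map_map]
      congr 1
    · rintro _ ⟨_, ⟨p, r, h, rfl⟩, rfl⟩ _ ⟨_, ⟨s, t, h', rfl⟩, rfl⟩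
      rcases trichotomy h h' with e | e | ⟨c1, c2, c3, c4⟩
      · left
        apply hinjm
        rw [hcomm _ ⟨p, r, h, rfl⟩ _ ⟨s, t, h', rfl⟩, e, Subgroup.map_bot]
      · exact Or.inr (Or.inl (hpair p r s t h h' e).1)
      · refine Or.inr (Or.inr ⟨⟨_, c1, hinjm (by rw [hmap _ c1, hcomm _ ⟨p, r, h, rfl⟩ _ ⟨s, t, h', rfl⟩])⟩,
          ?_, ?_, ?_⟩)
        · intro c hc x hx
          refine Subtype.ext (c2 c ?_ x ?_)
          · rw [← hcomm _ ⟨p, r, h, rfl⟩ _ ⟨s, t, h', rfl⟩]; exact ⟨c, hc, rfl⟩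
          · rw [← hmap _ ⟨p, r, h, rfl⟩, ← hmap _ ⟨s, t, h', rfl⟩, ← Subgroup.map_sup]; exact ⟨x, hx, rfl⟩
        · intro a ha ha1
          apply hinjm
          rw [MonoidHom.map_closure, hcomm _ ⟨p, r, h, rfl⟩ _ ⟨s, t, h', rfl⟩,
            ← c3 a.1 ha (fun e => ha1 (Subtype.ext e))]
          congr 1
          ext y
          constructor
          · rintro ⟨_, ⟨b, hb, rfl⟩, rfl⟩; exact ⟨b.1, hb, rfl⟩
          · rintro ⟨b, hb, rfl⟩; exact ⟨_, ⟨⟨b, hle _ ⟨s, t, h', rfl⟩ hb⟩, hb, rfl⟩, rfl⟩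
        · intro b hb hb1
          apply hinjm
          rw [MonoidHom.map_closure, hcomm _ ⟨p, r, h, rfl⟩ _ ⟨s, t, h', rfl⟩,
            ← c4 b.1 hb (fun e => hb1 (Subtype.ext e))]
          congr 1
          ext y
          constructor
          · rintro ⟨_, ⟨a, ha, rfl⟩, rfl⟩; exact ⟨a.1, ha, rfl⟩
          · rintro ⟨a, ha, rfl⟩; exact ⟨_, ⟨⟨a, hle _ ⟨p, r, h, rfl⟩ ha⟩, ha, rfl⟩, rfl⟩
  refine ⟨hset, ?_⟩
  rintro _ ⟨_, ⟨p, r, h, rfl⟩, rfl⟩ _ ⟨_, ⟨s, t, h', rfl⟩, rfl⟩ hp
  rcases trichotomy h h' with e | e | ⟨c1, -⟩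
  · refine absurd ?_ (Fischer.not_commute hp)
    apply hinjm
    rw [hcomm _ ⟨p, r, h, rfl⟩ _ ⟨s, t, h', rfl⟩, e, Subgroup.map_bot]
  · exact (hpair p r s t h h' e).2
  · refine absurd hp (Fischer.not_rankOne_of_member hset ⟨_, ⟨p, r, h, rfl⟩, rfl⟩ ⟨_, ⟨s, t, h', rfl⟩, rfl⟩ ?_)
    exact ⟨_, c1, hinjm (by rw [hmap _ c1, hcomm _ ⟨p, r, h, rfl⟩ _ ⟨s, t, h', rfl⟩])⟩

/-! ### Connectedness -/

/-- The index of a coordinate. -/
def idx : Fin n ⊕ Fin n → Fin n := Sum.elim id id

theorem idx_swap (a : Fin n ⊕ Fin n) : idx a.swap = idx a := by cases a <;> rfl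

theorem idx_eq {a b : Fin n ⊕ Fin n} (h : idx a = idx b) : b = a ∨ b = a.swap := by
  rcases a with a | a <;> rcases b with b | b <;> simp_all [idx]

theorem coord_line {a b : Fin n ⊕ Fin n} (h : idx a ≠ idx b) :
    IsLine (Pi.single a 1 : V) (Pi.single b 1) := by
  have hab : a ≠ b := fun e => h (e ▸ rfl)
  refine ⟨li_iff.2 fun x y e => ?_, Q_single a, Q_single b, ?_⟩
  · have e1 := congrFun e a
    have e2 := congrFun e b
    simp [Pi.single_apply, hab, hab.symm] at e1 e2
    exact ⟨e1, e2⟩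
  · rw [B_single, Pi.single_apply, if_neg (fun e => h (by rw [← e, idx_swap]))]

theorem adjacent {p r s t : V} (h : IsLine p r) (h' : IsLine s t) (hd : det p r s t ≠ 0) :
    Relation.ReflTransGen (Cfsg.FAdj (rootSet n F)) (X p r) (X s t) ∧
      Relation.ReflTransGen (Cfsg.FAdj (rootSet n F)) (X s t) (X p r) :=
  ⟨Relation.ReflTransGen.single ⟨⟨p, r, h, rfl⟩, ⟨s, t, h', rfl⟩, pair_of_det h h' hd⟩,
    Relation.ReflTransGen.single ⟨⟨s, t, h', rfl⟩, ⟨p, r, h, rfl⟩,
      Cfsg.RankOnePair_symm (pair_of_det h h' hd)⟩⟩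

theorem move_basic {a b c : Fin n ⊕ Fin n} (hab : idx a ≠ idx b) (hcb : idx c ≠ idx b) (hca : c ≠ a.swap) :
    Relation.ReflTransGen (Cfsg.FAdj (rootSet n F)) (X (Pi.single a 1 : V) (Pi.single b 1))
      (X (Pi.single c 1 : V) (Pi.single b 1)) := by
  rcases eq_or_ne c a with rfl | hne
  · exact Relation.ReflTransGen.refl
  have hAB : a ≠ b := fun e => hab (e ▸ rfl)
  have hCB : c ≠ b := fun e => hcb (e ▸ rfl)
  have n1 : a.swap ≠ b := fun e => hab (by rw [← e, idx_swap])
  have n2 : c.swap ≠ b := fun e => hcb (by rw [← e, idx_swap])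
  have n3 : a ≠ c.swap := fun e => hca (by rw [e, Sum.swap_swap])
  have sinj : Function.Injective (Sum.swap : Fin n ⊕ Fin n → Fin n ⊕ Fin n) :=
    Sum.swap_leftInverse.injective
  have m1 : a.swap ≠ c.swap := fun e => hne (sinj e).symm
  have m2 : a.swap ≠ b.swap := fun e => hAB (sinj e)
  have m3 : c.swap ≠ b.swap := fun e => hCB (sinj e)
  have m4 : a ≠ b.swap := fun e => n1 (by rw [e, Sum.swap_swap])
  have m5 : c ≠ b.swap := fun e => n2 (by rw [e, Sum.swap_swap])
  set s : V := Pi.single a.swap 1 + Pi.single c.swap 1 with hs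
  set t : V := Pi.single b.swap 1 with ht
  have hl : IsLine s t := by
    refine ⟨li_iff.2 fun x y e => ?_, ?_, Q_single _, ?_⟩
    · have e1 := congrArg (B (Pi.single a 1)) e
      have e2 := congrArg (B (Pi.single b 1)) e
      rw [B_comm _ (0 : V), B_zero_left] at e1 e2
      simp [hs, ht, B_add_right, B_smul_right, B_single, Pi.single_apply, m1, m2, m1.symm, m2.symm, m3.symm] at e1 e2
      exact ⟨e1, e2⟩
    · rw [hs, Q_add, Q_single, Q_single, B_single]
      simp [Pi.single_apply, n3]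
    · rw [hs, ht, B_add_left, B_single, B_single]
      simp [Pi.single_apply, m4, m5]
  have d1 : det (Pi.single a 1 : V) (Pi.single b 1) s t ≠ 0 := by
    simp [det, hs, ht, B_add_right, B_single, Pi.single_apply, m1, m2, m1.symm, m2.symm, m3, m3.symm]
  have d2 : det (Pi.single c 1 : V) (Pi.single b 1) s t ≠ 0 := by
    simp [det, hs, ht, B_add_right, B_single, Pi.single_apply, m1, m2, m1.symm, m2.symm, m3, m3.symm]
  exact (adjacent (coord_line hab) hl d1).1.trans (adjacent (coord_line hcb) hl d2).2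

theorem exists_third (hn : 3 ≤ n) (i j : Fin n) : ∃ k, k ≠ i ∧ k ≠ j := by
  obtain ⟨k, hk⟩ : ∃ k, k ∉ ({i, j} : Finset (Fin n)) := by
    by_contra hh
    push Not at hh
    have : (Finset.univ : Finset (Fin n)) ⊆ {i, j} := fun k _ => hh k
    have := (Finset.card_le_card this).trans Finset.card_le_two
    simp at this
    omega
  simp only [Finset.mem_insert, Finset.mem_singleton, not_or] at hk
  exact ⟨k, hk.1, hk.2⟩

theorem move (hn : 3 ≤ n) {a b c : Fin n ⊕ Fin n} (hab : idx a ≠ idx b) (hcb : idx c ≠ idx b) :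
    Relation.ReflTransGen (Cfsg.FAdj (rootSet n F)) (X (Pi.single a 1 : V) (Pi.single b 1))
      (X (Pi.single c 1 : V) (Pi.single b 1)) := by
  by_cases hca : c = a.swap
  · obtain ⟨k, hka, hkb⟩ := exists_third hn (idx a) (idx b)
    refine (move_basic (c := Sum.inl k) hab hkb (fun e => hka ?_)).trans
      (move_basic hkb hcb (fun e => hka ?_))
    · have := congrArg idx e; rwa [idx_swap] at this
    · have := congrArg idx e
      rw [hca, idx_swap, idx_swap] at this
      exact this.symm
  · exact move_basic hab hcb hca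

theorem move' (hn : 3 ≤ n) {a b d : Fin n ⊕ Fin n} (hab : idx a ≠ idx b) (had : idx a ≠ idx d) :
    Relation.ReflTransGen (Cfsg.FAdj (rootSet n F)) (X (Pi.single a 1 : V) (Pi.single b 1))
      (X (Pi.single a 1 : V) (Pi.single d 1)) := by
  rw [← X_symm (Pi.single a 1 : V) (Pi.single b 1), ← X_symm (Pi.single a 1 : V) (Pi.single d 1)]
  exact move hn hab.symm had.symm

theorem coord_connected (hn : 3 ≤ n) {a b c d : Fin n ⊕ Fin n} (hab : idx a ≠ idx b) (hcd : idx c ≠ idx d) :
    Relation.ReflTransGen (Cfsg.FAdj (rootSet n F)) (X (Pi.single a 1 : V) (Pi.single b 1))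
      (X (Pi.single c 1 : V) (Pi.single d 1)) := by
  obtain ⟨k, hka, hkc⟩ := exists_third hn (idx a) (idx c)
  exact ((move' hn (d := Sum.inl k) hab hka.symm).trans (move hn (c := c) hka.symm hkc.symm)).trans
    (move' hn hkc.symm hcd)

theorem exists_coord {p r : V} (h : IsLine p r) :
    ∃ a b, idx a ≠ idx b ∧ det p r (Pi.single a 1 : V) (Pi.single b 1) ≠ 0 := by
  by_contra hcon
  push Not at hcon
  have hm : ∀ i j : Fin n ⊕ Fin n, idx i ≠ idx j → p i * r j - p j * r i = 0 := by
    intro i j hij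
    have := hcon i.swap j.swap (by rwa [idx_swap, idx_swap])
    rw [det, B_comm p, B_comm r, B_comm p, B_comm r, B_single, B_single, B_single, B_single,
      Sum.swap_swap, Sum.swap_swap] at this
    exact this
  -- some minor is non-zero
  obtain ⟨i, hi⟩ : ∃ i, p i * r i.swap - p i.swap * r i ≠ 0 := by
    by_contra hall
    push Not at hall
    have hall' : ∀ i j, p i * r j - p j * r i = 0 := by
      intro i j
      by_cases hij : idx i = idx j
      · rcases idx_eq hij with rfl | rfl
        · ring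
        · exact hall i
      · exact hm i j hij
    obtain ⟨i₀, hi₀⟩ : ∃ i, p i ≠ 0 := by
      by_contra hz
      push Not at hz
      exact one_ne_zero (li_iff.1 h.li 1 0 (by funext x; simp [hz x])).1
    have := li_iff.1 h.li (-(r i₀)) (p i₀) (by funext x; simp; linear_combination hall' i₀ x)
    exact hi₀ this.2
  have hoff : ∀ j, idx j ≠ idx i → p j = 0 ∧ r j = 0 := by
    intro j hj
    have e1 := hm i j (Ne.symm hj)
    have e2 := hm i.swap j (by rw [idx_swap]; exact Ne.symm hj)
    constructor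
    · exact (mul_eq_zero.1 (show (p i * r i.swap - p i.swap * r i) * p j = 0 by
        linear_combination p i.swap * e1 - p i * e2)).resolve_left hi
    · exact (mul_eq_zero.1 (show (p i * r i.swap - p i.swap * r i) * r j = 0 by
        linear_combination r i.swap * e1 - r i * e2)).resolve_left hi
  -- both vectors live in one hyperbolic pair of coordinates
  have hQ : ∀ x : V, (∀ j, idx j ≠ idx i → x j = 0) → Q x = x (.inl (idx i)) * x (.inr (idx i)) := by
    intro x hx
    rw [Cfsg.quadFormPlus, Finset.sum_eq_single (idx i)]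
    · intro j _ hj; rw [hx (.inl j) hj, zero_mul]
    · simp
  have qp := h.qp
  have qr := h.qr
  have hb := h.bpr
  rw [hQ p fun j hj => (hoff j hj).1] at qp
  rw [hQ r fun j hj => (hoff j hj).2] at qr
  rw [B, Finset.sum_eq_single (idx i) (fun j _ hj => by
    rw [(hoff (.inl j) hj).1, (hoff (.inr j) hj).1]; simp) (by simp)] at hb
  set x := p (.inl (idx i)) with hx
  set y := p (.inr (idx i)) with hy
  set z := r (.inl (idx i)) with hz
  set w := r (.inr (idx i)) with hw
  have hsq : (x * w - y * z) * (x * w - y * z) = 0 := by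
    linear_combination (x * w + y * z) * hb - 4 * (z * w) * qp
  have hmin : x * w - y * z = 0 := mul_self_eq_zero.1 hsq
  apply hi
  rcases i with i | i
  · simp only [idx, Sum.elim_inl, id_eq, Sum.swap_inl] at hx hy hz hw ⊢
    rw [← hx, ← hy, ← hz, ← hw]
    linear_combination hmin
  · simp only [idx, Sum.elim_inr, id_eq, Sum.swap_inr] at hx hy hz hw ⊢
    rw [← hx, ← hy, ← hz, ← hw]
    linear_combination -hmin

theorem connected (hn : 3 ≤ n) : Cfsg.IsConnectedFamily (Cfsg.FAdj (rootSet n F)) (rootSet n F) := by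
  rintro _ ⟨p, r, h, rfl⟩ _ ⟨p', r', h', rfl⟩
  obtain ⟨a, b, hab, hd⟩ := exists_coord h
  obtain ⟨c, d, hcd, hd'⟩ := exists_coord h'
  exact ((adjacent h (coord_line hab) hd).1.trans (coord_connected hn hab hcd)).trans
    (adjacent h' (coord_line hcd) hd').2

theorem templateSet_eq :
    {A : Subgroup O | ∃ p r : V, LinearIndependent F ![p, r] ∧ Q p = 0 ∧ Q r = 0 ∧ Q (p + r) = 0 ∧
      A = Subgroup.closure {σ : O | ∀ v : V, Q (v + p) - Q v - Q p = 0 → Q (v + r) - Q v - Q r = 0 →
        ((σ : Matrix.GeneralLinearGroup (Fin n ⊕ Fin n) F) : Matrix (Fin n ⊕ Fin n) (Fin n ⊕ Fin n) F) *ᵥ v = v}}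
      = rootSet n F := by
  have key : ∀ p r : V, Subgroup.closure {σ : O | ∀ v : V, Q (v + p) - Q v - Q p = 0 → Q (v + r) - Q v - Q r = 0 →
        ((σ : Matrix.GeneralLinearGroup (Fin n ⊕ Fin n) F) : Matrix (Fin n ⊕ Fin n) (Fin n ⊕ Fin n) F) *ᵥ v = v}
        = X p r := by
    intro p r
    have e : {σ : O | ∀ v : V, Q (v + p) - Q v - Q p = 0 → Q (v + r) - Q v - Q r = 0 →
        ((σ : Matrix.GeneralLinearGroup (Fin n ⊕ Fin n) F) : Matrix (Fin n ⊕ Fin n) (Fin n ⊕ Fin n) F) *ᵥ v = v}
        = (X p r : Set O) := by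
      ext σ
      simp only [polar_eq, B_comm _ p, B_comm _ r]
      exact Iff.rfl
    rw [e, Subgroup.closure_eq]
  ext A
  simp only [Set.mem_ofPred_eq, key, rootSet, isLine_iff, and_assoc]

end Cfsg.Agent.Core.Siegel
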