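/-
Core library: conjugacy of supersolvable Hall subgroups.
-/
import Cfsg.Agent.Core.SupersolvableTower
import Cfsg.Agent.Core.Conj

set_option autoImplicit false
set_option linter.style.haveILetI false

namespace Cfsg.Agent.Core

open Subgroup Cfsg
open scoped Pointwise

universe u

theorem supersolvableHall_conj_aux : ∀ (n : ℕ) {G : Type u} [Group G] [Finite G], Nat.card G ≤ n →
    ∀ (H K : Subgroup G), IsSupersolvable H → IsSupersolvable K → Nat.card H = Nat.card K →
      (Nat.card H).Coprime H.index → ∃ x : G, MulAut.conj x • H = K := by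
  intro n
  induction n with
  | zero => intro G _ _ h; exact absurd h (by simp [Nat.card_pos.ne'])
  | succ n ih =>
  intro G _ _ hcard H K hH hK hHK hHall
  by_cases h1 : Nat.card H = 1
  · refine ⟨1, ?_⟩
    rw [map_one, one_smul, (Subgroup.card_eq_one (H := H)).mp h1, (Subgroup.card_eq_one (H := K)).mp (hHK ▸ h1)]
  obtain ⟨p, hpmem, hpmax⟩ := Finset.exists_max_image (Nat.card H).primeFactors id
    ⟨(Nat.card H).minFac, Nat.mem_primeFactors.mpr ⟨Nat.minFac_prime h1, Nat.minFac_dvd _, Nat.card_pos.ne'⟩⟩
  have hp := Nat.prime_of_mem_primeFactors hpmem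
  have hpH := Nat.dvd_of_mem_primeFactors hpmem
  haveI := Fact.mk hp
  have hmax : ∀ r : ℕ, r.Prime → r ∣ Nat.card H → r ≤ p := fun r hr hd =>
    hpmax r (Nat.mem_primeFactors.mpr ⟨hr, hd, Nat.card_pos.ne'⟩)
  have hKHall : (Nat.card K).Coprime K.index := by
    have e : Nat.card H * K.index = Nat.card H * H.index := by
      rw [H.card_mul_index, hHK, K.card_mul_index]
    rw [← hHK, Nat.eq_of_mul_eq_mul_left Nat.card_pos e]
    exact hHall
  -- a normal Sylow subgroup of a Hall subgroup
  have hsyl : ∀ L : Subgroup G, IsSupersolvable L → Nat.card H = Nat.card L → (Nat.card L).Coprime L.index →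
      ∃ P : Sylow p G, (P : Subgroup G) ≤ L ∧ L ≤ normalizer ((P : Subgroup G) : Set G) := by
    intro L hL hHL hLHall
    obtain ⟨S⟩ : Nonempty (Sylow p L) := inferInstance
    haveI := sylow_normal_of_max_prime hL (fun r hr hd => hmax r hr (hHL ▸ hd)) S
    have hi : ¬ p ∣ ((S : Subgroup L).map L.subtype).index := by
      rw [← relIndex_mul_index (map_subtype_le _ : (S : Subgroup L).map L.subtype ≤ L),
        relIndex, show ((S : Subgroup L).map L.subtype).subgroupOf L = (S : Subgroup L) from
          comap_map_eq_self_of_injective L.subtype_injective _, hp.dvd_mul]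
      rintro (h | h)
      · exact S.not_dvd_index h
      · exact hp.ne_one (Nat.eq_one_of_dvd_coprimes hLHall (hHL ▸ hpH) h)
    refine ⟨(S.2.map L.subtype).toSylow hi, map_subtype_le _, ?_⟩
    show L ≤ normalizer (((S : Subgroup L).map L.subtype : Subgroup G) : Set G)
    have := Subgroup.le_normalizer_map (H := (S : Subgroup L)) L.subtype
    rwa [normalizer_eq_top_iff.mpr inferInstance, ← MonoidHom.range_eq_map, range_subtype] at this
  obtain ⟨P, hPK, hKN⟩ := hsyl K hK hHK hKHall
  obtain ⟨P', hP'H, hH'N⟩ := hsyl H hH rfl hHall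
  obtain ⟨g, hg⟩ := MulAction.exists_smul_eq G P' P
  set H₁ := MulAut.conj g • H with hH₁
  have hmapP : MulAut.conj g • (P' : Subgroup G) = (P : Subgroup G) := by
    rw [← hg, Sylow.coe_subgroup_smul]
  have hPH₁ : (P : Subgroup G) ≤ H₁ := hmapP ▸ pointwise_smul_le_pointwise_smul_iff.mpr hP'H
  set M := normalizer ((P : Subgroup G) : Set G) with hM
  have hH₁M : H₁ ≤ M := by
    refine (pointwise_smul_le_pointwise_smul_iff.mpr hH'N).trans ?_
    rw [hM, ← hmapP]
    exact le_normalizer_map (MulAut.conj g).toMonoidHom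
  have hH₁s : IsSupersolvable H₁ :=
    isSupersolvable_of_surjective ((MulAut.conj g).toMonoidHom.subgroupMap_surjective H) hH
  set N := (P : Subgroup G).subgroupOf M with hN
  haveI : N.Normal := normal_in_normalizer
  have hNne : N ≠ ⊥ := by
    rw [hN, ne_eq, subgroupOf_eq_bot, disjoint_iff, inf_eq_left.mpr le_normalizer]
    exact P.ne_bot_of_dvd_card (hpH.trans H.card_subgroup_dvd_card)
  have hlt : Nat.card (M ⧸ N) ≤ n := by
    have h2 : Nat.card (M ⧸ N) < Nat.card M := by
      rw [Subgroup.card_eq_card_quotient_mul_card_subgroup N]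
      exact lt_mul_of_one_lt_right Nat.card_pos ((one_lt_card_iff_ne_bot N).mpr hNne)
    have := card_le_card_group M
    omega
  set f := QuotientGroup.mk' N with hf
  have hfs : Function.Surjective f := QuotientGroup.mk'_surjective N
  have hcomap : ∀ L : Subgroup G, (P : Subgroup G) ≤ L → ((L.subgroupOf M).map f).comap f = L.subgroupOf M :=
    fun L hL => by
      rw [comap_map_eq, QuotientGroup.ker_mk', sup_eq_left.mpr (show N ≤ L.subgroupOf M from comap_mono hL)]
  have hcardmap : ∀ L : Subgroup G, L ≤ M → (P : Subgroup G) ≤ L →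
      Nat.card L = Nat.card ((L.subgroupOf M).map f) * Nat.card N := fun L hLM hL => by
    rw [← card_comap_mk, hcomap L hL, Nat.card_congr (subgroupOfEquivOfLe hLM).toEquiv]
  have hcH₁ : Nat.card H₁ = Nat.card H := card_conj_smul g H
  obtain ⟨xbar, hxbar⟩ := ih (G := M ⧸ N) hlt ((H₁.subgroupOf M).map f) ((K.subgroupOf M).map f)
    (isSupersolvable_of_surjective
      (show Function.Surjective ((f.subgroupMap (H₁.subgroupOf M)).comp (subgroupOfEquivOfLe hH₁M).symm.toMonoidHom) from
        (f.subgroupMap_surjective _).comp (MulEquiv.surjective _)) hH₁s)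
    (isSupersolvable_of_surjective
      (show Function.Surjective ((f.subgroupMap (K.subgroupOf M)).comp (subgroupOfEquivOfLe hKN).symm.toMonoidHom) from
        (f.subgroupMap_surjective _).comp (MulEquiv.surjective _)) hK)
    (Nat.eq_of_mul_eq_mul_right (Nat.card_pos (α := N))
      (by rw [← hcardmap H₁ hH₁M hPH₁, ← hcardmap K hKN hPK, hcH₁, hHK]))
    (by
      refine ((Nat.Coprime.coprime_dvd_left (card_map_dvd _ _) ?_)).coprime_dvd_right (index_map_dvd _ hfs)
      rw [Nat.card_congr (subgroupOfEquivOfLe hH₁M).toEquiv, hcH₁]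
      refine hHall.coprime_dvd_right ?_
      rw [← index_conj_smul g H]
      exact relIndex_dvd_index_of_le hH₁M)
  obtain ⟨x, rfl⟩ := hfs xbar
  rw [← map_conj_smul] at hxbar
  have h2 := congrArg (Subgroup.comap f) hxbar
  rw [comap_map_eq, QuotientGroup.ker_mk', hcomap K hPK] at h2
  have h3 : MulAut.conj x • H₁.subgroupOf M ≤ K.subgroupOf M := h2 ▸ le_sup_left
  have h4 := map_mono (f := M.subtype) h3
  rw [map_conj_smul, map_subgroupOf_eq_of_le hH₁M, map_subgroupOf_eq_of_le hKN] at h4
  refine ⟨(x : G) * g, ?_⟩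
  rw [conj_mul_smul]
  exact eq_of_le_of_card_ge h4 (by rw [card_conj_smul, card_conj_smul, hHK])

theorem exists_conj_eq_of_supersolvableHall {G : Type*} [Group G] [Finite G] {H K : Subgroup G}
    (hH : IsSupersolvable H) (hK : IsSupersolvable K) (hcard : Nat.card H = Nat.card K)
    (hHall : (Nat.card H).Coprime H.index) : ∃ x : G, MulAut.conj x • H = K :=
  supersolvableHall_conj_aux _ le_rfl H K hH hK hcard hHall

end Cfsg.Agent.Core
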