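/-
`PSU₃(2)` is `3² : Q₈`.
-/
import Cfsg.Agent.FGS3.SU32
import Cfsg.Agent.Linear.POmega6Minus
import Cfsg.Agent.Forms.RankThree

set_option autoImplicit false
set_option maxRecDepth 100000

namespace Cfsg.Agent.Core.UnitaryThreeTwoQuotient

open Cfsg Cfsg.Agent.FGS3 Cfsg.Agent.FGS3.SU32 Matrix

/-- The elements of the subgroup of order 27. -/
def nn (p : Fin 3 × Fin 3 × Fin 3) : SU 3 GF4 2 := sx ^ p.1.val * st ^ p.2.1.val * sz ^ p.2.2.val

/-- The representatives of the eight cosets. -/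
def rp : QuaternionGroup 2 → SU 3 GF4 2
  | .a k => sg ^ k.val
  | .xa k => sh * sg ^ k.val

theorem nn_mul : ∀ p r, ∃ s, mat (nn p * nn r) = mat (nn s) := by decide +kernel

theorem rp_conj : ∀ x : QuaternionGroup 2, ∀ s : Fin 3, ∃ r,
    mat (rp x * ![sx, st, sz] s) = mat (nn r * rp x) := by decide +kernel

theorem rp_mul : ∀ x y : QuaternionGroup 2, ∃ p, mat (rp x * rp y) = mat (rp (x * y) * nn p) := by
  decide +kernel

theorem rp_inj : ∀ x y : QuaternionGroup 2, x ≠ y → ∀ p, mat (rp y * nn p) ≠ mat (rp x) := by decide +kernel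

theorem nn_inj : ∀ p r, mat (nn p) = mat (nn r) → p = r := by decide +kernel

theorem nn_cube : ∀ p, mat (nn p * nn p * nn p) = mat (nn (0, 0, 0)) := by decide +kernel

theorem mz_scalar : mat sz = GF4.w • (1 : Matrix (Fin 3) (Fin 3) GF4) := by decide +kernel

theorem card_gf4' : Fintype.card GF4 = 4 := by decide

theorem exists_quotient : ∃ (N : Subgroup (Cfsg.PSU 3 GF4 2)) (_ : N.Normal), Nat.card N = 9 ∧
    (∀ x ∈ N, x ^ 3 = 1) ∧ Nonempty (Cfsg.PSU 3 GF4 2 ⧸ N ≃* QuaternionGroup 2) := by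
  classical
  have hSU : Nat.card (SU 3 GF4 2) = 216 := by
    have h := Forms.card_SU (F := GF4) (n := 3) (q := 2) (by rw [card_gf4']; norm_num) (by norm_num)
    simp [Finset.prod_range_succ, Nat.even_iff, -Nat.card_eq_fintype_card] at h
    omega
  have h1 : nn (0, 0, 0) = 1 := by simp [nn]
  let N0 : Subgroup (SU 3 GF4 2) :=
    { carrier := Set.range nn
      one_mem' := ⟨_, h1⟩
      mul_mem' := by
        rintro _ _ ⟨p, rfl⟩ ⟨r, rfl⟩
        obtain ⟨s, hs⟩ := nn_mul p r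
        exact ⟨s, (mat_inj hs).symm⟩
      inv_mem' := by
        rintro _ ⟨p, rfl⟩
        obtain ⟨s, hs⟩ := nn_mul p p
        refine ⟨s, ?_⟩
        have h3 : nn p * nn p * nn p = 1 := (mat_inj (nn_cube p)).trans h1
        rw [← mat_inj hs]
        exact eq_inv_of_mul_eq_one_left h3 }
  have hnn : ∀ p, nn p ∈ N0 := fun p => ⟨p, rfl⟩
  have hgens : ∀ s : Fin 3, ![sx, st, sz] s ∈ N0 := by
    intro s
    fin_cases s
    · exact ⟨(1, 0, 0), by simp [nn]⟩
    · exact ⟨(0, 1, 0), by simp [nn]⟩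
    · exact ⟨(0, 0, 1), by simp [nn]⟩
  have hcardN : Nat.card N0 = 27 := by
    have : Function.Bijective (fun p => (⟨nn p, hnn p⟩ : N0)) :=
      ⟨fun p r e => nn_inj p r (congrArg (fun n : N0 => mat n.1) e), fun ⟨_, p, hp⟩ => ⟨p, Subtype.ext hp⟩⟩
    rw [← Nat.card_eq_of_bijective _ this]
    simp [Nat.card_eq_fintype_card]
  have hinj : Function.Injective fun q : QuaternionGroup 2 × N0 => rp q.1 * (q.2 : SU 3 GF4 2) := by
    rintro ⟨x, n⟩ ⟨y, m⟩ e
    have hxy : x = y := by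
      by_contra hne
      obtain ⟨p, hp⟩ := (mul_mem m.2 (inv_mem n.2) : (m : SU 3 GF4 2) * (n : SU 3 GF4 2)⁻¹ ∈ N0)
      refine rp_inj x y hne p (congrArg mat ?_)
      rw [hp, ← mul_assoc, ← show rp x * (n : SU 3 GF4 2) = rp y * m from e, mul_inv_cancel_right]
    subst hxy
    exact Prod.ext rfl (Subtype.ext (mul_left_cancel e))
  have hbij : Function.Bijective fun q : QuaternionGroup 2 × N0 => rp q.1 * (q.2 : SU 3 GF4 2) :=
    (Nat.bijective_iff_injective_and_card _).2 ⟨hinj, by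
      rw [hSU, Nat.card_prod, hcardN]; simp [Nat.card_eq_fintype_card, QuaternionGroup.card]⟩
  have hNn : N0.Normal := by
    have hx : ∀ (x : QuaternionGroup 2), ∀ n ∈ N0, rp x * n * (rp x)⁻¹ ∈ N0 := by
      intro x
      have hK : ∀ s : Fin 3, rp x * ![sx, st, sz] s * (rp x)⁻¹ ∈ N0 := fun s => by
        obtain ⟨r, hr⟩ := rp_conj x s
        exact ⟨r, by rw [mat_inj hr, mul_inv_cancel_right]⟩
      let c := (MulAut.conj (rp x)).toMonoidHom
      rintro _ ⟨⟨a, b, d⟩, rfl⟩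
      show c (nn (a, b, d)) ∈ N0
      simp only [nn, map_mul, map_pow]
      exact mul_mem (mul_mem (pow_mem (hK 0) _) (pow_mem (hK 1) _)) (pow_mem (hK 2) _)
    refine ⟨fun n hn g => ?_⟩
    obtain ⟨⟨x, m⟩, rfl⟩ := hbij.2 g
    rw [show rp x * (m : SU 3 GF4 2) * n * (rp x * (m : SU 3 GF4 2))⁻¹ =
      rp x * (m * n * (m : SU 3 GF4 2)⁻¹) * (rp x)⁻¹ by group]
    exact hx x _ (mul_mem (mul_mem m.2 hn) (inv_mem m.2))
  set Z := Subgroup.center (SU 3 GF4 2) with hZdef
  have hszZ : sz ∈ Z := Subgroup.mem_center_iff.2 fun g => mat_inj (by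
    show mat g * mat sz = mat sz * mat g
    rw [mz_scalar, smul_mul_assoc, mul_smul_comm, one_mul, mul_one])
  have hsz1 : sz ≠ 1 := fun e => absurd (congrArg mat e) (by decide +kernel)
  have hZcard : Nat.card Z = 3 := by
    rw [hZdef, Forms.card_center_SU (F := GF4) (q := 2) (by rw [card_gf4']; norm_num) (by norm_num)]
    norm_num
  have hZN : Z ≤ N0 := by
    have : Fact (Nat.Prime 3) := ⟨Nat.prime_three⟩
    have hc : Subgroup.zpowers sz = Z := by
      refine Subgroup.eq_of_le_of_card_ge ((Subgroup.zpowers_le).2 hszZ) ?_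
      rw [hZcard, Nat.card_zpowers]
      exact le_of_eq (orderOf_eq_prime (mat_inj (by decide +kernel)) hsz1).symm
    rw [← hc, Subgroup.zpowers_le]
    exact hgens 2
  refine ⟨N0.map (QuotientGroup.mk' Z), hNn.map _ (QuotientGroup.mk'_surjective Z), ?_, ?_, ?_⟩
  · have e := Subgroup.card_eq_card_quotient_mul_card_subgroup Z
    rw [hSU, hZcard] at e
    have e2 := Subgroup.card_mul_index (N0.map (QuotientGroup.mk' Z))
    rw [Subgroup.index_map_eq _ (QuotientGroup.mk'_surjective Z) (by rw [QuotientGroup.ker_mk']; exact hZN)] at e2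
    have e3 := Subgroup.card_mul_index N0
    rw [hcardN, hSU] at e3
    rw [show N0.index = 8 by omega] at e2
    change _ = Nat.card (SU 3 GF4 2 ⧸ Z) at e2
    generalize Nat.card (SU 3 GF4 2 ⧸ Z) = a at e e2
    linarith
  · rintro _ ⟨_, ⟨p, rfl⟩, rfl⟩
    rw [← map_pow, pow_succ, pow_two, mat_inj (nn_cube p), h1, map_one]
  · have hφ : ∀ x y, (QuotientGroup.mk (rp (x * y)) : SU 3 GF4 2 ⧸ N0) = QuotientGroup.mk (rp x) * QuotientGroup.mk (rp y) := by
      intro x y
      obtain ⟨p, hp⟩ := rp_mul x y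
      rw [← QuotientGroup.mk_mul, mat_inj hp, QuotientGroup.mk_mul_of_mem _ (hnn p)]
    let φ : QuaternionGroup 2 →* SU 3 GF4 2 ⧸ N0 := MonoidHom.mk' (fun x => QuotientGroup.mk (rp x)) hφ
    have hφb : Function.Bijective φ := by
      constructor
      · intro x y e
        have hm := QuotientGroup.eq.1 (show (QuotientGroup.mk (rp x) : SU 3 GF4 2 ⧸ N0) = QuotientGroup.mk (rp y) from e)
        exact congrArg Prod.fst (hinj (a₁ := (x, ⟨_, hm⟩)) (a₂ := (y, 1)) (by simp))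
      · intro g
        obtain ⟨g, rfl⟩ := QuotientGroup.mk_surjective g
        obtain ⟨⟨x, n⟩, rfl⟩ := hbij.2 g
        exact ⟨x, (QuotientGroup.mk_mul_of_mem _ n.2).symm⟩
    exact ⟨(QuotientGroup.quotientQuotientEquivQuotient Z N0 hZN).trans (MulEquiv.ofBijective φ hφb).symm⟩

end Cfsg.Agent.Core.UnitaryThreeTwoQuotient
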