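import Cfsg.Agent.Core.OrthCohomologyData
import Cfsg.Agent.Forms.QuadOrder

/-!
# `Ω₆⁻(2)` inside `Ω₅(3)`

Both are generated by six reflections with the Gram graph of `E₆`; a bijection of the 36 non-singular
vectors of the first space with 36 non-singular points of the second one carries one action to the other.
-/

set_option autoImplicit false
set_option maxRecDepth 100000
set_option linter.style.haveILetI false

namespace Cfsg.Agent.Core.WeylESix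

open Matrix Cfsg.Agent.Forms Cfsg.Agent.Core.OrthCohomology
open scoped commutatorElement

def rootV : List (List ℕ) := [[0, 0, 1, 0, 2], [0, 0, 1, 1, 2], [0, 1, 0, 2, 0], [1, 0, 1, 1, 1], [1, 0, 1, 0, 1], [1, 0, 2, 1, 2]]
def pointW : List (List ℕ) := [[0, 0, 1, 0, 2], [0, 0, 2, 1, 1], [0, 0, 1, 1, 2], [0, 1, 2, 0, 1], [0, 1, 1, 0, 2], [1, 1, 0, 1, 2], [1, 1, 1, 1, 0], [0, 1, 0, 2, 0], [1, 1, 2, 1, 0], [1, 1, 0, 1, 1], [2, 1, 1, 1, 0], [2, 1, 2, 2, 1], [1, 1, 1, 0, 1], [1, 1, 2, 0, 2], [2, 1, 0, 1, 1], [2, 1, 1, 2, 2], [0, 1, 0, 2, 2], [2, 2, 2, 1, 1], [1, 0, 1, 1, 1], [2, 1, 2, 0, 2], [2, 1, 0, 1, 0], [1, 0, 2, 1, 2], [0, 1, 2, 2, 0], [2, 2, 1, 1, 2], [0, 2, 0, 1, 2], [2, 2, 0, 2, 0], [2, 0, 2, 1, 2], [0, 1, 1, 1, 1], [0, 2, 2, 1, 0], [0, 2, 1, 2, 1], [1, 2, 1, 2, 0], [1, 0, 1, 0, 1], [1, 2, 0, 2, 1], [1, 2, 2, 0, 2], [1, 0, 2, 2, 2], [2, 0, 1, 0, 1]]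
def permTable : List (List ℕ) := [[0, 2, 1, 4, 3, 8, 9, 7, 5, 6, 14, 15, 12, 13, 10, 11, 22, 23, 18, 19, 20, 21, 16, 17, 28, 25, 26, 27, 24, 29, 32, 31, 30, 33, 34, 35], [1, 0, 2, 3, 7, 5, 6, 4, 12, 13, 10, 11, 8, 9, 19, 20, 16, 25, 18, 14, 15, 21, 27, 23, 29, 17, 26, 22, 28, 24, 33, 31, 32, 30, 34, 35], [0, 3, 4, 1, 2, 5, 6, 7, 8, 9, 10, 17, 18, 21, 14, 23, 24, 11, 12, 26, 20, 13, 28, 15, 16, 25, 19, 27, 22, 29, 30, 31, 32, 34, 33, 35], [0, 1, 2, 5, 8, 3, 11, 12, 4, 15, 10, 6, 7, 20, 14, 9, 16, 17, 18, 19, 13, 21, 22, 23, 30, 25, 31, 27, 32, 33, 24, 26, 28, 29, 34, 35], [0, 1, 2, 3, 4, 10, 6, 7, 14, 9, 5, 16, 19, 13, 8, 22, 11, 24, 26, 12, 27, 21, 15, 28, 17, 29, 18, 20, 23, 25, 30, 31, 32, 33, 34, 35], [0, 1, 2, 6, 9, 11, 3, 13, 15, 4, 16, 5, 20, 7, 22, 8, 10, 17, 18, 27, 12, 21, 14, 23, 24, 25, 26, 19, 28, 29, 30, 31, 32, 33, 35, 34]]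
def rootIdx : List ℕ := [0, 2, 7, 18, 31, 21]
def combTwo : List (List ℕ) := [[0, 1, 0, 1, 0, 0], [1, 0, 0, 0, 1, 0], [1, 1, 0, 1, 0, 0], [1, 0, 0, 1, 1, 0], [1, 0, 1, 0, 1, 0], [0, 0, 0, 0, 0, 1]]
def combThree : List (List ℕ) := [[0, 0, 0, 1, 1, 2], [0, 0, 1, 1, 2, 0], [0, 2, 0, 2, 2, 2], [0, 0, 0, 1, 2, 0], [0, 1, 0, 0, 1, 2]]

/-- Coordinates of the five-dimensional space. -/
def eFive : Unit ⊕ (Fin 2 ⊕ Fin 2) ≃ Fin 5 :=
  (Equiv.sumCongr finOneEquiv.symm finSumFinEquiv).trans finSumFinEquiv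

/-- A vector over three elements. -/
def v3 (l : List ℕ) : Unit ⊕ (Fin 2 ⊕ Fin 2) → ZMod 3 := fun i => (l.getD (eFive i).val 0 : ℕ)

/-- The points of the first space. -/
def U (t : Fin 36) : (Fin 2 ⊕ Fin 2) ⊕ Fin 2 → ZMod 2 := vec (eMinus 2) (sixO.getD t.val (0, 0, 0)).1

/-- The points of the second space. -/
def W (t : Fin 36) : Unit ⊕ (Fin 2 ⊕ Fin 2) → ZMod 3 := v3 (pointW.getD t.val [])

/-- The roots of the second space. -/
def root3 (g : Fin 6) : Unit ⊕ (Fin 2 ⊕ Fin 2) → ZMod 3 := v3 (rootV.getD g.val [])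

/-- The action of a simple reflection on the points. -/
def act36 (g : Fin 6) (t : Fin 36) : Fin 36 := Fin.ofNat 36 ((permTable.getD g.val []).getD t.val 0)

/-- The indices of the roots. -/
def ridx (g : Fin 6) : Fin 36 := Fin.ofNat 36 (rootIdx.getD g.val 0)

theorem act36_invol : ∀ g t, act36 g (act36 g t) = t := by decide +kernel

/-- The matrix of a simple reflection of the second space (`Q = 2`). -/
def M3 (g : Fin 6) : Matrix (Unit ⊕ (Fin 2 ⊕ Fin 2)) (Unit ⊕ (Fin 2 ⊕ Fin 2)) (ZMod 3) :=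
  1 - (2 : ZMod 3) • Matrix.vecMulVec (root3 g) (Cfsg.polarVec (Cfsg.quadFormOdd 2 (ZMod 3)) (root3 g))

theorem root3_norm : ∀ g, Cfsg.quadFormOdd 2 (ZMod 3) (root3 g) = 2 := by decide +kernel

theorem check_two : ∀ g t, sixr g *ᵥ U t = U (act36 g t) := by decide +kernel

theorem check_three : ∀ g t, M3 g *ᵥ W t = W (act36 g t) ∨ M3 g *ᵥ W t = -W (act36 g t) := by decide +kernel

theorem U_inj : ∀ s t, U s = U t → s = t := by decide +kernel

theorem W_inj : ∀ s t, (W s = W t ∨ W s = -W t) → s = t := by decide +kernel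

theorem W_ne : ∀ g, W (ridx g) ≠ 0 := by decide +kernel

theorem edges : Cfsg.quadFormOdd 2 (ZMod 3) (W (ridx 0) + W (ridx 1)) ≠ Cfsg.quadFormOdd 2 (ZMod 3) (W (ridx 0) - W (ridx 1)) ∧
    Cfsg.quadFormOdd 2 (ZMod 3) (W (ridx 1) + W (ridx 2)) ≠ Cfsg.quadFormOdd 2 (ZMod 3) (W (ridx 1) - W (ridx 2)) ∧
    Cfsg.quadFormOdd 2 (ZMod 3) (W (ridx 2) + W (ridx 3)) ≠ Cfsg.quadFormOdd 2 (ZMod 3) (W (ridx 2) - W (ridx 3)) ∧
    Cfsg.quadFormOdd 2 (ZMod 3) (W (ridx 3) + W (ridx 4)) ≠ Cfsg.quadFormOdd 2 (ZMod 3) (W (ridx 3) - W (ridx 4)) ∧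
    Cfsg.quadFormOdd 2 (ZMod 3) (W (ridx 2) + W (ridx 5)) ≠ Cfsg.quadFormOdd 2 (ZMod 3) (W (ridx 2) - W (ridx 5)) := by
  decide +kernel

/-- The coefficients of the unit vectors in the roots. -/
def c2 (j : (Fin 2 ⊕ Fin 2) ⊕ Fin 2) (g : Fin 6) : ZMod 2 := ((combTwo.getD ((eMinus 2) j).val []).getD g.val 0 : ℕ)

/-- The coefficients of the unit vectors in the roots. -/
def c3 (j : Unit ⊕ (Fin 2 ⊕ Fin 2)) (g : Fin 6) : ZMod 3 := ((combThree.getD (eFive j).val []).getD g.val 0 : ℕ)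

theorem span_two : ∀ j, (∑ g, c2 j g • U (ridx g)) = Pi.single j 1 := by decide +kernel

theorem span_three : ∀ j, (∑ g, c3 j g • W (ridx g)) = Pi.single j 1 := by decide +kernel

/-- The isometry group of the first space. -/
abbrev G6 : Subgroup (Matrix.GeneralLinearGroup ((Fin 2 ⊕ Fin 2) ⊕ Fin 2) (ZMod 2)) :=
  Cfsg.isometryGroup (ZMod 2) ⇑(qMinus 2 (ZMod 2) 1 1)

/-- The isometry group of the second space. -/
abbrev G5 : Subgroup (Matrix.GeneralLinearGroup (Unit ⊕ (Fin 2 ⊕ Fin 2)) (ZMod 3)) :=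
  Cfsg.isometryGroup (ZMod 3) ⇑(qOdd 2 (ZMod 3))

/-- The matrix of an isometry. -/
def m5 (h : G5) : Matrix (Unit ⊕ (Fin 2 ⊕ Fin 2)) (Unit ⊕ (Fin 2 ⊕ Fin 2)) (ZMod 3) :=
  ((h : Matrix.GeneralLinearGroup (Unit ⊕ (Fin 2 ⊕ Fin 2)) (ZMod 3)) :
    Matrix (Unit ⊕ (Fin 2 ⊕ Fin 2)) (Unit ⊕ (Fin 2 ⊕ Fin 2)) (ZMod 3))

theorem m5_mul (g h : G5) : m5 (g * h) = m5 g * m5 h := rfl

theorem m5_one : m5 1 = 1 := rfl

/-- A simple reflection of the second space. -/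
noncomputable def s3 (g : Fin 6) : G5 := (isometryEquiv (qOdd 2 (ZMod 3))).symm (reflection (qOdd 2 (ZMod 3)) (root3 g))

theorem m5_s3 (g : Fin 6) : m5 (s3 g) = M3 g := by
  refine ((eq_reflection_iff _ _ (root3 g)).2 ((isometryEquiv _).apply_symm_apply _)).trans ?_
  rw [Cfsg.reflectionMatrix, coe_qOdd, root3_norm,
    inv_eq_of_mul_eq_one_right (show (2 : ZMod 3) * 2 = 1 by decide), M3]

/-- The pairs inducing the same permutation. -/
def Rel : Subgroup (G6 × G5) where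
  carrier := {x | ∃ σ : Equiv.Perm (Fin 36), ∀ t, mtx x.1 *ᵥ U t = U (σ t) ∧
    (m5 x.2 *ᵥ W t = W (σ t) ∨ m5 x.2 *ᵥ W t = -W (σ t))}
  one_mem' := ⟨1, fun t => ⟨by rw [Prod.fst_one, mtx_one, one_mulVec]; rfl,
    Or.inl (by rw [Prod.snd_one, m5_one, one_mulVec]; rfl)⟩⟩
  mul_mem' := by
    rintro x y ⟨σ, hσ⟩ ⟨τ, hτ⟩
    refine ⟨σ * τ, fun t => ?_⟩
    rw [Prod.fst_mul, Prod.snd_mul, mtx_mul, m5_mul, ← mulVec_mulVec, ← mulVec_mulVec, (hτ t).1, (hσ (τ t)).1]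
    refine ⟨rfl, ?_⟩
    rcases (hτ t).2 with e | e <;> rw [e] <;> rcases (hσ (τ t)).2 with e' | e' <;>
      simp [mulVec_neg, e', Equiv.Perm.mul_apply]
  inv_mem' := by
    rintro x ⟨σ, hσ⟩
    refine ⟨σ⁻¹, fun t => ?_⟩
    obtain ⟨s, rfl⟩ := σ.surjective t
    have h1 : mtx x⁻¹.1 * mtx x.1 = 1 := by
      rw [← mtx_mul, ← Prod.fst_mul, inv_mul_cancel, Prod.fst_one, mtx_one]
    have h2 : m5 x⁻¹.2 * m5 x.2 = 1 := by
      rw [← m5_mul, ← Prod.snd_mul, inv_mul_cancel, Prod.snd_one, m5_one]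
    have a := congrArg (mtx x⁻¹.1 *ᵥ ·) (hσ s).1
    simp only [mulVec_mulVec, h1, one_mulVec] at a
    rw [show σ⁻¹ (σ s) = s from σ.symm_apply_apply s]
    refine ⟨a.symm, ?_⟩
    rcases (hσ s).2 with e | e
    · have b := congrArg (m5 x⁻¹.2 *ᵥ ·) e
      simp only [mulVec_mulVec, h2, one_mulVec] at b
      exact Or.inl b.symm
    · have b := congrArg (m5 x⁻¹.2 *ᵥ ·) e
      simp only [mulVec_mulVec, h2, one_mulVec, mulVec_neg] at b
      exact Or.inr (by rw [b, neg_neg])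

/-- The generated group of pairs. -/
noncomputable def pairs : Subgroup (G6 × G5) := Subgroup.closure (Set.range fun g => (sixCert.s g, s3 g))

theorem pairs_le : pairs ≤ Rel := by
  rw [pairs, Subgroup.closure_le]
  rintro _ ⟨g, rfl⟩
  refine ⟨⟨act36 g, act36 g, act36_invol g, act36_invol g⟩, fun t => ⟨?_, ?_⟩⟩
  · rw [Cert.mtx_s]
    exact check_two g t
  · rw [m5_s3]
    exact check_three g t

theorem fst_map_pairs : pairs.map (MonoidHom.fst G6 G5) = ⊤ := by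
  rw [pairs, MonoidHom.map_closure, ← Set.range_comp]
  exact sixCert.closure_s (closure_reflectionSet_two (by decide)
    (qMinus_nondegenerate _ _ (by decide)) (Or.inr (by simp)))

theorem eq_one_of_fix_two {g : G6} (h : ∀ i, mtx g *ᵥ U (ridx i) = U (ridx i)) : g = 1 := by
  refine mtx_inj ?_
  rw [mtx_one]
  refine matrix_ext_mulVec fun v => ?_
  rw [one_mulVec, pi_eq_sum_univ' v, mulVec_sum]
  refine Finset.sum_congr rfl fun j _ => ?_
  rw [mulVec_smul, ← span_two j, mulVec_sum]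
  simp only [mulVec_smul, h]

theorem det_eq_one {h : G5} (hh : h ∈ commutator G5) : (m5 h).det = 1 := by
  let d : G5 →* (ZMod 3)ˣ := Matrix.GeneralLinearGroup.det.comp G5.subtype
  have h1 : Matrix.GeneralLinearGroup.det (h : Matrix.GeneralLinearGroup (Unit ⊕ (Fin 2 ⊕ Fin 2)) (ZMod 3)) = 1 :=
    (MonoidHom.mem_ker (f := d)).1 (Abelianization.commutator_subset_ker d hh)
  rw [m5, ← Matrix.GeneralLinearGroup.val_det_apply, h1, Units.val_one]

theorem eq_one_of_signs {h : G5} (hc : h ∈ commutator G5)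
    (hs : ∀ i, m5 h *ᵥ W (ridx i) = W (ridx i) ∨ m5 h *ᵥ W (ridx i) = -W (ridx i)) : h = 1 := by
  have hq : ∀ x, qOdd 2 (ZMod 3) (m5 h *ᵥ x) = qOdd 2 (ZMod 3) x := fun x => by
    rw [show m5 h *ᵥ x = (isometryEquiv _ h : _ ≃ₗ[ZMod 3] _) x from (isometryEquiv_apply _ h x).symm]
    exact (isometryEquiv _ h).2.2 x
  rw [coe_qOdd] at hq
  have same : ∀ i j : Fin 6, Cfsg.quadFormOdd 2 (ZMod 3) (W (ridx i) + W (ridx j)) ≠
      Cfsg.quadFormOdd 2 (ZMod 3) (W (ridx i) - W (ridx j)) →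
      ∀ ε : ZMod 3, (ε = 1 ∨ ε = -1) → m5 h *ᵥ W (ridx i) = ε • W (ridx i) →
        m5 h *ᵥ W (ridx j) = ε • W (ridx j) := by
    intro i j hne ε hε hi
    have hneg : ∀ x, Cfsg.quadFormOdd 2 (ZMod 3) (-x) = Cfsg.quadFormOdd 2 (ZMod 3) x := fun x => by
      simp [Cfsg.quadFormOdd]
    have key := hq (W (ridx i) + W (ridx j))
    rw [mulVec_add, hi] at key
    rcases hε with rfl | rfl <;> rcases hs j with e | e <;> rw [e] at key
    · rw [e, one_smul]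
    · exact absurd (key.symm.trans (by rw [one_smul, ← sub_eq_add_neg])) hne
    · refine absurd (key.symm.trans ?_) hne
      rw [show (-1 : ZMod 3) • W (ridx i) + W (ridx j) = -(W (ridx i) - W (ridx j)) by module, hneg]
    · rw [e, neg_one_smul]
  obtain ⟨ε, hε, h0⟩ : ∃ ε : ZMod 3, (ε = 1 ∨ ε = -1) ∧ m5 h *ᵥ W (ridx 0) = ε • W (ridx 0) := by
    rcases hs 0 with e | e
    · exact ⟨1, Or.inl rfl, by rw [e, one_smul]⟩
    · exact ⟨-1, Or.inr rfl, by rw [e, neg_one_smul]⟩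
  obtain ⟨e01, e12, e23, e34, e25⟩ := edges
  have h1 := same 0 1 e01 ε hε h0
  have h2 := same 1 2 e12 ε hε h1
  have h3 := same 2 3 e23 ε hε h2
  have h4 := same 3 4 e34 ε hε h3
  have h5 := same 2 5 e25 ε hε h2
  have hall : ∀ i, m5 h *ᵥ W (ridx i) = ε • W (ridx i) := by
    intro i
    fin_cases i <;> assumption
  have hm : m5 h = ε • 1 := by
    refine matrix_ext_mulVec fun v => ?_
    rw [smul_mulVec, one_mulVec, pi_eq_sum_univ' v, mulVec_sum, Finset.smul_sum]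
    refine Finset.sum_congr rfl fun j _ => ?_
    rw [mulVec_smul, ← span_three j, mulVec_sum]
    simp only [mulVec_smul, hall, Finset.smul_sum, smul_smul]
    refine Finset.sum_congr rfl fun g _ => ?_
    congr 1
    ring
  have hd := det_eq_one hc
  rw [hm, det_smul, det_one, mul_one] at hd
  have : ε = 1 := by
    rcases hε with rfl | rfl
    · rfl
    · exact absurd hd (by decide +kernel)
  subst this
  rw [one_smul] at hm
  exact Subtype.ext (Units.ext hm)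

/-- `Ω₆⁻(2)` embeds in `Ω₅(3)`. -/
theorem exists_embedding : ∃ ψ : ↥(commutator G6) →* ↥(commutator G5), Function.Injective ψ := by
  set D : Subgroup (G6 × G5) := ⁅pairs, pairs⁆ with hD
  have h1 : D.map (MonoidHom.fst G6 G5) = commutator G6 := by
    rw [hD, Subgroup.map_commutator, fst_map_pairs, commutator_def]
  have h2 : D.map (MonoidHom.snd G6 G5) ≤ commutator G5 := by
    rw [hD, Subgroup.map_commutator, commutator_def]
    exact Subgroup.commutator_mono le_top le_top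
  have hrel : ∀ x ∈ D, x ∈ Rel := fun x hx =>
    pairs_le ((Subgroup.commutator_le.2 fun a ha b hb => by
      rw [commutatorElement_def]
      exact mul_mem (mul_mem (mul_mem ha hb) (inv_mem ha)) (inv_mem hb)) hx)
  let p1 : D →* ↥(commutator G6) := ((MonoidHom.fst G6 G5).comp D.subtype).codRestrict _
    fun x => h1 ▸ Subgroup.mem_map_of_mem _ x.2
  let p2 : D →* ↥(commutator G5) := ((MonoidHom.snd G6 G5).comp D.subtype).codRestrict _
    fun x => h2 (Subgroup.mem_map_of_mem _ x.2)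
  have i1 : Function.Injective p1 := by
    rw [← MonoidHom.ker_eq_bot_iff, Subgroup.eq_bot_iff_forall]
    intro x hx
    have hx1 : x.1.1 = 1 := congrArg Subtype.val (MonoidHom.mem_ker.1 hx)
    obtain ⟨σ, hσ⟩ := hrel x.1 x.2
    have hσ1 : ∀ t, σ t = t := fun t => U_inj _ _ (by rw [← (hσ t).1, hx1, mtx_one, one_mulVec])
    have hx2 : x.1.2 = 1 := eq_one_of_signs (h2 (Subgroup.mem_map_of_mem _ x.2)) fun i => by
      have := (hσ (ridx i)).2
      rwa [hσ1] at this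
    exact Subtype.ext (Prod.ext hx1 hx2)
  have s1 : Function.Surjective p1 := by
    intro g
    obtain ⟨x, hx, e⟩ : (g : G6) ∈ D.map (MonoidHom.fst G6 G5) := h1.symm ▸ g.2
    exact ⟨⟨x, hx⟩, Subtype.ext e⟩
  have i2 : Function.Injective p2 := by
    rw [← MonoidHom.ker_eq_bot_iff, Subgroup.eq_bot_iff_forall]
    intro x hx
    have hx2 : x.1.2 = 1 := congrArg Subtype.val (MonoidHom.mem_ker.1 hx)
    obtain ⟨σ, hσ⟩ := hrel x.1 x.2
    have hσ1 : ∀ t, σ t = t := fun t => (W_inj _ _ (by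
      have := (hσ t).2
      rwa [hx2, m5_one, one_mulVec] at this)).symm
    have hx1 : x.1.1 = 1 := eq_one_of_fix_two fun i => by rw [(hσ (ridx i)).1, hσ1]
    exact Subtype.ext (Prod.ext hx1 hx2)
  exact ⟨p2.comp (MulEquiv.ofBijective p1 ⟨i1, s1⟩).symm.toMonoidHom,
    i2.comp (MulEquiv.ofBijective p1 ⟨i1, s1⟩).symm.injective⟩

end Cfsg.Agent.Core.WeylESix
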